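import Mathlib

/-! Thue's lemma for the form `x ^ 2 + 5 * y ^ 2` (piece N of S4294). -/
set_option autoImplicit false
namespace H14.AmN

theorem thue (p : ℕ) (hp : p.Prime) (h : IsSquare (-5 : ZMod p)) :
    ∃ x y m : ℤ, 0 < m ∧ m < 6 ∧ x ^ 2 + 5 * y ^ 2 = p * m := by
  haveI : NeZero p := ⟨hp.ne_zero⟩
  obtain ⟨r, hr⟩ := h
  have hs1 : p.sqrt * p.sqrt < p := by
    refine lt_of_le_of_ne (Nat.sqrt_le p) fun he => ?_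
    exact hp.not_isSquare ⟨_, he.symm⟩
  have hs2 : p < (p.sqrt + 1) * (p.sqrt + 1) := Nat.lt_succ_sqrt p
  obtain ⟨a, b, hab, he⟩ := Fintype.exists_ne_map_eq_of_card_lt
    (fun a : Fin (p.sqrt + 1) × Fin (p.sqrt + 1) => ((a.1 : ℕ) : ZMod p) - r * ((a.2 : ℕ) : ZMod p))
    (by simpa [ZMod.card] using hs2)
  have hd : (p : ℤ) ∣ (((a.1 : ℕ) : ℤ) - (b.1 : ℕ)) ^ 2 + 5 * (((a.2 : ℕ) : ℤ) - (b.2 : ℕ)) ^ 2 := by
    rw [← ZMod.intCast_zmod_eq_zero_iff_dvd]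
    push_cast
    have h1 : ((a.1 : ℕ) : ZMod p) - ((b.1 : ℕ) : ZMod p) = r * (((a.2 : ℕ) : ZMod p) - ((b.2 : ℕ) : ZMod p)) := by
      linear_combination he
    rw [h1]
    linear_combination (-(((a.2 : ℕ) : ZMod p) - ((b.2 : ℕ) : ZMod p)) ^ 2) * hr
  obtain ⟨m, hm⟩ := hd
  have ha1 : ((a.1 : ℕ) : ℤ) ≤ p.sqrt := by exact_mod_cast Nat.lt_succ_iff.1 a.1.2
  have ha2 : ((a.2 : ℕ) : ℤ) ≤ p.sqrt := by exact_mod_cast Nat.lt_succ_iff.1 a.2.2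
  have hb1 : ((b.1 : ℕ) : ℤ) ≤ p.sqrt := by exact_mod_cast Nat.lt_succ_iff.1 b.1.2
  have hb2 : ((b.2 : ℕ) : ℤ) ≤ p.sqrt := by exact_mod_cast Nat.lt_succ_iff.1 b.2.2
  have hs : (p.sqrt : ℤ) * p.sqrt < p := by exact_mod_cast hs1
  have hp0 : (0 : ℤ) < p := by exact_mod_cast hp.pos
  have hx : (((a.1 : ℕ) : ℤ) - (b.1 : ℕ)) ^ 2 ≤ (p.sqrt : ℤ) ^ 2 :=
    sq_le_sq' (by omega) (by omega)
  have hy : (((a.2 : ℕ) : ℤ) - (b.2 : ℕ)) ^ 2 ≤ (p.sqrt : ℤ) ^ 2 :=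
    sq_le_sq' (by omega) (by omega)
  have hpos : 0 < (((a.1 : ℕ) : ℤ) - (b.1 : ℕ)) ^ 2 + 5 * (((a.2 : ℕ) : ℤ) - (b.2 : ℕ)) ^ 2 := by
    by_cases h1 : ((a.1 : ℕ) : ℤ) - (b.1 : ℕ) = 0
    · have h2 : ((a.2 : ℕ) : ℤ) - (b.2 : ℕ) ≠ 0 := fun h2 =>
        hab (Prod.ext (Fin.ext (by omega)) (Fin.ext (by omega)))
      positivity
    · positivity
  refine ⟨_, _, m, ?_, ?_, hm⟩
  · rw [hm] at hpos
    exact (mul_pos_iff_of_pos_left hp0).1 hpos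
  · have : (p : ℤ) * m < p * 6 := by nlinarith
    exact lt_of_mul_lt_mul_left this hp0.le

theorem pN (p : ℕ) (hp : p.Prime) (h : IsSquare (-5 : ZMod p)) :
    ∃ u v c d : ℤ, c ^ 2 + d ^ 2 ≠ 0 ∧ (p:ℤ) * (c ^ 2 + d ^ 2) = u ^ 2 + 5 * v ^ 2 := by
  obtain ⟨x, y, m, h0, h6, hm⟩ := thue p hp h
  interval_cases m
  · exact ⟨x, y, 1, 0, by norm_num, by linear_combination -hm⟩
  · exact ⟨x, y, 1, 1, by norm_num, by linear_combination -hm⟩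
  · exact ⟨x - 5 * y, x + y, 3, 3, by norm_num, by linear_combination (-6) * hm⟩
  · exact ⟨x, y, 2, 0, by norm_num, by linear_combination -hm⟩
  · exact ⟨x, y, 2, 1, by norm_num, by linear_combination -hm⟩

end H14.AmN
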