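import Cfsg.Agent.S4717
import Cfsg.Agent.H7.Cover
import Cfsg.Agent.H5.Galois
import Cfsg.Agent.H14.BkM22
import Cfsg.Agent.H14.BkM24
import Cfsg.Agent.H14.CvM222
import Cfsg.Agent.H14.CvM223
import Cfsg.Agent.H14.M24Cen
import Cfsg.Agent.L.Br

/-! `M22` and `M24` have a single 2-block. -/

set_option autoImplicit false

namespace H14
open Cfsg H7 H5 Subgroup

section gen
variable {G : Type*} [Group G] [Finite G] {χ : G → ℂ}

/-- `C(y)` has a self-centralising normal `p`-subgroup. -/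
def Con (p : ℕ) (y : G) : Prop := ∃ Q : Subgroup G, IsPGroup p Q ∧ Q ≤ centralizer {y} ∧
  centralizer {y} ≤ normalizer (Q : Set G) ∧ centralizer (Q : Set G) ≤ Q

theorem single_of {p : ℕ} [Fact p.Prime] {M : Ideal AlgInt} (hM : IsPModular p M) {Q : Subgroup G} [Q.Normal]
    (hQ : IsPGroup p Q) (hc : centralizer (Q : Set G) ≤ Q) (χ ψ : IrrCharacter G) :
    SameBlock M (χ : G → ℂ) (ψ : G → ℂ) := by
  haveI : H7.PM p M := ⟨hM⟩
  refine (sameBlock_iff_pRegular (p := p) χ.2 ψ.2).2 fun g hg => ?_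
  by_cases h1 : g = 1
  · rw [h1, centralChar_one χ.2.apply_one_ne_zero, centralChar_one ψ.2.apply_one_ne_zero]
  have key : ∀ η : IrrCharacter G, red M (centralChar (η : G → ℂ) g) = 0 := fun η =>
    by_contra fun h => h1 ((isPE_of_mem hQ (hc (mem_centralizer_of_lam η.2 hQ h))).eq_one hg)
  rw [key, key]

theorem one_block {p : ℕ} [Fact p.Prime] {M : Ideal AlgInt} (hM : IsPModular p M)
    (h1 : ∀ y : G, orderOf y = p → Con p y)
    (h2 : ∀ χ : IrrCharacter G, ¬ p ^ (Nat.card G).factorization p ∣ charDegree (χ : G → ℂ))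
    (χ ψ : IrrCharacter G) : SameBlock M (χ : G → ℂ) (ψ : G → ℂ) := by
  haveI : H7.PM p M := ⟨hM⟩
  have hp : p.Prime := Fact.out
  have key := (Cfsg.Agent.S4717.result (G := G) p M hM 1).2 one_pos fun y hy B hB hne => by
    obtain ⟨Q, hQ, a, b, c⟩ := h1 y hy
    obtain ⟨η, rfl⟩ := hB
    haveI : (Q.subgroupOf (centralizer {y})).Normal := (normal_subgroupOf_iff_le_normalizer a).2 b
    refine absurd (blockOf_eq_of_sameBlock (single_of hM (Q := Q.subgroupOf (centralizer {y}))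
      (hQ.of_equiv (subgroupOfEquivOfLe a).symm) (fun g hg => c fun q hq => ?_) η (irrOne _))) hne
    exact congrArg Subtype.val (hg ⟨q, a hq⟩ hq)
  have k2 : ∀ η : IrrCharacter G, blockOf M (η : G → ℂ) = principalBlock M G := fun η => by
    by_contra hne
    have h3 := key _ (isPBlock_blockOf η) hne
    have h4 := Nat.sInf_mem (s := (fun χ : IrrCharacter G => (charDegree (χ : G → ℂ)).factorization p) ''
      blockOf M (η : G → ℂ)) ⟨_, η, mem_blockOf_self η, rfl⟩
    obtain ⟨ξ, -, h5⟩ := h4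
    unfold blockDefect at h3
    refine h2 ξ ((hp.pow_dvd_iff_le_factorization ξ.2.charDegree_pos.ne').2 ?_)
    simp only at h5
    omega
  have := mem_blockOf_self (M := M) ψ
  rwa [k2 ψ, ← k2 χ] at this

theorem val3 (hχ : IsIrrCharacter G χ) {x : G} (h3 : orderOf x = 3) (hr : IsConj x (x ^ 2)) {i : ℕ}
    (hi : (centralizer ({x} : Set G)).index = i) : ∃ a : ℤ, χ x = a ∧ (charDegree χ : ℤ) ∣ i * a ∧
      (charDegree χ : ℤ) ^ 2 + i * a ^ 2 ≤ Nat.card G := by
  classical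
  have := Fintype.ofFinite G
  obtain ⟨a, ha⟩ := hχ.isCharacter.exists_int_of_forall_pow (g := x) fun k hk => by
    rw [← pow_mod_orderOf, h3]
    rw [h3] at hk
    have : k % 3 = 1 ∨ k % 3 = 2 := by
      have : k % 3 ≠ 0 := fun e => by
        have := Nat.Coprime.eq_one_of_dvd hk.symm (Nat.dvd_of_mod_eq_zero e)
        omega
      omega
    rcases this with e | e <;> rw [e]
    · rw [pow_one]
    · exact (hχ.isClassFunction.eq_of_isConj hr).symm
  have hd : (charDegree χ : ℂ) ≠ 0 := by exact_mod_cast hχ.charDegree_pos.ne'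
  refine ⟨a, ha, ?_, ?_⟩
  · have h1 := hχ.isIntegral_centralChar x
    rw [centralChar, hi, ha, ← hχ.coe_charDegree] at h1
    have h2 : IsIntegral ℤ ((((i * a : ℤ) : ℚ) / ((charDegree χ : ℤ) : ℚ) : ℚ)) := by
      rw [← isIntegral_algebraMap_iff (B := ℂ) (algebraMap ℚ ℂ).injective]
      convert h1 using 1; simp
    obtain ⟨c, hc⟩ := IsIntegrallyClosed.isIntegral_iff.1 h2
    refine ⟨c, ?_⟩
    have h0 : ((charDegree χ : ℤ) : ℚ) ≠ 0 := by exact_mod_cast hχ.charDegree_pos.ne'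
    rw [eq_div_iff h0] at hc
    have : ((i * a : ℤ) : ℚ) = ((charDegree χ * c : ℤ) : ℚ) := by rw [← hc]; simp; ring
    exact_mod_cast this
  · have h1 := hχ.sum_norm_sq
    have x1 : ¬ IsConj x 1 := fun e => by rw [isConj_one_left.1 e, orderOf_one] at h3; omega
    have h2 : ∑ g ∈ insert 1 (Finset.univ.filter fun g => IsConj x g), ‖χ g‖ ^ 2 ≤ ∑ g, ‖χ g‖ ^ 2 :=
      Finset.sum_le_sum_of_subset_of_nonneg (Finset.subset_univ _) fun _ _ _ => by positivity
    rw [Finset.sum_insert (by simpa using x1), h1, hχ.isCharacter.norm_apply_one,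
      Finset.sum_congr rfl (g := fun _ => (a : ℝ) ^ 2) fun g hg => by
        rw [← hχ.isClassFunction.eq_of_isConj (Finset.mem_filter.1 hg).2, ha, Complex.norm_intCast, sq_abs],
      Finset.sum_const, card_filter_isConj, hi, nsmul_eq_mul] at h2
    exact_mod_cast h2

theorem sum_sub (hχ : IsCharacter G χ) (P : Subgroup G) (R : G → Prop) {a b : ℤ} {m n : ℕ}
    (ha : ∀ g ∈ P, g ≠ 1 → R g → χ g = a) (hb : ∀ g ∈ P, g ≠ 1 → ¬ R g → χ g = b)
    (hm : {g | g ∈ P ∧ (g ≠ 1 ∧ R g)}.ncard = m) (hn : {g | g ∈ P ∧ (g ≠ 1 ∧ ¬ R g)}.ncard = n) :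
    (Nat.card P : ℤ) ∣ charDegree χ + m * a + n * b := by
  classical
  have := Fintype.ofFinite P
  obtain ⟨k, hk⟩ := (hχ.restrict P).exists_classInner_nat isIrrCharacter_one.isCharacter
  have h1 := card_mul_classInner (fun x : P => χ x) (fun _ => 1)
  have c : ∀ (S : G → Prop) [DecidablePred fun x : P => S x] (t : ℕ), {g | g ∈ P ∧ S g}.ncard = t →
      (Finset.univ.filter fun x : P => S x).card = t := fun S _ t ht => by
    rw [← ht, ← Set.ncard_coe_finset, ← Set.ncard_image_of_injective _ Subtype.val_injective]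
    congr 1; ext g; simp [and_comm]
  have e : ∀ x : P, χ x * (starRingEnd ℂ) 1 = (if x = 1 then (charDegree χ : ℂ) else 0) +
      (if (x : G) ≠ 1 ∧ R x then (a : ℂ) else 0) + if (x : G) ≠ 1 ∧ ¬ R x then (b : ℂ) else 0 := fun x => by
    by_cases h : x = 1
    · subst h; simp [hχ.coe_charDegree]
    · have h' : (x : G) ≠ 1 := fun e => h (Subtype.ext e)
      by_cases r : R x
      · simp [h, h', r, ha x x.2 h' r]
      · simp [h, h', r, hb x x.2 h' r]
  rw [hk, Finset.sum_congr rfl fun x _ => e x, Finset.sum_add_distrib, Finset.sum_add_distrib,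
    ← Finset.sum_filter, ← Finset.sum_filter, ← Finset.sum_filter, Finset.sum_const, Finset.sum_const,
    Finset.sum_const, c (fun g => g ≠ 1 ∧ R g) _ hm, c (fun g => g ≠ 1 ∧ ¬ R g) _ hn, Finset.filter_eq', if_pos (Finset.mem_univ _)] at h1
  refine ⟨k, ?_⟩
  simp only [Finset.card_singleton, nsmul_eq_mul] at h1
  have : ((charDegree χ + m * a + n * b : ℤ) : ℂ) = ((Nat.card P * k : ℤ) : ℂ) := by
    push_cast; rw [h1]; simp
  exact_mod_cast this

theorem idx_eq {H : Subgroup G} {N c i : ℕ} (hN : Nat.card G = N) (hc : Nat.card H = c) (h : i * c = N) :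
    H.index = i :=
  Nat.eq_of_mul_eq_mul_right (hc ▸ Nat.card_pos) (by rw [h, ← hN, ← hc, H.index_mul_card])

theorem con_of {Ω : Type*} [MulAction G Ω] {n p : ℕ} {N : List Net} (M : PM G Ω n N) {z : Word}
    (h : ∀ M : PM G Ω n N, Con p (ev M.gen z)) {y : G} (hy : IsConj (ev M.gen z) y) : Con p y := by
  obtain ⟨g, rfl⟩ := isConj_iff.1 hy
  rw [← L.ev_cjM]; exact h _

end gen

theorem block22 {M : Ideal AlgInt} (hM : IsPModular 2 M) (χ ψ : IrrCharacter G22) :
    SameBlock M (χ : G22 → ℂ) (ψ : G22 → ℂ) := by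
  have P := L.p22 M22c.nets M22c_ok (by decide +kernel) (by decide +kernel)
  have hN := card_G22
  refine one_block hM (fun y hy => ?_) (fun η h => ?_) χ ψ
  · rcases L.CvM222.cover P hN y (hy ▸ pow_orderOf_eq_one y) with rfl | ⟨w, hw, e⟩
    · simp at hy
    · rw [List.mem_singleton.1 hw] at e
      exact con_of P (z := L.BkM22.a) (fun P => L.BkM22.acon P hN) e
  have c : ∀ g : G22, g ^ 3 = 1 → g ≠ 1 → IsConj (ev P.gen L.BkM22.x) g := fun g h1 h2 => by
    rcases L.CvM223.cover P hN g h1 with rfl | ⟨w, hw, e⟩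
    · exact absurd rfl h2
    · rw [List.mem_singleton.1 hw] at e; exact e
  have ho := L.BkM22.ordx P hN
  have hi : (centralizer {ev P.gen L.BkM22.x}).index = 12320 := by
    have := (centralizer {ev P.gen L.BkM22.x}).index_mul_card
    rw [(L.BkM22.xeqC P hN).1, (L.BkM22.xeqC P hN).2, hN] at this
    rw [(L.BkM22.xeqC P hN).1]; omega
  obtain ⟨a, h1, h2, h3⟩ := val3 η.2 ho (c _ (by rw [← pow_mul, mul_comm, pow_mul, ← ho, pow_orderOf_eq_one, one_pow])
    (pow_ne_one_of_lt_orderOf (by decide) (by omega))) hi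
  have hc : Nat.card (sub P.gen L.BkM22.s) = 9 := L.BkM22.s_card P hN
  have h4 := sum_sub η.2.isCharacter (sub P.gen L.BkM22.s) (fun _ => True) (a := a) (b := 0) (m := 8) (n := 0)
    (fun g hg g1 _ => by
      rw [← η.2.isClassFunction.eq_of_isConj (c g ((L.BkM22.s_el P hN).2 g hg) g1), h1])
    (fun _ _ _ h => absurd trivial h) (by
      have := Set.ncard_diff_singleton_of_mem (s := (sub P.gen L.BkM22.s : Set G22)) (one_mem _)
      rw [show (sub P.gen L.BkM22.s : Set G22).ncard = 9 from hc] at this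
      rw [show 8 = 9 - 1 from rfl, ← this]; congr 1; ext; simp) (by simp)
  have h5 := η.2.charDegree_dvd_card
  rw [hN] at h h3 h5
  rw [hc] at h4
  rw [show (443520 : ℕ).factorization 2 = 7 by
    rw [show 443520 = 2 ^ 7 * 3465 by norm_num, Nat.factorization_mul (by norm_num) (by norm_num),
      Nat.factorization_pow]
    simp [Nat.factorization_eq_zero_of_not_dvd (show ¬ 2 ∣ 3465 by norm_num), Nat.prime_two.factorization]] at h
  obtain ⟨m, hm⟩ := h
  have hp := η.2.charDegree_pos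
  rw [hm] at h2 h3 h4 h5 hp
  push_cast at h2 h3 h4
  have b1 : m ≤ 5 := by by_contra hh; push Not at hh; nlinarith [sq_nonneg a]
  have b2 : a ≤ 6 := by by_contra hh; nlinarith [sq_nonneg (m : ℤ)]
  have b3 : -6 ≤ a := by by_contra hh; nlinarith [sq_nonneg (m : ℤ)]
  interval_cases m <;> omega

theorem S3_cube {g : M24} (hg : g ∈ sub M0.gen wS3) : g ^ 3 = 1 :=
  covS3.all (F := arF 24 M24c.nets 5) (A := arI 24 5) (P := fun g => g ^ 3 = 1)
    (f := fun w _ => Nat.beq (arW 24 M24c.nets 5 (powW w 3)) (arW 24 M24c.nets 5 [])) (by decide +kernel)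
    (fun w h => by rw [← ev_powW]; exact M0.ev_eq (D := 5) (by norm_num) (by norm_num) h) g hg

theorem S3_B : {g | g ∈ sub M0.gen wS3 ∧ (g ≠ 1 ∧ nfix GolayPt g = 0)}.ncard = 12 := by
  have := covS3.ncard_eq (cardS3.trans (by decide +kernel)) (F := arF 24 M24c.nets 5) (A := arI 24 5)
    (P := fun g => nfix GolayPt g = 0) (f := fun _ A => Nat.beq (pop 24 (agr 24 5 A (arI 24 5))) 0)
    fun w _ => by rw [nfix, M0.ncard_fix (D := 5) (by norm_num), beq_iff]; rfl
  refine Eq.trans ?_ (this.trans (by decide +kernel))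
  congr 1; ext g
  refine ⟨fun h => ⟨h.1, h.2.2⟩, fun h => ⟨h.1, fun e => ?_, h.2⟩⟩
  have := h.2
  rw [e, ← nfix_eq_card] at this
  simp at this

theorem S3_A : {g | g ∈ sub M0.gen wS3 ∧ (g ≠ 1 ∧ ¬ nfix GolayPt g = 0)}.ncard = 14 := by
  have := covS3.ncard_eq (cardS3.trans (by decide +kernel)) (F := arF 24 M24c.nets 5) (A := arI 24 5)
    (P := fun g => g ≠ 1 ∧ ¬ nfix GolayPt g = 0)
    (f := fun _ A => !Nat.beq A (arI 24 5) && !Nat.beq (pop 24 (agr 24 5 A (arI 24 5))) 0)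
    fun w _ => by
      rw [nfix, M0.ncard_fix (D := 5) (by norm_num), Bool.and_eq_true, Bool.not_eq_true', Bool.not_eq_true',
        ← Bool.not_eq_true, ← Bool.not_eq_true, beq_iff, beq_iff]
      exact and_congr (not_congr (M0.arW_iff (D := 5) (u := w) (v := []) (by norm_num) (by norm_num)).symm) Iff.rfl
  exact this.trans (by decide +kernel)

theorem fin24 : ∀ m : ℕ, m < 16 → 0 < m → 2 ^ 10 * m ∣ 244823040 → ∀ a : ℕ, a < 65 →
    1024 * (m : ℤ) ∣ 226688 * ((a : ℕ) - 32) → ∀ b : ℕ, b < 45 → 1024 * (m : ℤ) ∣ 485760 * ((b : ℕ) - 22) →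
      27 ∣ 1024 * (m : ℤ) + 12 * ((b : ℕ) - 22) + 14 * ((a : ℕ) - 32) → (m = 11 ∨ m = 15) ∧ ((b : ℕ) - 22 : ℤ) = 16 := by
  have : (List.range 16).all (fun m : ℕ => decide (0 < m → 2 ^ 10 * m ∣ 244823040 → (List.range 65).all (fun a : ℕ =>
      decide (1024 * (m : ℤ) ∣ 226688 * (a - 32) → (List.range 45).all (fun b : ℕ =>
        decide (1024 * (m : ℤ) ∣ 485760 * (b - 22) → 27 ∣ 1024 * (m : ℤ) + 12 * (b - 22) + 14 * (a - 32) →
          (m = 11 ∨ m = 15) ∧ (b - 22 : ℤ) = 16)) = true)) = true)) = true := by decide +kernel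
  simp only [List.all_eq_true, List.mem_range, decide_eq_true_eq] at this
  exact fun m h1 h2 h3 a h4 h5 b h6 => this m h1 h2 h3 a h4 h5 b h6

theorem block24 {M : Ideal AlgInt} (hM : IsPModular 2 M) (χ ψ : IrrCharacter M24) :
    SameBlock M (χ : M24 → ℂ) (ψ : M24 → ℂ) := by
  have hN := card_M24
  refine one_block hM (fun y hy => ?_) (fun η h => ?_) χ ψ
  · rcases cls2 hy with ⟨-, g, e⟩ | ⟨-, g, e⟩
    · refine con_of M0 (z := L.BkM24.a) (fun P => L.BkM24.acon P hN) ?_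
      rw [show L.BkM24.a = zA by decide +kernel]; exact (isConj_iff.2 ⟨g, e⟩).symm
    · refine con_of M0 (z := L.BkM24.b) (fun P => L.BkM24.bcon P hN) ?_
      rw [show L.BkM24.b = zB by decide +kernel]; exact (isConj_iff.2 ⟨g, e⟩).symm
  have o3 : ∀ {g : M24}, g ^ 3 = 1 → g ≠ 1 → orderOf g = 3 := fun h1 h2 => orderOf_eq_prime h1 h2
  have sq : ∀ {g : M24}, orderOf g = 3 → orderOf (g ^ 2) = 3 ∧ nfix GolayPt (g ^ 2) = nfix GolayPt g :=
    fun {g} hg => by
      have h3 : g ^ 3 = 1 := hg ▸ pow_orderOf_eq_one g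
      refine ⟨(Nat.Coprime.orderOf_pow (by rw [hg]; decide)).trans hg, ?_⟩
      rw [show g ^ 2 = g⁻¹ from eq_inv_of_mul_eq_one_left (by rw [← pow_succ, h3])]
      unfold nfix; congr 1; ext x; exact inv_smul_eq_iff.trans eq_comm
  have iA : (centralizer {ev M0.gen xA}).index = 226688 := by
    exact idx_eq hN cardCxA (by norm_num)
  have iB : (centralizer {ev M0.gen xB}).index = 485760 := by
    exact idx_eq hN cardCxB (by norm_num)
  obtain ⟨a, a1, a2, a3⟩ := val3 η.2 ord_xA (isConj_iff.2 (cls3A (sq ord_xA).1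
    (((sq ord_xA).2.trans nfix_xA).trans_ne (by norm_num)))).symm iA
  obtain ⟨b, b1, b2, b3⟩ := val3 η.2 ord_xB (isConj_iff.2 (cls3B (sq ord_xB).1
    ((sq ord_xB).2.trans nfix_xB))).symm iB
  have h4 := sum_sub η.2.isCharacter (sub M0.gen wS3) (fun g => nfix GolayPt g = 0) (a := b) (b := a)
    (fun g hg g1 r => by
      rw [η.2.isClassFunction.eq_of_isConj (isConj_iff.2 (cls3B (o3 (S3_cube hg) g1) r)), b1])
    (fun g hg g1 r => by
      rw [η.2.isClassFunction.eq_of_isConj (isConj_iff.2 (cls3A (o3 (S3_cube hg) g1) r)), a1]) S3_B S3_A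
  have h5 := η.2.charDegree_dvd_card
  rw [hN] at h a3 b3 h5
  rw [cardS3] at h4
  rw [show (244823040 : ℕ).factorization 2 = 10 by
    rw [show 244823040 = 2 ^ 10 * 239085 by norm_num, Nat.factorization_mul (by norm_num) (by norm_num),
      Nat.factorization_pow]
    simp [Nat.factorization_eq_zero_of_not_dvd (show ¬ 2 ∣ 239085 by norm_num), Nat.prime_two.factorization]] at h
  obtain ⟨m, hm⟩ := h
  have hp := η.2.charDegree_pos
  rw [hm] at a2 a3 b2 b3 h4 h5 hp
  push_cast at a2 a3 b2 b3 h4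
  have c1 : m ≤ 15 := by by_contra hh; push Not at hh; nlinarith [sq_nonneg a]
  have c2 : a ≤ 32 := by by_contra hh; nlinarith [sq_nonneg (m : ℤ)]
  have c3 : -32 ≤ a := by by_contra hh; nlinarith [sq_nonneg (m : ℤ)]
  have c4 : b ≤ 22 := by by_contra hh; nlinarith [sq_nonneg (m : ℤ)]
  have c5 : -22 ≤ b := by by_contra hh; nlinarith [sq_nonneg (m : ℤ)]
  have c6 : (m = 11 ∨ m = 15) ∧ b = 16 := by
    obtain ⟨a', rfl⟩ : ∃ a' : ℕ, a = a' - 32 := ⟨(a + 32).toNat, by omega⟩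
    obtain ⟨b', rfl⟩ : ∃ b' : ℕ, b = b' - 22 := ⟨(b + 22).toNat, by omega⟩
    exact fin24 m (by omega) (by omega) h5 a' (by omega) a2 b' (by omega) b2 h4
  obtain ⟨rfl | rfl, rfl⟩ := c6 <;> norm_num at b3

end H14
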