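import Cfsg.Agent.H8.Bs1

/-! Bases of size two, primitive case: existence of the structure `PS` (`x1`). -/

set_option autoImplicit false
set_option linter.unusedSectionVars false

namespace H14.BsX1
open Subgroup Cfsg H18 H21 H21.Rb H8.Bs
open scoped commutatorElement

variable {G : Type*} [Group G] [Finite G] {A Z X : Subgroup G}

theorem sq_eq {g z : G} (hg : g ^ 4 = 1) (hz : z ∈ zpowers g) (h : z ^ 2 ≠ 1) : z ^ 2 = g ^ 2 := by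
  obtain ⟨i, rfl⟩ := hz
  have e : ∀ k : ℤ, (g ^ (2 * k)) ^ 2 = 1 := fun k => by
    rw [← zpow_natCast, ← zpow_mul, show 2 * k * (2 : ℕ) = (4 : ℕ) * k by push_cast; ring, zpow_mul, zpow_natCast, hg,
      one_zpow]
  obtain ⟨k, rfl | rfl⟩ := Int.even_or_odd' i
  · exact (h (e k)).elim
  · show (g ^ (2 * k + 1)) ^ 2 = _
    rw [zpow_add_one, ((Commute.refl g).zpow_left _).mul_pow, e, one_mul]

theorem key (hX : Chief A Z X) (cZ : Cyc Z) (XC : X ≤ C(Z)) (dX : ⁅X, X⁆ ≤ Z) (hc : X ⊓ C(X) ≤ Z)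
    (h4 : ∀ z ∈ Z, z ^ 4 = 1) : ∀ x ∈ X, x ^ 2 ∈ Z ∧ x ^ 4 = 1 := by
  have cm : ∀ {x y}, x ∈ X → y ∈ X → ⁅x, y⁆ ∈ Z := fun hx hy => dX (commutator_mem_commutator hx hy)
  have cz : ∀ {x z}, x ∈ X → z ∈ Z → Commute x z := fun hx hz => (mem_C.1 (XC hx) _ hz).symm
  have sq : ∀ x y : G, (x * y) ^ 2 = x ^ 2 * ⁅x⁻¹, y⁆ * y ^ 2 := fun x y => by
    simp only [pow_two, commutatorElement_def]; group
  let K : Subgroup G :=
    { carrier := {x | x ∈ X ∧ x ^ 2 ∈ Z}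
      one_mem' := ⟨one_mem _, by simp⟩
      mul_mem' := fun {x y} a b => ⟨mul_mem a.1 b.1, sq x y ▸ mul_mem (mul_mem a.2 (cm (inv_mem a.1) b.1)) b.2⟩
      inv_mem' := fun a => ⟨inv_mem a.1, by rw [inv_pow]; exact inv_mem a.2⟩ }
  have h2 : ∀ x ∈ X, x ^ 2 ∈ Z := by
    rcases hX.eq_or_eq (W := K) (fun z hz => ⟨hX.le hz, pow_mem hz 2⟩) (fun _ h => h.1) (norm_iff.2 fun a ha b hb =>
      ⟨conj_mem hX.nmlU.norm ha hb.1, by rw [conj_pow]; exact conj_mem hX.nmlV.norm ha hb.2⟩) with e | e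
    · refine fun x hx => e.le ⟨pow_mem hx 2, hc ⟨pow_mem (pow_mem hx 2) 2, mem_C.2 fun y hy => ?_⟩⟩
      rw [← pow_mul, eq_comm, ← commutatorElement_eq_one_iff_mul_comm, comm_pow_left (cz hx (cm hx hy))]
      exact h4 _ (cm hx hy)
    · exact fun x hx => (e.ge hx).2
  have q4 : ∀ {x y}, x ∈ X → y ∈ X → (x * y) ^ 4 = x ^ 4 * y ^ 4 := fun {x y} hx hy => by
    have c1 := cm (inv_mem hx) hy
    have c2 : ⁅x⁻¹, y⁆ ^ 2 = 1 := by
      rw [← comm_pow_left (cz (inv_mem hx) c1), commutatorElement_eq_one_iff_mul_comm]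
      exact (cz hy (h2 _ (inv_mem hx))).symm
    have e : ∀ u : G, u ^ 4 = (u ^ 2) ^ 2 := fun u => by rw [← pow_mul]
    rw [e, sq, (cz (mul_mem (pow_mem hx 2) (hX.le c1)) (h2 y hy)).mul_pow, (cz (pow_mem hx 2) c1).mul_pow, c2, mul_one,
      ← e, ← e]
  let L : Subgroup G :=
    { carrier := {x | x ∈ X ∧ x ^ 4 = 1}
      one_mem' := ⟨one_mem _, by simp⟩
      mul_mem' := fun {x y} a b => ⟨mul_mem a.1 b.1, by rw [q4 a.1 b.1, a.2, b.2, one_mul]⟩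
      inv_mem' := fun a => ⟨inv_mem a.1, by rw [inv_pow, a.2, inv_one]⟩ }
  refine fun x hx => ⟨h2 x hx, ?_⟩
  rcases hX.eq_or_eq (W := L) (fun z hz => ⟨hX.le hz, h4 z hz⟩) (fun _ h => h.1) (norm_iff.2 fun a ha b hb =>
    ⟨conj_mem hX.nmlU.norm ha hb.1, by rw [conj_pow, hb.2, mul_one, mul_inv_cancel]⟩) with e | e
  · obtain ⟨g, rfl⟩ := cZ.gen
    have g4 := h4 g (mem_zpowers g)
    have k : ∀ y ∈ X, y ∉ zpowers g → y ^ 4 = g ^ 2 := fun y hy hn => by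
      rw [← sq_eq g4 (h2 y hy) fun h => hn (e.le ⟨hy, by rwa [← pow_mul] at h⟩), ← pow_mul]
    by_contra hn
    have xn : x ∉ zpowers g := fun h => hn (h4 x h)
    refine xn (hc ⟨hx, mem_C.2 fun y hy => ?_⟩)
    by_cases h : y ∈ zpowers g
    · exact (cz hx h).symm
    · have := cz hx (e.le ⟨mul_mem hx hy, by rw [q4 hx hy, k x hx xn, k y hy h, ← pow_add, g4]⟩)
      exact (mul_left_cancel (a := x) (this.eq.trans (mul_assoc _ _ _))).symm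
  · exact (e.ge hx).2

universe u

theorem x1 : X1.{u} := by
  intro G _ _ V A hV hm hs hf ho hc
  obtain ⟨Z, -, ⟨nZ, aZ⟩, hZ⟩ := exists_maximal_sub (A := ⊥) (fun X => X ⊴ A ∧ Abel X) ⟨Nml.bot, abel_bot⟩
  obtain ⟨E, -, ⟨nE, ZE, EC, der, sq⟩, hE⟩ := exists_maximal_sub (A := Z)
    (fun X => X ⊴ A ∧ Z ≤ X ∧ X ≤ C(Z) ∧ ⁅X, X⁆ ≤ Z ∧ ((∀ z ∈ Z, z ^ 4 = 1) → ∀ e ∈ X, e ^ 2 ∈ Z ∧ e ^ 4 = 1))
    ⟨nZ, le_rfl, aZ, der_le, fun h e he => ⟨pow_mem he 2, h e he⟩⟩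
  refine ⟨Z, E, hV, hm.norm, ho, nE, nZ, hc Z nZ aZ, ZE, EC, der, ?_, fun z hz z1 => ?_, sq⟩
  · by_contra h
    have ZC : Z ≤ A ⊓ C(E) := le_inf nZ.le (cent_symm EC)
    obtain ⟨X, hX, XC⟩ := exists_chief_above nZ nE.cent (lt_of_le_not_ge ZC h)
    have dX : ⁅X, X⁆ ≤ Z := (abel_quo_iff (hX.nmlU.le.trans nZ.norm)).1
      (hX.minNorm.abel (hs.of_le hX.nmlU.le).mim)
    have XE : X ≤ C(E) := XC.trans inf_le_right
    have XZ : X ≤ C(Z) := XE.trans (C_anti ZE)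
    have c : X ⊓ C(X) ≤ Z := (hZ _ ⟨hX.nmlU.Z, fun x hx => C_anti inf_le_left hx.2⟩
      (le_inf hX.le (cent_symm XZ))).le
    have := hE (E ⊔ X) ⟨nE.sup hX.nmlU, ZE.trans le_sup_left, sup_le EC XZ, by
      rw [der_sup, comm_eq_bot_iff.2 (cent_symm XE), sup_bot_eq]; exact sup_le der dX, fun h4 e he => by
        obtain ⟨a, ha, b, hb, rfl⟩ := (mem_sup_of_cent (cent_symm XE)).1 he
        have k := key hX (hc Z nZ aZ) XZ dX c h4 b hb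
        have m : Commute a b := mem_C.1 (XE hb) a ha
        rw [m.mul_pow, m.mul_pow, (sq h4 a ha).2, k.2]
        exact ⟨mul_mem (sq h4 a ha).1 k.1, one_mul 1⟩⟩ le_sup_left
    exact hX.lt.not_ge fun x hx => c ⟨hx, C_anti (le_sup_right.trans this.le) (XE hx)⟩
  · have nz : A ≤ N(zpowers z) := (hc Z nZ aZ).norm_sub (zpowers_le.2 hz) nZ.norm
    refine (hm.eq_bot_or inf_le_left (norm_inf hm.norm (C_zpowers (x := z) ▸ norm_C nz))).resolve_right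
      fun e => z1 (eq_one_of_eq_bot hf ⟨nZ.le hz, le_C1_iff.1 (e ▸ inf_le_right)⟩)

end H14.BsX1
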