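import Cfsg.Agent.H14.CoS2
import Cfsg.Agent.H14.CoS3
import Cfsg.Agent.H14.CoS5
import Cfsg.Agent.H14.CoS7

/-! The Schur multiplier of `Co0` is trivial. -/

set_option autoImplicit false

namespace H14
open Cfsg L

theorem schur_Co0 : HasCyclicSchurMultiplier Co0 1 :=
  schur_triv' (gen := fun _ => 1) card_Co0 (ms := [2, 3, 5, 7]) (a := 2528292372480000) (b := 3289)
    (k := 22) (B := 58) (by decide +kernel) (fa_cons (H14CoS2.sec _) (fa_cons (H14CoS3.sec _)
      (fa_cons (H14CoS5.sec _) (fa_cons (H14CoS7.sec _) fa_nil))))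

theorem stem_Co0 : IsStemExtension (QuotientGroup.mk' (Subgroup.center Co0)) := by
  refine ⟨QuotientGroup.mk'_surjective _, (QuotientGroup.ker_mk' _).le, fun g hg => ?_⟩
  rw [QuotientGroup.ker_mk'] at hg
  rcases mem_center_Co0.1 hg with rfl | rfl
  exacts [one_mem _, negOne_mem_comm]

end H14
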