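import Cfsg.Agent.L.Gas3
import Cfsg.Agent.H14.LeechT
import Cfsg.Agent.H14.MonH

/-! Splitting of central extensions of `Co0` over subgroups generated by explicit matrices
(`exists_enc`, `secTop_sub`); `Co0` is perfect. -/

set_option autoImplicit false

namespace H14
open Cfsg MulAction L
open scoped commutatorElement

universe u

theorem sec_of_sub {G : Type u} [Group G] {U : Subgroup G} {K : Subgroup U} {m : ℕ}
    (h : ∀ (Γ : Type u) [Group Γ] [Finite Γ] (σ : Γ →* U), CE σ m → Sec σ K)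
    {Γ : Type u} [Group Γ] [Finite Γ] {σ : Γ →* G} (hσ : CE σ m) : Sec σ (K.map U.subtype) := by
  obtain ⟨N, h1, h2⟩ := h (U.comap σ) (σ.subgroupComap U) ⟨fun y => by
      obtain ⟨x, e⟩ := hσ.surj y.1
      exact ⟨⟨x, by rw [Subgroup.mem_comap, e]; exact y.2⟩, Subtype.ext e⟩,
    fun x hx => Subgroup.mem_center_iff.2 fun y => Subtype.ext
      (Subgroup.mem_center_iff.1 (hσ.cent (congrArg Subtype.val hx :)) y.1),
    fun z hz => Subtype.ext (hσ.exp z.1 (congrArg Subtype.val hz :))⟩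
  refine ⟨N.map (U.comap σ).subtype, eq_bot_iff.2 ?_, ?_⟩
  · rintro _ ⟨⟨x, hx, rfl⟩, e⟩
    have : x ∈ N ⊓ (σ.subgroupComap U).ker := ⟨hx, Subtype.ext e⟩
    rw [h1] at this
    exact congrArg Subtype.val (Subgroup.mem_bot.1 this)
  · rw [← h2, Subgroup.map_map, Subgroup.map_map]; rfl

theorem secTop_sub {G : Type u} [Group G] {N k m : ℕ} (hN : Nat.card G = N) {U : Subgroup G}
    {gen' : ℕ → U} {ws : List Word} (h1 : FinLe (sub gen' ws) k) (h2 : k ≤ Nat.card (sub gen' ws))
    (hc : band (Nat.ble 1 k) (Nat.beq (Nat.gcd m (Nat.div N k)) 1) = true)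
    (h : SecAll gen' m [] ws) (gen : ℕ → G) : SecTop gen m [] := fun Γ _ _ σ a _ => by
  have e := Nat.card_congr ((sub gen' ws).equivMapOfInjective U.subtype U.subtype_injective).toEquiv
  have := h1.1
  exact sec_gas a le_top (cop_relIndex le_top
    ⟨Finite.of_equiv _ ((sub gen' ws).equivMapOfInjective U.subtype U.subtype_injective).toEquiv,
      e ▸ h1.2⟩ (e ▸ h2) (by rw [Subgroup.card_top, hN]) hc)
    (sec_of_sub (fun Γ _ _ σ b => h Γ σ b fa_nil) a)

theorem secAll_kill {G : Type u} [Group G] {gen : ℕ → G} {m : ℕ} {l : List (Word × Word)}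
    {ws : List Word} {a b : Word} (h : SecAll gen m ((a, b) :: l) ws)
    (hk : ∀ (Γ : Type u) [Group Γ] (σ : Γ →* G), CE σ m → CTriv σ (ev gen a) (ev gen b)) :
    SecAll gen m l ws := fun Γ _ _ σ h1 h2 => h Γ σ h1 (fa_cons (hk Γ σ h1) h2)

/-- The columns `idx` are the vectors `xs`, which span the lattice modulo 3 or 5. -/
noncomputable def spanB (N : Nat) (X : List Q) (idx xs C : List Nat) : Bool :=
  (spanChk xs C || spanChk5 xs C) &&
    allLt (fun j => Nat.ble (Nat.succ (getL 0 idx j)) N && colChk X (getL 0 idx j) (getL 0 xs j)) 24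

theorem exists_enc {k N : ℕ} {L : List Net} {X : List Q} (h0 : 0 < N) (hs : N < 2 ^ 31)
    (hok : netsOk N L = true) (hX : X.length = 24) {ss : List (ℕ × ℕ)} {sched : List Word}
    (hr : subs (full N) (orbRun L (lets k) sched (bits (ss.map Prod.fst))) = true)
    (hss : seedChk N X ss = true)
    (hg : ∀ l < k, ∃ R, coChk R = true ∧ lfChk N (getL Net.nil L l) R X = true)
    {idx xs C : List ℕ} (hf : spanB N X idx xs C = true) :
    ∃ (H : Subgroup Co0) (T : SubMulAction H Λ), FaithfulSMul H T ∧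
      ∃ E : Enc T N, ∀ l < k, ∃ g : H, E.Real (getL Net.nil L l) g := by
  classical
  choose R hR hR' using hg
  let gen : ℕ → Co0 := fun l => if h : l < k then coOf _ (hR l h) else 1
  obtain ⟨f, F⟩ := leech_fam (gen := gen) h0 hs hok hX hr hss fun l hl =>
    ⟨_, hR l hl, hR' l hl, fun x => by simp only [gen, dif_pos hl]⟩
  let gen' : ℕ → sub gen (lets k) := fun l => if h : l < k then ⟨gen l, gen_mem_lets h⟩ else 1
  let T : SubMulAction (sub gen (lets k)) Λ := ⟨f '' {i | i < N}, by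
    rintro g _ ⟨i, hi, rfl⟩
    exact F.fam.exists_smul_eq g.2 hi⟩
  have F' : Fam0 gen' k N L (ss.map Prod.fst) f := ⟨h0, hs, hok, fun l hl i hi => by
    rw [← F.fam.eqv l hl i hi]; simp only [gen', dif_pos hl]; rfl, F.fam.reach, F.fam.sep⟩
  refine ⟨_, T, ⟨fun {g h} e => ?_⟩, F'.enc (T := T) (fun i hi => ⟨i, hi, rfl⟩) fun _ h => h,
    fun l hl => ⟨_, F'.real _ _ hl⟩⟩
  rw [spanB, Bool.and_eq_true, Bool.or_eq_true] at hf
  have key : ∀ j < 24, ∃ x : Λ, x.1 = vecN (getL 0 xs j) ∧ (h⁻¹ * g).1 • x = x := fun j hj => by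
    have h1 := allLt_spec hf.2 j hj
    rw [Bool.and_eq_true, Nat.ble_eq] at h1
    have h3 : leechB (bv (getL 0 xs j)) = true := by
      have := h1.2; simp only [colChk, Bool.and_eq_true] at this; exact this.2.1
    refine ⟨lv _ h3, rfl, ?_⟩
    rw [← F.eq_of_colChk h1.1 h1.2 (x := lv _ h3) rfl]
    have := congrArg Subtype.val (e ⟨f _, _, h1.1, rfl⟩)
    exact (mul_smul _ _ _).trans (inv_smul_eq_iff.2 this)
  exact (inv_mul_eq_one.1 (Subtype.ext
    (hf.1.elim (fun a => eq_one_of_span3 a key) fun a => eq_one_of_span5 a key))).symm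

theorem mem_comm_of_fix {g : Co0} (h : g * g = 1) {u : Λ} (hu : sqNorm u.1 = 32) (e : g • u = u) :
    g ∈ commutator Co0 := by
  obtain ⟨h1, h2⟩ := simple_stab (Or.inl hu)
  rcases (Subgroup.normal_subgroupOf (H := stabilizer Co0 u) (N := commutator Co0)).eq_bot_or_eq_top
    with h3 | h3
  · have hc : ∀ a b : stabilizer Co0 u, a * b = b * a := fun a b => by
      have : ⁅a, b⁆ ∈ (commutator Co0).subgroupOf (stabilizer Co0 u) :=
        Subgroup.commutator_mem_commutator (Subgroup.mem_top a.1) (Subgroup.mem_top b.1)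
      rw [h3] at this
      exact commutatorElement_eq_one_iff_mul_comm.1 this
    let _ : CommGroup (stabilizer Co0 u) := ⟨hc⟩
    have h4 := IsSimpleGroup.prime_card (α := stabilizer Co0 u)
    rw [card_stab32 hu] at h4
    exact absurd h4 (by norm_num)
  · exact (h3.ge (Subgroup.mem_top (⟨g, e⟩ : stabilizer Co0 u)) :)

theorem negOne_mem_comm : negOne ∈ commutator Co0 := by
  have h1 : bset 0x200f68 ∈ GC := (bset_mem_octads (by decide +kernel)).1
  have h2 : symmDiff (bset 0x200f68) Finset.univ ∈ GC := symmDiff_mem_GC h1 univ_mem_GC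
  have e : negOne = sgn _ h1 * sgn _ h2 := by
    rw [sgn_symmDiff h1 univ_mem_GC, ← mul_assoc, sgn_mul_self, one_mul]; rfl
  rw [e]
  refine mul_mem (mem_comm_of_fix (sgn_mul_self _) (u := l4 (gp 0) (gp 1) 4 rfl)
    (norm_l4 (by decide +kernel) _ rfl) (Subtype.ext (funext fun p => ?_)))
    (mem_comm_of_fix (sgn_mul_self _) (u := l4 (gp 3) (gp 5) 4 rfl)
    (norm_l4 (by decide +kernel) _ rfl) (Subtype.ext (funext fun p => ?_))) <;>
  rw [sgn_apply, l4_apply] <;> revert p <;> decide +kernel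

end H14
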