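import Cfsg.Agent.H14.Design2

/-! Automorphisms of the Witt designs extend to elements of `M24`. -/

set_option autoImplicit false
set_option maxRecDepth 100000
open Cfsg MulAction

namespace H14

open scoped Pointwise

theorem mem_M24_of_span {σ : Equiv.Perm GolayPt} (L : List ℕ) (hL : ∀ b ∈ gB, b ∈ spanA L 0)
    (h : ∀ b ∈ L, σ • bset b ∈ GC) : σ ∈ M24 :=
  mem_M24_of_basis fun b hb => spanA_induction (P := fun m => σ • bset m ∈ GC)
    (fun a b ha hb => by rw [bset_xor, smul_symmDiff]; exact symmDiff_mem_GC ha hb) h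
    (by rw [bset_zero, Finset.smul_finset_empty]; exact empty_mem_GC) b (hL b hb)

theorem forall_parK (e P : ℕ) (pv : List (ℕ × ℕ × ℕ)) (ls : List (List ℕ)) (bs : List ℕ) {m : ℕ}
    (f g : ℕ → Bool)
    (h1 : (pv.all fun x => ls.any fun l => Nat.beq (xorL l) x.2.1 &&
      (Nat.beq (Nat.mod (Nat.mul l.length e) 2) x.2.2 && l.all g)) = true)
    (h2 : (pivChk P pv && (covB (Nat.land m (Nat.xor P (full 24))) bs &&
      allS (fun a => f (extP pv a)) bs 0)) = true) {b : Finset GolayPt} (hm : b ⊆ bset m)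
    (hb : ∀ κ, g κ = true → (bset κ ∩ b).card % 2 = e % 2) : ∃ c, f c = true ∧ bset c = b := by
  simp only [Bool.and_eq_true, List.all_eq_true, List.any_eq_true, beq_iff] at h1
  refine forall_par bs h2 hm fun x hx => ?_
  obtain ⟨l, -, e1, e2, e3⟩ := h1 x hx
  rw [← e1, ← e2]
  exact par_xorL fun κ hκ => hb κ (e3 κ hκ)

variable {G : Type*} [Group G] [MulAction G GolayPt] {D : Set (Finset GolayPt)} {Y : ℕ}

theorem der_smul {g : G} (hY : g • bset Y = bset Y) (h : ∀ d ∈ D, g • d ∈ D) :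
    ∀ d ∈ der D Y, g • d ∈ der D Y := fun d hd =>
  ⟨by rw [← hY]; exact Finset.disjoint_iff_inter_eq_empty.2 (by
      rw [← Finset.smul_finset_inter, Finset.disjoint_iff_inter_eq_empty.1 hd.1,
        Finset.smul_finset_empty]),
    by rw [← hY, ← Finset.smul_finset_union]; exact h _ hd.2⟩

theorem sdiff_mem_der {d : Finset GolayPt} (hd : d ∈ D) (h : bset Y ⊆ d) : d \ bset Y ∈ der D Y :=
  ⟨Finset.sdiff_disjoint, by rwa [Finset.sdiff_union_of_subset h]⟩

theorem smul_of_der {g : G} (hY : g • bset Y = bset Y) (h : ∀ d ∈ der D Y, g • d ∈ der D Y)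
    {d : Finset GolayPt} (hd : d ∈ D) (h' : bset Y ⊆ d) : g • d ∈ D := by
  have := (h _ (sdiff_mem_der hd h')).2
  rwa [← hY, ← Finset.smul_finset_union, hY, Finset.sdiff_union_of_subset h'] at this

theorem smul_bset_compl {g : G} {X : ℕ} (hX : X = Y ^^^ full 24 := by decide +kernel)
    (h : g • bset Y = bset Y) : g • bset X = bset X := by
  rw [hX, bset_compl, smul_compl_finset, h]

theorem pw_compl {τ : Equiv.Perm GolayPt} {X : ℕ} (h : ∀ p ∉ bset X, τ p = p) (Y : ℕ)
    (hY : X &&& Y = 0 := by decide +kernel) : ∀ p ∈ bset Y, τ • p = p := fun p hp => h p fun hx => by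
  have := Finset.mem_inter.2 ⟨hx, hp⟩
  rw [← bset_and, hY, bset_zero] at this
  exact Finset.notMem_empty _ this

theorem eq_one_of_fix21 {g : M24} {X : ℕ} (h : ∀ p ∈ bset X, g • p = p)
    (hX : subs 0x7ffffc X = true := by decide +kernel) : g = 1 :=
  eq_one_of_pw (o := bset 0x200f68) (bset_mem_octads (by decide +kernel))
    (fun x hx => h x (bset_subset hX (bset_subset (by decide +kernel) hx))) (p := some 2)
    (by decide +kernel) (h _ (bset_subset hX (by decide +kernel)))

theorem bset_inf : bset 0x800000 = {none} := bset_bit_gi none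
theorem bset_one : bset 1 = {some 0} := bset_bit_gi (some 0)
theorem bset_two : bset 0x800001 = {none, some 0} := by decide +kernel

theorem ext24 {τ : Equiv.Perm GolayPt} (h : ∀ d ∈ octads, τ • d ∈ octads) : τ ∈ M24 :=
  mem_M24_of_basis fun b hb =>
    (h _ (bset_mem_octads (List.all_eq_true.1 (show gB.all oct = true by decide +kernel) b hb))).1

theorem ext23 {τ : Equiv.Perm GolayPt} (h0 : ∀ p ∉ bset 0x7fffff, τ p = p)
    (h : ∀ d ∈ der octads 0x800000, τ • d ∈ der octads 0x800000) : τ ∈ M24 := by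
  refine mem_M24_of_span [0x800c75, 0xc0063a, 0x9c8430, 0xde0900, 0xd08c48, 0x900bc1, 0x80bc12,
    0xb0a051, 0xb004a9, 0x804a96, 0x85e090, 0x9104d2] (by decide +kernel) fun b hb => ?_
  have := (show ∀ b ∈ _, oct b = true ∧ subs 0x800000 b = true by decide +kernel) b hb
  exact (smul_of_der (smul_eq_of_pw (pw_compl h0 _)) h (bset_mem_octads this.1) (bset_subset this.2)).1

theorem ext22 {τ : Equiv.Perm GolayPt} (h0 : ∀ p ∉ bset 0x7ffffe, τ p = p)
    (h : ∀ d ∈ der octads 0x800001, τ • d ∈ der octads 0x800001)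
    (h' : ∀ d ∈ der octads 0x800001, τ⁻¹ • d ∈ der octads 0x800001) :
    ∃ g ∈ stabilizer M24 (bset 0x800001), ∀ p ∈ bset 0x7ffffe, g • p = τ p := by
  have hY : τ • bset 0x800001 = bset 0x800001 := smul_eq_of_pw (pw_compl h0 _)
  have hX : τ • bset 0x7ffffe = bset 0x7ffffe := smul_bset_compl (by decide +kernel) hY
  obtain ⟨c, h1, h2⟩ := forall_parK 1 0x7fe800
    [(11, 0xc74, 1), (21, 0x20031c, 1), (20, 0x1007b4, 0), (18, 0x41572, 0), (17, 0x21252, 1), (16, 0x117f8, 1), (15, 0x81b2, 1), (13, 0x254a, 1), (22, 0x4012a4, 1), (14, 0x527c, 0), (19, 0x803da, 0)]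
    [[0xc74], [0x20031c], [0xc74, 0x100bc0], [0xc74, 0x20031c, 0x100bc0, 0x5028a, 0x108606, 0x254a, 0x60900a, 0x412016], [0xc74, 0x20031c, 0x100bc0, 0x60720, 0x5028a, 0x108606, 0x254a, 0x60900a, 0x412016], [0xc74, 0x20031c, 0x100bc0, 0x108606, 0x254a, 0x60900a, 0x412016], [0xc74, 0x100bc0, 0x108606], [0x254a], [0xc74, 0x20031c, 0x100bc0, 0x108606, 0x60900a], [0x60720, 0x5028a, 0x22c280, 0x254a, 0x60900a, 0x412016], [0x5028a, 0x254a, 0x412016, 0x4c040c]]
    [0x2, 0x4, 0x8, 0x10, 0x20, 0x40, 0x80, 0x100, 0x200, 0x400, 0x1000] (m := 0x7ffffe)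
    (fun c => !Nat.beq (p24 c) 7 || (cw (Nat.lor c 0x800000) || cw (Nat.lor c 1)))
    (fun c => Nat.beq (Nat.land c 0x800001) 0 && oct (Nat.lor c 0x800001))
    (by decide +kernel) (by decide +kernel) (b := τ • bset 0x40063a)
    (by rw [← hX]; exact Finset.smul_finset_subset_smul_finset (bset_subset (by decide +kernel)))
    fun κ hκ => by
      have h3 := h' _ (der_of oct_mem _ _ hκ)
      have h4 := even_card_inter h3.2.1 (bset_mem_GC (m := 0xc0063a) (by decide +kernel))
      have h5 : (τ⁻¹ • bset κ ∪ bset 0x800001) ∩ bset 0xc0063a =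
          insert none (τ⁻¹ • bset κ ∩ bset 0x40063a) := by
        have := Finset.disjoint_left.1 h3.1
        rw [bset_two] at this ⊢
        rw [show bset 0xc0063a = insert none (bset 0x40063a) by decide +kernel]
        ext p
        have h6 : some 0 ∉ bset 0x40063a := by decide +kernel
        simp only [Finset.mem_inter, Finset.mem_union, Finset.mem_insert, Finset.mem_singleton]
        constructor
        · rintro ⟨h | rfl | rfl, h' | h'⟩ <;> simp_all
        · rintro (rfl | h) <;> simp_all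
      rw [h5, Finset.card_insert_of_notMem (fun h => absurd (Finset.mem_inter.1 h).2 (by decide +kernel)),
        ← Finset.card_smul_finset τ, Finset.smul_finset_inter, smul_inv_smul] at h4
      omega
  rw [← card_bset, h2, Finset.card_smul_finset, card_bset,
    show Nat.beq (p24 0x40063a) 7 = true by decide +kernel] at h1
  have key : ∀ ρ : Equiv.Perm GolayPt, (∀ p ∈ bset 0x7ffffe, ρ p = p) →
      ρ • bset 0x800001 = bset 0x800001 → bset c ∪ ρ • {none} ∈ GC →
      ∃ g ∈ stabilizer M24 (bset 0x800001), ∀ p ∈ bset 0x7ffffe, g • p = τ p := by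
    intro ρ r1 r2 r3
    have r4 : ∀ s ⊆ bset 0x7ffffe, ρ • τ • s = τ • s := fun s hs =>
      smul_eq_of_pw fun p hp => r1 p (by rw [← hX]; exact Finset.smul_finset_subset_smul_finset hs hp)
    have hY' : (ρ * τ) • bset 0x800001 = bset 0x800001 := by rw [mul_smul, hY, r2]
    refine ⟨⟨ρ * τ, mem_M24_of_span (0xc0063a :: [0xc74, 0x20031c, 0x100bc0, 0x60720, 0x5028a, 0x22c280,
      0x108606, 0x254a, 0x60900a, 0x412016, 0x4c040c].map (· ||| 0x800001)) (by decide +kernel)
      (fa_cons ?_ fun b hb => ?_)⟩, hY', fun p hp => r1 _ (by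
        rw [← hX]; exact Finset.smul_mem_smul_finset hp)⟩
    · rw [show bset 0xc0063a = bset 0x40063a ∪ {none} by decide +kernel, Finset.smul_finset_union,
        mul_smul, mul_smul, r4 _ (bset_subset (by decide +kernel)), ← h2, ← bset_inf,
        smul_eq_of_pw (pw_compl h0 _), bset_inf]
      exact r3
    · have := (show ∀ b ∈ _, oct b = true ∧ subs 0x800001 b = true by decide +kernel) b hb
      exact (smul_of_der hY' (fun d hd => by rw [mul_smul, r4 _ (mdl22.sub d hd)]; exact h d hd)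
        (bset_mem_octads this.1) (bset_subset this.2)).1
  rw [Bool.not_true, Bool.false_or, Bool.or_eq_true] at h1
  rcases h1 with h1 | h1
  · refine key 1 (fun _ _ => rfl) (one_smul _ _) ?_
    rw [one_smul, ← bset_inf, ← bset_or]
    exact bset_mem_GC h1
  · refine key (Equiv.swap none (some 0)) (fun p hp => Equiv.swap_apply_of_ne_of_ne
      (by rintro rfl; exact absurd hp (by decide +kernel))
      (by rintro rfl; exact absurd hp (by decide +kernel))) (by rw [bset_two]; decide +kernel) ?_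
    rw [Finset.smul_finset_singleton, Equiv.Perm.smul_def, Equiv.swap_apply_left, ← bset_one, ← bset_or]
    exact bset_mem_GC h1

/-! ### Hexads -/

theorem hex_of_mem {c : ℕ} (hc : c < 2 ^ 24) (h : bset c ∈ hexads) : hex c = true := by
  obtain ⟨h1, o, ho, e⟩ := h
  obtain ⟨m, hm, rfl⟩ := mem_GC.1 ho.1
  have h2 : m &&& 0x5335f = c := bset_inj (Nat.and_le_left.trans_lt hm.lt) hc ((bset_and _ _).trans e)
  have := forall_CW (f := fun m => !Nat.beq (p24 m) 8 || (!Nat.beq (p24 (Nat.land m 0x5335f)) 6 ||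
    hex (Nat.land m 0x5335f))) (by decide +kernel) hm
  rw [show Nat.land m 0x5335f = c from h2, ← card_bset, ← card_bset, h1, ho.2] at this
  exact this

theorem hexad_smul {g : M24} (hg : g • d0 = d0) : ∀ h ∈ hexads, g • h ∈ hexads := by
  rintro _ ⟨h1, o, ho, rfl⟩
  exact ⟨by rwa [Finset.card_smul_finset], g • o, smul_mem_octads g ho,
    by rw [Finset.smul_finset_inter, hg]⟩

theorem hexad_compl {h : Finset GolayPt} (hh : h ∈ hexads) : d0 \ h ∈ hexads := by
  obtain ⟨h1, o, ho, rfl⟩ := hh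
  have h2 := card_symmDiff_add o d0
  have h3 : d0.card = 12 := d0_mem.2
  have h4 : o.card = 8 := ho.2
  refine ⟨by rw [Finset.card_sdiff_of_subset Finset.inter_subset_right, h1, h3],
    symmDiff o d0, ⟨symmDiff_mem_GC ho.1 d0_mem.1, by omega⟩, ?_⟩
  ext p
  simp only [Finset.mem_inter, Finset.mem_symmDiff, Finset.mem_sdiff]
  tauto

noncomputable def hexP (p q : Nat) : Bool :=
  tb 0x52340 q && allLt (fun p' => !tb 0x52340 p' || allLt (fun q' => !tb 0x52340 q' ||
    (!([0xf, 0x17, 0x1007, 0x1b, 0x100b, 0x1013, 0x1d, 0x100d, 0x1015, 0x1019, 0x1e, 0x100e, 0x1016,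
      0x101a, 0x101c].all fun s => subs s 0x101f && (!hex (Nat.lor (Nat.lor s (bit p)) (bit q)) ||
        hex (Nat.lor (Nat.lor s (bit p')) (bit q')))) || (Nat.beq p' p || Nat.beq p' q))) 24) 24

theorem hexad_fix {ρ : Equiv.Perm GolayPt} (h0 : ρ • d0 = d0) (h : ∀ d ∈ hexads, ρ • d ∈ hexads)
    (h5 : ∀ p ∈ bset 0x1f, ρ • p = p) : ∀ p ∈ d0, ρ p = p := by
  have h1 : ρ • bset 0x101f = bset 0x101f := by
    have hh := hex_mem 0x101f (by decide +kernel)
    refine mdl12.eq _ (h _ hh) _ hh ((show 5 = (bset 0x1f).card by decide +kernel).trans_le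
      (Finset.card_le_card (Finset.subset_inter ?_ (bset_subset (by decide +kernel)))))
    rw [← smul_eq_of_pw h5]
    exact Finset.smul_finset_subset_smul_finset (bset_subset (by decide +kernel))
  have h6 : ∀ p ∈ bset 0x101f, ρ • p = p := by
    have e : ρ • bset 0x1000 = bset 0x1000 := by
      rw [show bset 0x1000 = bset 0x101f \ bset 0x1f by decide +kernel, Finset.smul_finset_sdiff, h1,
        smul_eq_of_pw h5]
    rw [show bset 0x1000 = {some 12} by decide +kernel, Finset.smul_finset_singleton] at e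
    rw [show bset 0x101f = insert (some 12) (bset 0x1f) by decide +kernel]
    exact Finset.forall_mem_insert _ _ _ |>.2 ⟨Finset.singleton_injective e, h5⟩
  have e0 : bset 0x52340 = d0 \ bset 0x101f := by decide +kernel
  have h7 : ∀ p ∈ bset 0x52340, tb 0x52340 (gi (ρ p)) = true := fun p hp => by
    rw [tb_eq, ← mem_bset, e0, ← h0, ← h1, ← Finset.smul_finset_sdiff, ← e0]
    exact Finset.smul_mem_smul_finset hp
  have key : ∀ p ∈ bset 0x52340, ∀ q < 24, hexP (gi p) q = true → ρ p = p ∨ gi (ρ p) = q := by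
    intro p hp q hq hP
    rw [← gi_gp q hq] at hP ⊢
    generalize gp q = q at hP
    simp only [hexP, Bool.and_eq_true] at hP
    have h8 := allLt_spec hP.2 _ (gi_lt (ρ p))
    rw [h7 p hp, Bool.not_true, Bool.false_or] at h8
    have h9 := allLt_spec h8 _ (gi_lt (ρ q))
    rw [h7 q (by rw [mem_bset, ← tb_eq]; exact hP.1), List.all_eq_true.2] at h9
    · simpa [gi_inj.eq_iff] using h9
    · intro s hs
      have hs1 : subs s 0x101f = true ∧ s < 2 ^ 24 := by revert s; decide +kernel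
      rw [hs1.1, Bool.true_and, Bool.or_eq_true, Bool.not_eq_true', ← Bool.not_eq_true, ← imp_iff_not_or]
      intro h10
      have := h _ (hex_mem _ h10)
      refine hex_of_mem (Nat.or_lt_two_pow (Nat.or_lt_two_pow hs1.2 (bit_gi_lt _)) (bit_gi_lt _)) ?_
      have e : ∀ a b : ℕ, Nat.lor a b = a ||| b := fun _ _ => rfl
      simp only [e, bset_or, bset_bit_gi, Finset.smul_finset_union, Finset.smul_finset_singleton] at this ⊢
      rwa [smul_eq_of_pw fun p hp => h6 p (bset_subset hs1.1 hp)] at this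
  intro p hp
  by_cases hp' : p ∈ bset 0x101f
  · exact h6 p hp'
  have hp2 : p ∈ bset 0x52340 := e0 ▸ Finset.mem_sdiff.2 ⟨hp, hp'⟩
  obtain ⟨q, hq, r, hr, ne, h8, h9⟩ := (show ∀ i < 24, tb 0x52340 i = true → ∃ q < 24, ∃ r < 24,
    q ≠ r ∧ hexP i q = true ∧ hexP i r = true by decide +kernel) _ (gi_lt p) (by rw [tb_eq]; exact mem_bset.1 hp2)
  rcases key p hp2 q hq h8 with e | e
  · exact e
  · exact (key p hp2 r hr h9).resolve_right fun e' => ne (e ▸ e')

theorem smul_eq_of_out {τ : Equiv.Perm GolayPt} {s : Finset GolayPt} (h0 : ∀ p ∉ s, τ p = p) :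
    τ • s = s := by
  rw [← compl_compl s, smul_compl_finset, smul_eq_of_pw fun p hp => h0 p (Finset.mem_compl.1 hp)]

/-- The five standard points of the standard dodecad. -/
def x5 : Fin 5 → GolayPt := fun i => some i.val

theorem ext12 {τ : Equiv.Perm GolayPt} (h0 : τ • d0 = d0) (h : ∀ d ∈ hexads, τ • d ∈ hexads) :
    ∃ g ∈ G12, ∀ p ∈ d0, g • p = τ p := by
  have hx : ∀ i, x5 i ∈ d0 := by decide +kernel
  have ix : Function.Injective x5 := by decide +kernel
  obtain ⟨g, h1, h2⟩ := dodecad_mt5 d0_mem x5 (fun i => τ (x5 i)) ix (τ.injective.comp ix) hx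
    fun i => by rw [← h0]; exact Finset.smul_mem_smul_finset (hx i)
  have h3 : g⁻¹ • d0 = d0 := inv_smul_eq_iff.2 h1.symm
  refine ⟨g, h1, fun p hp => ?_⟩
  have := hexad_fix (ρ := (g⁻¹ : M24) * τ) (by rw [mul_smul, h0]; exact h3)
    (fun d hd => by rw [mul_smul]; exact hexad_smul h3 _ (h d hd)) (fun p hp => by
      obtain ⟨i, rfl⟩ := (show ∀ p ∈ bset 0x1f, ∃ i, x5 i = p by decide +kernel) p hp
      exact inv_smul_eq_iff.2 (h2 i).symm) p hp
  exact (inv_smul_eq_iff.1 this).symm

theorem ext11 {τ : Equiv.Perm GolayPt} (h0 : ∀ p ∉ bset 0x5335e, τ p = p)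
    (h : ∀ d ∈ der hexads 1, τ • d ∈ der hexads 1) : ∃ g ∈ G11, ∀ p ∈ bset 0x5335e, g • p = τ p := by
  have hs : bset 0x5335e ⊆ d0 := bset_subset (by decide +kernel)
  have h1 : τ • d0 = d0 := smul_eq_of_out fun p hp => h0 p fun h => hp (hs h)
  have h2 : ∀ d ∈ hexads, some 0 ∈ d → τ • d ∈ hexads := fun d hd h' =>
    smul_of_der (smul_eq_of_pw (pw_compl h0 _)) h hd (by rwa [bset_one, Finset.singleton_subset_iff])
  have h00 : some 0 ∈ d0 := by decide +kernel
  obtain ⟨g, hg, h3⟩ := ext12 h1 fun d hd => by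
    by_cases h' : some 0 ∈ d
    · exact h2 d hd h'
    · have := hexad_compl (h2 _ (hexad_compl hd) (Finset.mem_sdiff.2 ⟨h00, h'⟩))
      rwa [← h1, ← Finset.smul_finset_sdiff, h1, Finset.sdiff_sdiff_eq_self (show d ⊆ d0 from mdl12.sub d hd)] at this
  exact ⟨g, ⟨hg, (h3 _ h00).trans (h0 _ (by decide +kernel))⟩, fun p hp => h3 p (hs hp)⟩

/-! ### The automorphism groups -/

variable {α : Type*} [Fintype α] [DecidableEq α] {B : Set (Finset α)} {f : α ↪ GolayPt}

theorem Mod.aut24 (h : Mod 0xffffff octads B f) : ∃ φ : (⊤ : Subgroup M24) ≃* setSystemAut B,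
    ∀ g a, f ((φ g : Equiv.Perm α) a) = (g : M24) • f a :=
  h.exists_aut ⊤ (fun g _ => ⟨by rw [show bset 0xffffff = Finset.univ from bset_full,
    Finset.smul_finset_univ], fun _ => smul_mem_octads g⟩) (fun _ _ h => eq_one_of_fix21 h)
    fun τ _ h _ => ⟨⟨τ, ext24 h⟩, trivial, fun _ _ => rfl⟩

theorem Mod.aut23 (h : Mod 0x7fffff (der octads 0x800000) B f) : ∃ φ : G23 ≃* setSystemAut B,
    ∀ g a, f ((φ g : Equiv.Perm α) a) = (g : M24) • f a :=
  h.exists_aut G23 (fun g hg => by
    have : g • bset 0x800000 = bset 0x800000 := by rw [bset_inf, Finset.smul_finset_singleton, hg]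
    exact ⟨smul_bset_compl (by decide +kernel) this, der_smul this fun _ => smul_mem_octads g⟩)
    (fun _ _ h => eq_one_of_fix21 h)
    fun τ h0 h _ => ⟨⟨τ, ext23 h0 h⟩, h0 _ (by decide +kernel), fun _ _ => rfl⟩

theorem Mod.aut22 (h : Mod 0x7ffffe (der octads 0x800001) B f) :
    ∃ φ : stabilizer M24 (bset 0x800001) ≃* setSystemAut B,
      ∀ g a, f ((φ g : Equiv.Perm α) a) = (g : M24) • f a :=
  h.exists_aut _ (fun g hg => ⟨smul_bset_compl (by decide +kernel) hg,
    der_smul hg fun _ => smul_mem_octads g⟩) (fun _ _ h => eq_one_of_fix21 h) fun _ => ext22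

theorem Mod.aut12 (h : Mod 0x5335f hexads B f) : ∃ φ : G12 ≃* setSystemAut B,
    ∀ g a, f ((φ g : Equiv.Perm α) a) = (g : M24) • f a :=
  h.exists_aut G12 (fun g hg => ⟨hg, hexad_smul hg⟩)
    (fun _ hg h => dodecad_sharp d0_mem x5 (by decide +kernel) (by decide +kernel) hg
      fun i => h _ (by revert i; decide +kernel)) fun _ h0 h _ => ext12 (smul_eq_of_out h0) h

theorem G11_eq_one {g : M24} (hg : g ∈ G11) (x : Fin 4 → GolayPt) (ix : Function.Injective x)
    (hx : ∀ i, x i ∈ bset 0x5335e) (h : ∀ i, g • x i = x i) : g = 1 :=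
  dodecad_sharp d0_mem (Fin.cons (some 0) x) (Fin.cons_injective_of_injective (by
    rintro ⟨i, e⟩; exact absurd (e ▸ hx i) (by decide +kernel)) ix)
    (Fin.cases (show some 0 ∈ d0 by decide +kernel) fun i => bset_subset (b := 0x5335f) (by decide +kernel) (hx i)) hg.1
    (Fin.cases hg.2 h)

theorem Mod.aut11 (h : Mod 0x5335e (der hexads 1) B f) : ∃ φ : G11 ≃* setSystemAut B,
    ∀ g a, f ((φ g : Equiv.Perm α) a) = (g : M24) • f a :=
  h.exists_aut G11 (fun g hg => by
    have : g • bset 1 = bset 1 := by rw [bset_one, Finset.smul_finset_singleton, hg.2]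
    exact ⟨by rw [show bset 0x5335e = d0 \ bset 1 by decide +kernel, Finset.smul_finset_sdiff, this, hg.1],
      der_smul this (hexad_smul hg.1)⟩)
    (fun _ hg h => G11_eq_one hg (fun i => x5 i.succ) (by decide +kernel) (by decide +kernel)
      fun i => h _ (by revert i; decide +kernel)) fun _ h0 h _ => ext11 h0 h

/-- Multiple transitivity outside a few fixed points. -/
theorem M24_exists_fix {m n : ℕ} (h : m + n ≤ 5) (z : Fin m → GolayPt) (iz : Function.Injective z)
    (x y : Fin n ↪ GolayPt) (hx : ∀ i j, z i ≠ x j) (hy : ∀ i j, z i ≠ y j) :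
    ∃ g : M24, (∀ i, g • z i = z i) ∧ ∀ i, g • x i = y i := by
  obtain ⟨g, hg⟩ := M24_exists_smul h ⟨Fin.append z x, Fin.append_injective_iff.2 ⟨iz, x.injective, hx⟩⟩
    ⟨Fin.append z y, Fin.append_injective_iff.2 ⟨iz, y.injective, hy⟩⟩
  exact ⟨g, fun i => by simpa using hg (Fin.castAdd n i), fun i => by simpa using hg (Fin.natAdd m i)⟩

end H14
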