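import Cfsg.Agent.H14.MonH
import Cfsg.Prelude.Def_MonsterType

/-! The wreath product of a simple group by a group of order 2. -/

set_option autoImplicit false

namespace H14
open Cfsg Subgroup SemidirectProduct

/-- The homomorphism `ℤˣ → T` given by an involution. -/
def unitsHom {T : Type*} [Group T] (t : T) (ht : t * t = 1) : ℤˣ →* T :=
  MonoidHom.mk' (fun u => if u = 1 then 1 else t) fun u v => by
    rcases Int.units_eq_one_or u with rfl | rfl <;> rcases Int.units_eq_one_or v with rfl | rfl <;>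
      simp [ht]

/-- `A ≀ 2`. -/
abbrev Wr (A : Type*) [Group A] := (A × A) ⋊[unitsHom (T := MulAut (A × A)) MulEquiv.prodComm rfl] ℤˣ

variable {A T : Type*} [Group A] [Group T]

/-- Homomorphisms from the wreath product. -/
def wrHom (φ : A →* T) (t : T) (ht : t * t = 1) (hc : ∀ a b, Commute (φ a) (t * φ b * t⁻¹)) : Wr A →* T :=
  lift (φ.noncommCoprod ((MulAut.conj t).toMonoidHom.comp φ) hc) (unitsHom t ht) fun u => by
    rcases Int.units_eq_one_or u with rfl | rfl
    · simp only [map_one]; rfl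
    · refine MonoidHom.ext fun x => ?_
      show φ x.2 * (t * φ x.1 * t⁻¹) = t * (φ x.1 * (t * φ x.2 * t⁻¹)) * t⁻¹
      rw [(hc _ _).eq, inv_eq_of_mul_eq_one_right ht]
      simp only [mul_assoc, ht, mul_one]

theorem wr_normal [IsSimpleGroup A] (hz : ∀ x : A, (∀ a, a * x = x * a) → x = 1) (N : Subgroup (Wr A))
    [hN : N.Normal] (h : N ≠ ⊥) (a : A) : inl (a, 1) ∈ N := by
  have h1 : ∀ x y : A, x ≠ 1 → inl (x, y) ∈ N → inl (a, 1) ∈ N := fun x y hx h1 => by
    refine (((hN.comap (inl.comp (MonoidHom.inl A A))).eq_bot_or_eq_top.resolve_left fun e => hx (hz x fun b => ?_)).ge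
      (mem_top a) :)
    have := mul_mem (hN.conj_mem _ h1 (inl (b, 1))) (inv_mem h1)
    rw [← map_inv, ← map_inv, ← map_mul, ← map_mul, ← map_mul] at this
    have := e.le (show b * x * b⁻¹ * x⁻¹ ∈ N.comap _ by simpa using this)
    rw [mem_bot, mul_inv_eq_one, mul_inv_eq_iff_eq_mul] at this
    exact this
  obtain ⟨⟨⟨⟨x, y⟩, u⟩, hn⟩, hne⟩ := (N.ne_bot_iff_exists_ne_one).1 h
  rcases Int.units_eq_one_or u with rfl | rfl
  · by_cases hx : x = 1
    · refine h1 y x (fun hy => hne (by subst hx hy; rfl)) ?_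
      have := hN.conj_mem _ hn (inr (-1))
      rwa [show (⟨(x, y), 1⟩ : Wr A) = inl (x, y) from rfl, ← map_inv, ← inl_aut] at this
    · exact h1 x y hx hn
  · obtain ⟨b, hb⟩ := exists_ne (1 : A)
    refine h1 b (y * b⁻¹ * y⁻¹) hb ?_
    have e : (inl (1, b⁻¹) : Wr A) = inr (-1) * inl (b, 1)⁻¹ * inr (-1)⁻¹ := by
      rw [← inl_aut, Prod.inv_mk, inv_one]; rfl
    convert mul_mem (hN.conj_mem _ hn (inl (b, 1))) (inv_mem hn) using 1
    rw [show (⟨(x, y), -1⟩ : Wr A) = inl (x, y) * inr (-1) from (inl_left_mul_inr_right _).symm,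
      show (b, y * b⁻¹ * y⁻¹) = (b, 1) * (x, y) * (1, b⁻¹) * (x, y)⁻¹ by simp, map_mul, map_mul, map_mul, e]
    simp only [map_inv]; group

theorem wr_inj [IsSimpleGroup A] (hz : ∀ x : A, (∀ a, a * x = x * a) → x = 1) {φ : A →* T} {t : T} (ht hc)
    {a : A} (ha : φ a ≠ 1) : Function.Injective (wrHom φ t ht hc) :=
  (MonoidHom.ker_eq_bot_iff _).1 (by_contra fun h => ha (by simpa [wrHom] using wr_normal hz _ h a))

theorem alt5_center (x : alternatingGroup (Fin 5)) (h : ∀ a, a * x = x * a) : x = 1 :=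
  (alternatingGroup.center_eq_bot (by simp)).le (mem_center_iff.2 h)

theorem wr_two (N : Subgroup (Wr (alternatingGroup (Fin 5)))) (_ : N.Normal) (h : IsPGroup 2 N) : N = ⊥ := by
  have := alternatingGroup.isSimpleGroup (α := Fin 5) (by simp)
  by_contra h1
  have h2 := eq_bot_of_simple (S := alternatingGroup (Fin 5)) (p := 2) (n := 60) (by simp [nat_card_alternatingGroup]; rfl)
    (by norm_num) (q := 3) (by norm_num) (by norm_num) (by norm_num) ⊤ (h.of_injective (G := N) (H := (⊤ : Subgroup _))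
      ((inl.comp ((MonoidHom.inl _ _).comp (Subgroup.subtype ⊤))).codRestrict N fun a => wr_normal alt5_center N h1 _)
      fun a b e => by exact Subtype.ext (congrArg (fun x : N => x.1.left.1) e))
  exact top_ne_bot h2

theorem card_wr : Nat.card (Wr (alternatingGroup (Fin 5))) = 7200 := by
  rw [SemidirectProduct.card, Nat.card_prod, nat_card_alternatingGroup, Nat.card_eq_fintype_card,
    Nat.card_eq_fintype_card]; rfl

theorem wr_iso : Nonempty (Wr (alternatingGroup (Fin 5)) ≃* alternatingFiveWreathTwo) := by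
  have := alternatingGroup.isSimpleGroup (α := Fin 5) (by simp)
  let φ := (Equiv.Perm.sumCongrHom (Fin 5) (Fin 5)).comp ((MonoidHom.inl _ _).comp (alternatingGroup (Fin 5)).subtype)
  have h1 : ∀ b, Equiv.sumComm (Fin 5) (Fin 5) * φ b * (Equiv.sumComm (Fin 5) (Fin 5))⁻¹ = Equiv.Perm.sumCongr 1 b.1 :=
    fun b => by ext (x | x) <;> rfl
  have h2 : ∀ a b, φ a * Equiv.Perm.sumCongr 1 b = Equiv.Perm.sumCongr a.1 b := fun a b => by
    ext (x | x) <;> rfl
  let f := wrHom φ (Equiv.sumComm _ _) (by ext (x | x) <;> rfl) fun a b => by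
    rw [h1]; ext (x | x) <;> rfl
  have h3 : ∀ a b, f (inl (a, b)) = Equiv.Perm.sumCongr a.1 b.1 := fun a b =>
    (lift_inl _ _ _ _).trans ((congrArg _ (h1 b)).trans (h2 _ _))
  have h4 : f (inr (-1)) = Equiv.sumComm _ _ := lift_inr _ _ _ _
  obtain ⟨a, ha⟩ := exists_ne (1 : alternatingGroup (Fin 5))
  refine ⟨(MonoidHom.ofInjective (f := f) (wr_inj alt5_center _ _ (a := a) fun e => ha ?_)).trans
    (MulEquiv.subgroupCongr (le_antisymm ?_ ((closure_le _).2 ?_)))⟩
  · ext x
    exact congrArg Fin.val (Sum.inl_injective (congrArg (fun g : Equiv.Perm _ => g (.inl x)) e))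
  · rintro _ ⟨⟨⟨x, y⟩, u⟩, rfl⟩
    rw [← inl_left_mul_inr_right (⟨(x, y), u⟩ : Wr _), map_mul]
    refine mul_mem (subset_closure (.inl ⟨x, y, h3 _ _⟩)) ?_
    rcases Int.units_eq_one_or u with rfl | rfl
    · simp
    · exact subset_closure (.inr h4)
  · rintro _ (⟨x, y, rfl⟩ | rfl)
    exacts [⟨_, h3 x y⟩, ⟨_, h4⟩]

end H14
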