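import Cfsg.Agent.H14.M24Cen
import Cfsg.Agent.H14.WrA
import Cfsg.Agent.H15.Iso
import Cfsg.Agent.H17.Cores
import Cfsg.Agent.H1.Cores

/-! Identification of the group induced on the fixed classes. -/

set_option autoImplicit false

namespace H14
open Cfsg MulAction H18 Subgroup Matrix

/-- No normal 2-subgroup. -/
def NoO2 (T : Type*) [Group T] : Prop := ∀ N : Subgroup T, N.Normal → IsPGroup 2 N → N = ⊥

theorem NoO2.congr {T T' : Type*} [Group T] [Group T'] (h : NoO2 T) (e : T ≃* T') : NoO2 T' := fun N hN h2 =>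
  (map_eq_bot_iff_of_injective _ (f := e.symm.toMonoidHom) e.symm.injective).1
    (h _ (hN.map _ e.symm.surjective) (h2.map _))

theorem noO2_simple {S : Type*} [Group S] [IsSimpleGroup S] {n : ℕ} (hn : Nat.card S = n) (h0 : n ≠ 0)
    (h3 : 3 ∣ n) : NoO2 S := fun N _ h => eq_bot_of_simple hn h0 (q := 3) (by norm_num) h3 (by norm_num) N h

theorem FX.ft_iso {d : ℕ} {g : Co0} {b c : Fin d → Λ} (F : FX g b c) {p n : ℕ} (ho : orderOf g = p) (hp : Odd p)
    (h1 : Nat.card C1(g) ≤ 2 * p * n) (h0 : n ≠ 0) {X : Type*} [Group X] (hX : Nat.card X = n) (φ : X →* F.TB)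
    (hφ : Function.Injective φ) : ∃ τ : C1(g) →* X, FT g b c τ := by
  obtain ⟨h2, h3⟩ := F.ft ho hp h1 h0
  have h4 := hX ▸ Nat.card_le_card_of_injective φ hφ
  have := Finite.of_injective φ hφ
  exact ⟨_, (h3 h4).congr (MulEquiv.ofBijective φ ((Nat.bijective_iff_injective_and_card φ).2
    ⟨hφ, by omega⟩)).symm⟩

theorem mm_ne {T : Type*} [Group T] {d : ℕ} {ρ : T →* Matrix (Fin d) (Fin d) (ZMod 2)} {g : T} {A : ℕ}
    (h : ρ g = a2.toM (Equiv.refl _) A) (i j : Fin d)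
    (e : Nat.beq (H15.fld 1 A (d * i + j)) (H15.fld 1 (a2.idN d) (d * i + j)) = false) : g ≠ 1 := fun h1 =>
  a2_ne i j e (by rw [← h, h1, map_one, H15.Ar.toM_idN])

theorem mm_cent {T : Type*} [Group T] {d : ℕ} {ρ : T →* Matrix (Fin d) (Fin d) (ZMod 2)} {L : List (ℕ × ℕ)}
    (M : H15.MM ρ a2 (Equiv.refl _) L) (hρ : Function.Injective ρ) (w : Word) (L' : List (ℕ × ℕ)) (W : List Word)
    (k : ℕ) (ds : List Word) (e : (wordsB d L L' W k && a2.invM d L' && defOk ds k &&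
      Nat.ble L'.length (k + ds.length) && a2.relsM d L' [] (defRels ds k) &&
      a2.relsM d L [] (W.map fun u => (w ++ u, u ++ w))) = true) :
    Nonempty (H15.MM (ρ.comp C1(ev M.gen w).subtype) a2 (Equiv.refl _) L') := by
  simp only [Bool.and_eq_true, Nat.ble_eq] at e
  refine H15.exists_MM e.1.1.1.1.2 (fun l hl => ⟨⟨_, mem_C1.2 ?_⟩, mm_word M _ (allLt_spec e.1.1.1.1.1 l hl)⟩)
    e.1.1.1.2 e.1.1.2 e.1.2
  rcases getL_mem_or [] W l with h | h
  · simpa using M.rels hρ e.2 _ (List.mem_map_of_mem h)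
  · simp [h]

/-- The shape `3 . U4(3) . 2`. -/
def FiT (T : Type*) [Group T] : Prop :=
  ∃ (N M : Subgroup T) (_ : N.Normal) (_ : M.Normal), N ≤ M ∧ Nat.card N = 3 ∧
    (∃ (K : Type) (_ : Field K) (_ : Fintype K), Fintype.card K = 9 ∧ Nonempty (M ⧸ N.subgroupOf M ≃* PSU 4 K 3)) ∧
    M.index = 2

instance normal_zp_C1 {T : Type*} [Group T] (ω : T) : ((zpowers ω).subgroupOf C1(ω)).Normal :=
  normal_sgOf C1_le_N_zpowers

theorem fiT_of {T : Type*} [Group T] [Finite T] {K : Type} [Field K] [Fintype K] (hK : Fintype.card K = 9)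
    [IsSimpleGroup (PSU 4 K 3)] (hX : Nat.card (PSU 4 K 3) = 3265920) (hT : Nat.card T ≤ 19595520) {ω t : T}
    (hω : orderOf ω = 3) (ht : t * ω * t⁻¹ = ω⁻¹) (φ : PSU 4 K 3 →* C1(ω) ⧸ (zpowers ω).subgroupOf C1(ω))
    (hφ : Function.Injective φ) : 19595520 ≤ Nat.card T ∧ FiT T ∧ NoO2 T := by
  have h0 : zpowers ω ≤ C1(ω) := zpowers_le.2 C1_self
  have hN : Nat.card (zpowers ω) = 3 := (Nat.card_zpowers ω).trans hω
  have h1 := hX ▸ Nat.card_le_card_of_injective φ hφ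
  have h2 := card_eq_card_quotient_mul_card_subgroup ((zpowers ω).subgroupOf C1(ω))
  rw [Nat.card_congr (subgroupOfEquivOfLe h0).toEquiv, hN] at h2
  have h3 : t ∉ C1(ω) := fun e => by
    rw [conj_eq_self_of_C1 e, eq_inv_iff_mul_eq_one, ← sq, ← orderOf_dvd_iff_pow_eq_one, hω] at ht
    omega
  have h4 := C1(ω).card_mul_index
  have h5 : C1(ω).index ≠ 1 := fun e => h3 (index_eq_one.1 e ▸ mem_top t)
  have h6 := C1(ω).index_ne_zero_of_finite
  have h7 : C1(ω).index = 2 := by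
    by_contra h
    have : 3 ≤ C1(ω).index := by omega
    nlinarith
  rw [h7] at h4
  have h8 : (zpowers ω).Normal := ⟨fun x hx g => by
    by_cases hg : g ∈ C1(ω)
    · exact conj_mem C1_le_N_zpowers hg hx
    · have h9 := (mul_mem_iff_of_index_two h7 (a := g) (b := t⁻¹)).2 (iff_of_false hg (by rwa [inv_mem_iff]))
      obtain ⟨k, rfl⟩ := hx
      have := conj_mem C1_le_N_zpowers h9 (zpow_mem (inv_mem (mem_zpowers ω)) k)
      rw [← ht, conj_zpow] at this
      simpa [mul_assoc] using this⟩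
  have := Finite.of_injective φ hφ
  let e := MulEquiv.ofBijective φ ((Nat.bijective_iff_injective_and_card φ).2 ⟨hφ, by omega⟩)
  refine ⟨by omega, ⟨_, _, h8, normal_of_index_eq_two h7, h0, hN, ⟨K, _, _, hK, ⟨e.symm⟩⟩, h7⟩, fun N hN' h2 => ?_⟩
  have h9 : N ≤ C1(ω) := (commutator_eq_bot_iff_le_centralizer.1
    (H17.commutator_eq_bot_of_pgroup_of_not_dvd h2 (by rw [hN]; norm_num) le_normalizer_of_normal
      le_normalizer_of_normal)).trans C_zpowers.le
  have h10 := (Subgroup.map_eq_bot_iff _).1 (((noO2_simple hX (by norm_num) (by norm_num)).congr e) _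
    ((hN'.subgroupOf C1(ω)).map _ (QuotientGroup.mk'_surjective _)) ((h2.comap_subtype).map _))
  rw [QuotientGroup.ker_mk'] at h10
  refine (disjoint_iff.1 (IsPGroup.disjoint_of_ne 2 3 (by norm_num) N _ h2
    (IsPGroup.of_card (n := 1) hN))) ▸ (inf_of_le_left fun x hx => h10 (x := ⟨x, h9 hx⟩) hx).symm

theorem FiT.comap {D T : Type*} [Group D] [Group T] (h : FiT T) (ψ : D →* T) (hψ : Function.Surjective ψ) :
    ∃ (N M : Subgroup D) (_ : N.Normal) (_ : M.Normal), ψ.ker ≤ N ∧ N ≤ M ∧ Nat.card N = 3 * Nat.card ψ.ker ∧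
    (∃ (K : Type) (_ : Field K) (_ : Fintype K), Fintype.card K = 9 ∧ Nonempty (M ⧸ N.subgroupOf M ≃* PSU 4 K 3)) ∧
    M.index = 2 := by
  obtain ⟨N, M, hN, hM, h1, h2, ⟨K, _, _, hK, ⟨e⟩⟩, h3⟩ := h
  refine ⟨N.comap ψ, M.comap ψ, inferInstance, inferInstance, ker_le_comap _ _, comap_mono h1, ?_,
    ⟨K, _, _, hK, ⟨.trans ?_ e⟩⟩, (index_comap_of_surjective _ hψ).trans h3⟩
  · have := H1.card_map_mul_card_inf_ker ψ (N.comap ψ)
    rw [map_comap_eq_self_of_surjective hψ, h2, inf_of_le_left (ker_le_comap _ _)] at this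
    exact this.symm
  · let f := (QuotientGroup.mk' (N.subgroupOf M)).comp (ψ.subgroupComap M)
    exact (QuotientGroup.quotientMulEquivOfEq (by ext x; simp [f, mem_subgroupOf]; rfl)).trans
      (QuotientGroup.quotientKerEquivOfSurjective f ((QuotientGroup.mk'_surjective _).comp
        (ψ.subgroupComap_surjective_of_surjective M hψ)))

end H14
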