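import Cfsg.Agent.H8.Cd1
import Cfsg.Agent.H26.Core
import Cfsg.Agent.H7.Second

/-! Normal subgroups inside all kernels of irreducible characters of `p'`-degree (S4591). -/
set_option autoImplicit false
open H5 H6 H8 Cfsg
open scoped ComplexConjugate commutatorElement

namespace H14.Kp
variable {G : Type*} [Group G] [Finite G]

theorem lift {p : ℕ} [hp : Fact p.Prime] {V : Subgroup G} [V.Normal] (hV : pResidual p V = ⊤) (P : Sylow p G)
    (θ : IrrCharacter V) (h1 : θ ≠ irrOne V) (h2 : (P : Subgroup G) ≤ inertia θ.1) (h3 : ¬ p ∣ charDegree θ.1) :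
    ∃ χ, IsIrrCharacter G χ ∧ ¬ V ≤ charKer χ ∧ ¬ p ∣ charDegree χ := by
  classical
  haveI := Fintype.ofFinite G
  have hVH : V ≤ V ⊔ P := le_sup_left
  have hθ' := isIrr_sOf hVH θ.2
  obtain ⟨a, ha⟩ : ∃ a, (V.subgroupOf (V ⊔ P)).index = p ^ a := by
    obtain ⟨b, hb⟩ := P.isPGroup'.exists_card_eq
    obtain ⟨a, -, ha⟩ := (Nat.dvd_prime_pow hp.out).1 (hb ▸ (Subgroup.relIndex_sup_left (P : Subgroup G) V).dvd.trans
      (Subgroup.index_dvd_card _))
    exact ⟨a, ha⟩
  have h4 : ¬ p ∣ detOrder (sOf θ.1 (V ⊔ P)) := not_dvd_detOrder (by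
    have := H3.map_pResidual_of_surjective (p := p) (Subgroup.subgroupOfEquivOfLe hVH).symm.toMonoidHom
      (MulEquiv.surjective _)
    rw [← this, hV, Subgroup.map_top_of_surjective _ (MulEquiv.surjective _)]) _
  obtain ⟨η, ⟨h5, h6, -⟩, -⟩ := exists_canonical_ext hθ' (fun g => by
      rw [cj_sOf, (sup_le (le_inertia θ.2.isClassFunction) h2 g.2 : cj θ.1 g = θ.1)])
    (d := charDegree θ.1) θ.2.coe_charDegree.symm (by
      rw [ha]
      exact ((Nat.Prime.coprime_iff_not_dvd hp.out).2 (Nat.Prime.not_dvd_mul hp.out h4 h3)).pow_left _)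
  obtain ⟨χ, h7, h8⟩ := exists_constituent_not_dvd (isCharacter_ind _ h5.isCharacter) (n := p) (by
    rw [deg_ind h5.isCharacter, charDegree_congr (χ := η) (ψ := θ.1) (h6 1)]
    exact Nat.Prime.not_dvd_mul hp.out (fun e => P.not_dvd_index
      (e.trans (Subgroup.index_dvd_of_le le_sup_right))) h3)
  refine ⟨_, χ.2, fun hk => h1 (Subtype.ext (θ.2.charKer_eq_top_iff.1 (top_le_iff.1 fun v _ => ?_))), h8⟩
  rw [inner_ind_left _ _ χ.2.isClassFunction, Ne, classInner_eq_zero_comm] at h7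
  have := apply_eq_of_mem_charKer (ker_le_of_constituent χ.2.isCharacter h5 h7
    (x := ⟨v, hVH v.2⟩) (hk v.2))
  exact θ.2.mem_charKer.2 ((h6 ⟨⟨v, hVH v.2⟩, v.2⟩).symm.trans (this.trans (h6 1)))

theorem inv {p : ℕ} [hp : Fact p.Prime] {V : Subgroup G} [V.Normal] (P : Sylow p G) (x : V) (x1 : x ≠ 1)
    (hx : (x : G) ∈ Subgroup.centralizer ((P : Subgroup G) : Set G)) :
    ∃ θ : IrrCharacter V, θ ≠ irrOne V ∧ (P : Subgroup G) ≤ inertia θ.1 := by
  classical
  haveI := Fintype.ofFinite G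
  letI := irrAct V
  obtain ⟨M, -, hM, hpM⟩ := H7.exists_isPModular p
  letI := Ideal.Quotient.field M
  by_contra! hc
  let w : IrrCharacter V → AlgInt := fun θ =>
    ⟨θ.1 1 * θ.1 x, (θ.2.isCharacter.isIntegral 1).mul (θ.2.isCharacter.isIntegral x)⟩
  have hw : ∀ (u : (P : Subgroup G)) (θ : IrrCharacter V), w (u • θ) = w θ := fun u θ => by
    apply Subtype.ext
    change cj θ.1 (u : G)⁻¹ 1 * cj θ.1 (u : G)⁻¹ x = θ.1 1 * θ.1 x
    rw [cj_apply_one, cj_apply]
    refine congrArg (fun z => θ.1 1 * θ.1 z) (Subtype.ext ?_)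
    have := hx _ (inv_mem u.2)
    change (u : G)⁻¹ * x * (u : G)⁻¹⁻¹ = x
    rw [this, mul_inv_cancel_right]
  have h1 := H7.sum_eq_zero_of_pgroup (k := AlgInt ⧸ M) (p := p)
    (by rw [← map_natCast (Ideal.Quotient.mk M)]; exact Ideal.Quotient.eq_zero_iff_mem.2 hpM) P.isPGroup'
    (fun θ : IrrCharacter V => if θ = irrOne V then 0 else Ideal.Quotient.mk M (w θ))
    (fun u θ => by
      rw [hw]
      exact if_congr ⟨fun h => by rw [← inv_smul_smul u θ, h]; rfl, fun h => by rw [h]; rfl⟩ rfl rfl)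
    fun θ h => by
      split_ifs with e
      · rfl
      · exact absurd (fun u hu => mem_inertia.2 (by
          have := congrArg Subtype.val (h ⟨u⁻¹, inv_mem hu⟩)
          change cj θ.1 (u⁻¹)⁻¹ = θ.1 at this
          rwa [inv_inv] at this)) (hc θ e)
  have h2 : ∑ θ : IrrCharacter V, w θ = 0 := by
    apply Subtype.ext
    rw [AddSubmonoidClass.coe_finset_sum]
    exact sum_degree_mul_apply_of_ne_one x1
  have h3 := congrArg (Ideal.Quotient.mk M) h2
  rw [map_sum, map_zero, ← Finset.add_sum_erase _ _ (Finset.mem_univ (irrOne V))] at h3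
  rw [← Finset.add_sum_erase _ _ (Finset.mem_univ (irrOne V)), if_pos rfl, zero_add,
    Finset.sum_congr rfl fun θ h => if_neg (Finset.ne_of_mem_erase h)] at h1
  have h4 : w (irrOne V) = 1 := Subtype.ext (by simp [w])
  rw [h1, h4, map_one, add_zero] at h3
  exact one_ne_zero h3

theorem pY (p : ℕ) [hp : Fact p.Prime] (P : Sylow p G) (N : Subgroup G)
    (hmax : ∀ L : Subgroup G, L.Normal → L ⊓ Subgroup.centralizer ((P : Subgroup G) : Set G) = ⊥ → L ≤ N)
    (K : Subgroup G) [K.Normal] (hK : ∀ χ, IsIrrCharacter G χ → ¬ p ∣ charDegree χ → K ≤ charKer χ) :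
    K ≤ N ⊔ ⁅(P : Subgroup G), (P : Subgroup G)⁆ := by
  classical
  haveI := Fintype.ofFinite G
  have nV : (pResidualOf p K).Normal := H3.map_subtype_pResidual_normal K
  have le : pResidualOf p K ≤ K := H26.pResidualOf_le _ _
  have e : pResidual p (pResidualOf p K) = ⊤ := by
    rw [H26.pResidual_eq_subgroupOf, H26.pResidualOf_pResidualOf, Subgroup.subgroupOf_self]
  have no : ¬ ∃ χ, IsIrrCharacter G χ ∧ ¬ pResidualOf p K ≤ charKer χ ∧ ¬ p ∣ charDegree χ :=
    fun ⟨χ, h1, h2, h3⟩ => h2 (le.trans (hK χ h1 h3))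
  have hd : ¬ p ∣ Nat.card (pResidualOf p K) := fun hd => no (berkovich e hd)
  have VN : pResidualOf p K ≤ N := hmax _ nV (by
    rw [eq_bot_iff]
    rintro x ⟨h1, h2⟩
    by_contra x1
    obtain ⟨θ, t1, t2⟩ := inv P ⟨x, h1⟩ (fun h => x1 (congrArg Subtype.val h)) h2
    exact no (lift e P θ t1 t2 fun h => hd (h.trans θ.2.charDegree_dvd_card)))
  have KP : ∀ y ∈ K, y ∈ (P : Subgroup G) → y ∈ ⁅(P : Subgroup G), (P : Subgroup G)⁆ := by
    intro y yK yP
    by_contra hn
    have hn' : (⟨y, yP⟩ : (P : Subgroup G)) ∉ commutator (P : Subgroup G) := fun h => hn (by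
      rw [← Subgroup.map_subtype_commutator]
      exact ⟨_, h, rfl⟩)
    obtain ⟨lam, -, l2⟩ := exists_lin_ne_one le_rfl hn'
    have h5 := isIrrCharacter_hom lam
    obtain ⟨χ, h7, h8⟩ := exists_constituent_not_dvd (isCharacter_ind _ h5.isCharacter) (n := p) (by
      rw [deg_ind h5.isCharacter, charDegree_of_eq (n := 1) (by simp), mul_one]
      exact P.not_dvd_index)
    rw [inner_ind_left _ _ χ.2.isClassFunction, Ne, classInner_eq_zero_comm] at h7
    have := ker_le_of_constituent χ.2.isCharacter h5 h7 (x := ⟨y, yP⟩) (hK _ χ.2 h8 yK)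
    rw [charKer_hom] at this
    exact l2 this
  have hq : IsPGroup p (K.map (QuotientGroup.mk' (pResidualOf p K))) := by
    rintro ⟨_, x, hx, rfl⟩
    obtain ⟨k, hk⟩ := H26.exists_pow_mem_pResidualOf (p := p) hx
    refine ⟨k, Subtype.ext ?_⟩
    change QuotientGroup.mk' _ x ^ p ^ k = 1
    rw [← map_pow]
    exact (QuotientGroup.eq_one_iff _).2 hk
  haveI := Subgroup.Normal.map (inferInstance : K.Normal) _ (QuotientGroup.mk'_surjective (pResidualOf p K))
  have hs := (P.mapSurjective (QuotientGroup.mk'_surjective (pResidualOf p K))).3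
    (hq.to_sup_of_normal_left (P.mapSurjective (QuotientGroup.mk'_surjective (pResidualOf p K))).2) le_sup_right
  intro k hk
  have h1 : QuotientGroup.mk' (pResidualOf p K) k ∈
      (P : Subgroup G).map (QuotientGroup.mk' (pResidualOf p K)) := hs.le (Subgroup.mem_sup_left ⟨k, hk, rfl⟩)
  obtain ⟨y, yP, hy⟩ := h1
  have h2 : y⁻¹ * k ∈ pResidualOf p K := QuotientGroup.eq.1 hy
  have yK : y ∈ K := by
    have := K.mul_mem hk (K.inv_mem (le h2))
    simpa using this
  have : k = y * (y⁻¹ * k) := by group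
  rw [this]
  exact Subgroup.mul_mem _ (Subgroup.mem_sup_right (KP y yK yP)) (Subgroup.mem_sup_left (VN h2))

end H14.Kp
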