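import Cfsg.Agent.H14.Conway2
import Cfsg.Agent.H14.HTc
import Cfsg.Agent.H14.MWc

/-! Configurations of minimal vectors whose orbitals are given by the inner products. -/

set_option autoImplicit false

namespace H14
open Cfsg MulAction

theorem eq_of_dot32 {x y : Λ} (hx : sqNorm x.1 = 32) (hy : sqNorm y.1 = 32) (h : dotInt x.1 y.1 = 32) :
    y = x := by
  have : sqNorm (y.1 - x.1) = 0 := by rw [sqNorm_sub, dot_comm]; omega
  exact Subtype.ext (sub_eq_zero.1 (sqNorm_eq_zero this))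

theorem ncard_tr (g : Co0) {S T : Set Λ} (h : ∀ y, g • y ∈ T ↔ y ∈ S) : T.ncard = S.ncard :=
  (Set.ncard_congr (fun y _ => g • y) (fun y => (h y).2) (fun _ _ _ _ e => MulAction.injective g e)
    fun y hy => ⟨g⁻¹ • y, (h _).1 (by rwa [smul_inv_smul]), smul_inv_smul _ _⟩).symm

/-- `H` is transitive on the set `T` of minimal vectors, the orbitals are given by the inner products,
and `f` lists the subdegrees. -/
structure RkS (H : Subgroup Co0) (T : Set Λ) (n : ℕ) (f : ℤ → ℕ) : Prop where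
  card : T.ncard = n
  min : ∀ x ∈ T, sqNorm x.1 = 32
  inv : ∀ g ∈ H, ∀ x ∈ T, g • x ∈ T
  tr : ∀ x ∈ T, ∀ y ∈ T, ∃ g ∈ H, g • x = y
  conn : ∀ x ∈ T, ∀ y ∈ T, ∀ z ∈ T, dotInt x.1 y.1 = dotInt x.1 z.1 → ∃ g ∈ H, g • x = x ∧ g • y = z
  cnt : ∀ x ∈ T, ∀ c ∈ [16, 8, 0, -8, -16, -32], {y | y ∈ T ∧ dotInt x.1 y.1 = c}.ncard = f c

namespace RkS
variable {H H' : Subgroup Co0} {T T' : Set Λ} {n : ℕ} {f : ℤ → ℕ}

theorem conj (h : RkS H T n f) (g : Co0) (h1 : ∀ a, g * a * g⁻¹ ∈ H' ↔ a ∈ H)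
    (h2 : ∀ x, g • x ∈ T' ↔ x ∈ T) : RkS H' T' n f := by
  have s : ∀ x : Λ, ∃ y, g • y = x := fun x => ⟨_, smul_inv_smul g x⟩
  refine ⟨(ncard_tr g h2).trans h.card, fun x hx => ?_, fun a ha x hx => ?_, fun x hx y hy => ?_,
    fun x hx y hy z hz e => ?_, fun x hx c hc => ?_⟩
  · obtain ⟨x, rfl⟩ := s x
    rw [sqNorm_smul, h.min x ((h2 x).1 hx)]
  · obtain ⟨x, rfl⟩ := s x
    have := (h2 _).2 (h.inv (g⁻¹ * a * g) ((h1 _).1 (by simpa [mul_assoc] using ha)) x ((h2 x).1 hx))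
    simpa [mul_smul] using this
  · obtain ⟨x, rfl⟩ := s x
    obtain ⟨y, rfl⟩ := s y
    obtain ⟨a, ha, rfl⟩ := h.tr x ((h2 x).1 hx) y ((h2 y).1 hy)
    exact ⟨_, (h1 a).2 ha, by simp [mul_smul]⟩
  · obtain ⟨x, rfl⟩ := s x
    obtain ⟨y, rfl⟩ := s y
    obtain ⟨z, rfl⟩ := s z
    rw [dot_smul, dot_smul] at e
    obtain ⟨a, ha, e1, rfl⟩ := h.conn x ((h2 x).1 hx) y ((h2 y).1 hy) z ((h2 z).1 hz) e
    exact ⟨_, (h1 a).2 ha, by simp [mul_smul, e1], by simp [mul_smul]⟩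
  · obtain ⟨x, rfl⟩ := s x
    rw [← h.cnt x ((h2 x).1 hx) c hc]
    exact ncard_tr g fun y => by simp only [Set.mem_setOf_eq, h2, dot_smul]

theorem orbit_eq (h : RkS H T n f) {x y : Λ} (hx : x ∈ T) (hy : y ∈ T) :
    orbit (H ⊓ stabilizer Co0 x : Subgroup Co0) y = {z | z ∈ T ∧ dotInt x.1 z.1 = dotInt x.1 y.1} := by
  ext z
  constructor
  · rintro ⟨g, rfl⟩
    exact ⟨h.inv g g.2.1 y hy, dot_smul_of_fix g.2.2 y⟩
  · rintro ⟨hz, e⟩
    obtain ⟨g, hg, e1, e2⟩ := h.conn x hx y hy z hz e.symm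
    exact ⟨⟨g, hg, e1⟩, e2⟩

theorem exists_orbit (h : RkS H T n f) {x : Λ} (hx : x ∈ T) {c : ℤ} (hc : c ∈ [16, 8, 0, -8, -16, -32])
    (h0 : f c ≠ 0) : ∃ y ∈ T, orbit (H ⊓ stabilizer Co0 x : Subgroup Co0) y =
      {z | z ∈ T ∧ dotInt x.1 z.1 = c} ∧ (orbit (H ⊓ stabilizer Co0 x : Subgroup Co0) y).ncard = f c := by
  obtain ⟨y, hy, rfl⟩ := Set.nonempty_of_ncard_ne_zero ((h.cnt x hx c hc).symm ▸ h0)
  exact ⟨y, hy, h.orbit_eq hx hy, by rw [h.orbit_eq hx hy, h.cnt x hx _ hc]⟩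

theorem dot_mem (h : RkS H T n f) {x y : Λ} (hx : x ∈ T) (hy : y ∈ T) (ne : y ≠ x) :
    dotInt x.1 y.1 ∈ [16, 8, 0, -8, -16, -32] ∧ f (dotInt x.1 y.1) ≠ 0 := by
  have h1 : dotInt x.1 y.1 ∈ [16, 8, 0, -8, -16, -32] := by
    rcases dot_min_cases (h.min x hx) (h.min y hy) with e | e | e
    · exact absurd e ne
    · rw [e, AddSubgroup.coe_neg, dot_neg, dot_self, h.min x hx]; simp
    · simp only [Finset.mem_insert, Finset.mem_singleton, List.mem_cons] at e ⊢; omega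
  refine ⟨h1, ?_⟩
  rw [← h.cnt x hx _ h1]
  exact Set.ncard_ne_zero_of_mem (a := y) ⟨hy, rfl⟩
    ((finite_shortL 32).subset fun z hz => (h.min z hz.1).le)

theorem card_stab (h : RkS H T n f) {x : Λ} (hx : x ∈ T) :
    Nat.card (H ⊓ stabilizer Co0 x : Subgroup Co0) * n = Nat.card H := by
  rw [← card_inf_stabilizer_mul H x, ← h.card]
  congr 2
  exact Set.ext fun y => ⟨h.tr x hx y, fun ⟨g, hg, e⟩ => e ▸ h.inv g hg x hx⟩

end RkS

theorem LM.rks {H : Subgroup Co0} {T : SubMulAction H Λ} {N : ℕ} {L : List Net} {X : List Q}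
    {M : PM H T N L} (h : LM X M) (hN : (T : Set Λ).ncard = N) (hT : ∀ x ∈ T, sqNorm x.1 = 32)
    {y : ℕ} (hy : (M.dec 0 : Λ).1 = vecN y) {ws sch : List Word}
    (h1 : subs (full N) (orbRun L ws sch (bits [0])) = true)
    (h2 : ∀ c ∈ [16, 8, 0, -8, -16, -32], ∀ x ∈ M.S (clsV N X y c), ∀ z ∈ M.S (clsV N X y c),
      ∃ g : H, g • M.dec 0 = M.dec 0 ∧ g • x = z) :
    RkS H T N fun c => pop N (clsV N X y c) := by
  have hS : ∀ c ∈ [16, 8, 0, -8, -16, -32], ∀ x : T,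
      x ∈ M.S (clsV N X y c) ↔ dotInt (M.dec 0 : Λ).1 x.1.1 = c := fun c hc x =>
    h.mem_S_clsV hy (by rw [hT _ (M.dec 0).2]; norm_num) (by revert c; decide)
      (by rw [hT _ x.2]; norm_num)
  have t0 : ∀ x ∈ T, ∃ g ∈ H, g • (M.dec 0 : Λ) = x := fun x hx => by
    obtain ⟨g, -, e⟩ := M.trans_of_reach h1 ⟨x, hx⟩
    exact ⟨g, g.2, congrArg Subtype.val e⟩
  have inv : ∀ g ∈ H, ∀ x, g • x ∈ T ↔ x ∈ T := fun g hg x =>
    ⟨fun e => inv_smul_smul g x ▸ T.smul_mem (⟨g⁻¹, H.inv_mem hg⟩ : H) e, T.smul_mem (⟨g, hg⟩ : H)⟩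
  have s : ∀ (g : Co0) (x : Λ), ∃ y, g • y = x := fun g x => ⟨_, smul_inv_smul g x⟩
  refine ⟨hN, hT, fun g hg x => (inv g hg x).2, fun x hx z hz => ?_, fun x hx a ha b hb e => ?_,
    fun x hx c hc => ?_⟩
  · obtain ⟨g, hg, rfl⟩ := t0 x hx
    obtain ⟨k, hk, rfl⟩ := t0 z hz
    exact ⟨k * g⁻¹, H.mul_mem hk (H.inv_mem hg), by simp [mul_smul]⟩
  · obtain ⟨g, hg, rfl⟩ := t0 x hx
    obtain ⟨a, rfl⟩ := s g a
    obtain ⟨b, rfl⟩ := s g b
    rw [dot_smul, dot_smul] at e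
    replace ha := (inv g hg a).1 ha
    replace hb := (inv g hg b).1 hb
    have h0 := hT _ (M.dec 0).2
    by_cases e0 : dotInt (M.dec 0 : Λ).1 a.1 = 32
    · rw [eq_of_dot32 h0 (hT a ha) e0, eq_of_dot32 h0 (hT b hb) (e ▸ e0)]
      exact ⟨1, H.one_mem, one_smul _ _, one_smul _ _⟩
    have hc : dotInt (M.dec 0 : Λ).1 a.1 ∈ [16, 8, 0, -8, -16, -32] := by
      rcases dot_min_cases h0 (hT a ha) with e | e | e
      · exact absurd (by rw [e, dot_self, h0]) e0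
      · rw [e, AddSubgroup.coe_neg, dot_neg, dot_self, h0]; simp
      · simp only [Finset.mem_insert, Finset.mem_singleton, List.mem_cons] at e ⊢; omega
    obtain ⟨k, e1, e2⟩ := h2 _ hc ⟨a, ha⟩ ((hS _ hc _).2 rfl) ⟨b, hb⟩ ((hS _ hc _).2 e.symm)
    have e1' : k.1 • (M.dec 0 : Λ) = M.dec 0 := congrArg Subtype.val e1
    have e2' : k.1 • a = b := congrArg Subtype.val e2
    exact ⟨g * k * g⁻¹, H.mul_mem (H.mul_mem hg k.2) (H.inv_mem hg), by simp [mul_smul, e1'],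
      by simp [mul_smul, e2']⟩
  · obtain ⟨g, hg, rfl⟩ := t0 x hx
    rw [ncard_tr g (S := {z | z ∈ T ∧ dotInt (M.dec 0 : Λ).1 z.1 = c})
      fun z => by simp only [Set.mem_setOf_eq, SetLike.mem_coe, inv g hg, dot_smul],
      ← M.ncard_S, ← Set.ncard_image_of_injective (M.S _) Subtype.val_injective]
    refine congrArg Set.ncard (Set.ext fun z => ⟨fun hz => ?_, ?_⟩)
    · exact ⟨⟨z, hz.1⟩, (hS c hc _).2 hz.2, rfl⟩
    · rintro ⟨w, hw, rfl⟩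
      exact ⟨w.2, (hS c hc _).1 hw⟩

theorem conn_of_res {Γ Ω : Type*} [Group Γ] [MulAction Γ Ω] {n : ℕ} {L : List Net} {M : PM Γ Ω n L}
    {wsH : List Word} {lev : Level} {N' : ℕ} (h : M.LevelRes wsH lev N') (h0 : lev.a = 0) {f : ℤ → ℕ}
    {l : List ℤ} (hc : (l.all fun c => lev.sos.any fun s => subs (f c) s.O) = true) :
    ∀ c ∈ l, ∀ x ∈ M.S (f c), ∀ z ∈ M.S (f c), ∃ g : Γ, g • M.dec 0 = M.dec 0 ∧ g • x = z :=
  fun c hl _ hx _ hz => by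
    obtain ⟨g, hg, e⟩ := h.conn (List.all_eq_true.1 hc c hl) hx hz
    exact ⟨g, h0 ▸ (h.stab.ge hg).2, e⟩

theorem conn_of_orb {Γ Ω : Type*} [Group Γ] [MulAction Γ Ω] {n : ℕ} {L : List Net} (M : PM Γ Ω n L)
    {ws sch : List Word} (h0 : 0 < n) (h : invChk L ws (bit 0) = true) {f : ℤ → ℕ} {l : List ℤ}
    {s : ℤ → ℕ} (hc : (l.all fun c => Nat.blt (s c) n && subs (f c) (orbRun L ws sch (bit (s c)))) = true) :
    ∀ c ∈ l, ∀ x ∈ M.S (f c), ∀ z ∈ M.S (f c), ∃ g : Γ, g • M.dec 0 = M.dec 0 ∧ g • x = z :=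
  fun c hl _ hx _ hz => by
    have := List.all_eq_true.1 hc c hl
    rw [Bool.and_eq_true, Nat.blt_eq] at this
    obtain ⟨a, ha, rfl⟩ := M.orb_sound_bit _ _ this.1 (M.S_mono this.2 hx)
    obtain ⟨b, hb, rfl⟩ := M.orb_sound_bit _ _ this.1 (M.S_mono this.2 hz)
    exact ⟨b * a⁻¹, M.fix_sound h0 h (mul_mem hb (inv_mem ha)), by simp [mul_smul]⟩

theorem RkS.congr {H : Subgroup Co0} {T : Set Λ} {n : ℕ} {f f' : ℤ → ℕ} (h : RkS H T n f)
    (e : ([16, 8, 0, -8, -16, -32].all fun c => Nat.beq (f c) (f' c)) = true) : RkS H T n f' :=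
  { h with cnt := fun x hx c hc =>
      (h.cnt x hx c hc).trans (Nat.eq_of_beq_eq_true (List.all_eq_true.1 e c hc)) }

/-- The subdegrees for the inner products `16, 8, 0, -8`. -/
def sd (a b c d : ℕ) (k : ℤ) : ℕ :=
  if k = 16 then a else if k = 8 then b else if k = 0 then c else if k = -8 then d else 0

theorem rk_TM : RkS CM TM 275 (sd 162 112 0 0) :=
  (PMc_lm.rks ncard_TM (fun _ h => h.1) (PMc_dec0 ▸ W_eq) McLc.reach_ok
    (conn_of_res (McLc.res0 PMc PMc_rels) rfl (by decide +kernel))).congr (by decide +kernel)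

theorem rk_TH : RkS CH TH 100 (sd 77 22 0 0) :=
  (PH_lm.rks ncard_TH (fun _ h => h.1) (PH_dec0 ▸ U_eq) HSc.reach_ok
    (conn_of_res (HSc.res0 PH PH_rels) rfl (by decide +kernel))).congr (by decide +kernel)

theorem rk_T3h : RkS C3 T3h 11178 (sd 1100 5600 4125 352) :=
  (P3h_lm.rks ncard_T3h (fun _ h => h.1) (P3h_dec0 ▸ U'_eq) CoH.reach_ok
    (conn_of_orb P3h (ws := [[2], [5, 2, 0, 3, 4, 4, 2, 2, 5]])
      (sch := (List.replicate 6 [[0], [1], [2], [3]]).flatten) (s := sd 1 7 10 89) (by norm_num)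
      (by decide +kernel) (by decide +kernel))).congr (by decide +kernel)

abbrev TW := Cls2 VV U (-16) 0
abbrev TT := Cls2 VV U' (-16) (-8)

theorem ncard_TW : (TW : Set Λ).ncard = 2025 :=
  (ncard_Cls2 VV_eq nV U_eq nU (by norm_num) (by norm_num)).trans pop_cls3.2.2

theorem ncard_TT : (TT : Set Λ).ncard = 352 := by
  refine Eq.trans (congrArg _ ?_)
    (rk_T3h.cnt U' ⟨norm_U', by decide +kernel⟩ (-8) (by simp))
  exact Set.ext fun _ => and_assoc.symm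

theorem ex_PW : ∃ M : PM CM TW 2025 MWc.nets, LM MWc.X M ∧ ∀ l < 2, (M.gen l).1 = MWc.gs l :=
  MWc.exists_pm (fixH2 VV_eq U_eq) (fixU2 VV_eq U_eq) (seed2 (by norm_num) (by decide +kernel)) ncard_TW
theorem ex_PT : ∃ M : PM CH TT 352 HTc.nets, LM HTc.X M ∧ ∀ l < 2, (M.gen l).1 = HTc.gs l :=
  HTc.exists_pm (fixH2 VV_eq U'_eq) (fixU2 VV_eq U'_eq) (seed2 (by norm_num) (by decide +kernel))
    ncard_TT

theorem rk_TW : RkS CM TW 2025 (sd 462 1232 330 0) := by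
  obtain ⟨M, h, -⟩ := ex_PW
  exact (h.rks ncard_TW (fun _ h => h.1)
    ((congrArg Subtype.val (h.dec_eq (by norm_num) (by decide +kernel) U'_eq)).trans U'_eq) MWc.reach_ok
    (conn_of_res (MWc.res0 M (MWc.relR h (fixU2 VV_eq U_eq))) rfl (by decide +kernel))).congr
      (by decide +kernel)

/-- Standard position for the McLaughlin triangles. -/
theorem rk_mcl {u v : Λ} (hu : sqNorm u.1 = 48) (hv : sqNorm v.1 = 32 ∧ sqNorm (u.1 - v.1) = 32) :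
    ∃ g : Co0, g • VV = -u ∧ g • U = v ∧ ∀ x : Λ, g • x ∈ {x : Λ | sqNorm x.1 = 32 ∧
      sqNorm (u.1 - x.1) = 32 ∧ dotInt v.1 x.1 = 16} ↔ x ∈ TM := by
  obtain ⟨g, e1, e2⟩ := std24 (u := -u) (x := v) ((sqNorm_neg _).trans hu) hv.1 (by
    rw [AddSubgroup.coe_neg, neg_dot, (norm_sub_iff (k := 24) hu hv.1).1 hv.2])
  refine ⟨g, e1, e2, fun x => and_congr (by rw [sqNorm_smul]) (Iff.rfl) |>.trans
    (and_congr_right fun hx => and_congr ?_ (by rw [← e2, dot_smul]))⟩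
  rw [norm_sub_iff (k := 24) hu ((sqNorm_smul g x).trans hx), ← dot_smul g VV, e1, AddSubgroup.coe_neg,
    neg_dot, neg_inj]

theorem conj2 {g : Co0} {a b u v : Λ} (e1 : g • a = u ∨ g • a = -u) (e2 : g • b = v) (x : Co0) :
    g * x * g⁻¹ ∈ stabilizer Co0 u ⊓ stabilizer Co0 v ↔ x ∈ stabilizer Co0 a ⊓ stabilizer Co0 b := by
  have : stabilizer Co0 u = stabilizer Co0 (g • a) := by
    rcases e1 with e | e <;> rw [e]; rw [stab_neg]
  rw [this, ← e2]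
  simp only [Subgroup.mem_inf, conj_mem_stabilizer]

theorem rks_mcl {u v : Λ} (hu : sqNorm u.1 = 48) (hv : sqNorm v.1 = 32 ∧ sqNorm (u.1 - v.1) = 32) :
    RkS (stabilizer Co0 u ⊓ stabilizer Co0 v) {x : Λ | sqNorm x.1 = 32 ∧
      sqNorm (u.1 - x.1) = 32 ∧ dotInt v.1 x.1 = 16} 275 (sd 162 112 0 0) := by
  obtain ⟨g, e1, e2, h⟩ := rk_mcl hu hv
  exact rk_TM.conj g (conj2 (Or.inr e1) e2) h

theorem stab_inf_add (u x : Λ) :
    stabilizer Co0 u ⊓ stabilizer Co0 x = stabilizer Co0 u ⊓ stabilizer Co0 (u + x) := by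
  ext g
  simp only [Subgroup.mem_inf, mem_stabilizer_iff, smul_add]
  exact and_congr_right fun h => by rw [h, add_right_inj]

/-- Standard position for the Higman–Sims triangles. -/
theorem rk_hs {v w : Λ} (hv : sqNorm v.1 = 48) (hw : sqNorm w.1 = 48) (h : dotInt v.1 w.1 = -32) :
    ∃ g : Co0, (∀ x, g * x * g⁻¹ ∈ stabilizer Co0 v ⊓ stabilizer Co0 w ↔ x ∈ CH) ∧
      ∀ (c d : ℤ) (x : Λ), g • x ∈ {x : Λ | sqNorm x.1 = 32 ∧ dotInt v.1 x.1 = c ∧ dotInt w.1 x.1 = d} ↔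
        x ∈ Cls2 VV U' (-c) (c + d) := by
  obtain ⟨g, e1, e2⟩ := std16 (u := -v) (x := v + w) ((sqNorm_neg _).trans hv)
    (by rw [AddSubgroup.coe_add, sqNorm_add]; omega)
    (by rw [AddSubgroup.coe_neg, neg_dot, AddSubgroup.coe_add, dot_add, dot_self]; omega)
  refine ⟨g, fun x => by rw [stab_inf_add]; exact conj2 (Or.inr e1) e2 x, fun c d x => ?_⟩
  refine and_congr (by rw [sqNorm_smul]) ?_
  rw [← dot_smul g VV, ← dot_smul g U', e1, e2, AddSubgroup.coe_neg, neg_dot, AddSubgroup.coe_add,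
    add_dot]
  omega

theorem rks_hs {v w : Λ} (hv : sqNorm v.1 = 48) (hw : sqNorm w.1 = 48) (h : dotInt v.1 w.1 = -32) :
    RkS (stabilizer Co0 v ⊓ stabilizer Co0 w)
      {x : Λ | sqNorm x.1 = 32 ∧ dotInt v.1 x.1 = 24 ∧ dotInt w.1 x.1 = -24} 100 (sd 77 22 0 0) := by
  obtain ⟨g, h1, h2⟩ := rk_hs hv hw h
  exact rk_TH.conj g h1 (h2 24 (-24))

theorem rks_co3 {u : Λ} (hu : sqNorm u.1 = 48) :
    RkS (stabilizer Co0 u) {x : Λ | sqNorm x.1 = 32 ∧ dotInt u.1 x.1 = -16} 11178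
      (sd 1100 5600 4125 352) := by
  obtain ⟨g, rfl⟩ := std48 hu
  exact rk_T3h.conj g (fun a => conj_mem_stabilizer g a VV)
    fun x => and_congr (by rw [sqNorm_smul]) (by rw [dot_smul])

theorem rks_mw {v w : Λ} (hv : sqNorm v.1 = 32) (hw : sqNorm w.1 = 32) (h : dotInt v.1 w.1 = -8) :
    RkS (stabilizer Co0 v ⊓ stabilizer Co0 w)
      {x : Λ | sqNorm x.1 = 32 ∧ dotInt v.1 x.1 = 0 ∧ dotInt w.1 x.1 = 16} 2025 (sd 462 1232 330 0) := by
  obtain ⟨g, e1, e2⟩ := std24 (u := -(v + w)) (x := v)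
    (by rw [AddSubgroup.coe_neg, sqNorm_neg, AddSubgroup.coe_add, sqNorm_add]; omega) hv
    (by rw [AddSubgroup.coe_neg, neg_dot, AddSubgroup.coe_add, add_dot, dot_self, dot_comm]; omega)
  refine rk_TW.conj g (fun x => ?_) fun x => and_congr (by rw [sqNorm_smul]) ?_
  · rw [stab_inf_add, inf_comm]; exact conj2 (Or.inr e1) e2 x
  rw [← dot_smul g VV, ← dot_smul g U, e1, e2, AddSubgroup.coe_neg, neg_dot, AddSubgroup.coe_add,
    add_dot]
  omega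

theorem rk_TT : (∀ x ∈ TT, ∀ y ∈ TT, ∃ g ∈ CH, g • x = y) := fun x hx y hy => by
  obtain ⟨g, h1, h2, e⟩ := rk_T3h.conn U' ⟨norm_U', by decide +kernel⟩ x ⟨hx.1, hx.2.1⟩ y ⟨hy.1, hy.2.1⟩
    (hx.2.2.trans hy.2.2.symm)
  exact ⟨g, ⟨h1, h2⟩, e⟩

theorem exists_fpf : ∃ g ∈ CH, orderOf g = 2 ∧ ∀ x ∈ TH, g • x ≠ x := by
  have h : ∀ x : TH, ev PH.gen [0, 14, 5, 2] • x ≠ x := fun x e => by
    have h1 := PH.testBit_runW [0, 14, 5, 2] 0x8c1616128b66f7affafff x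
    rw [e] at h1
    have h2 := PH.enc_lt x
    generalize PH.enc x = i at h1 h2
    revert h1
    revert i
    decide +kernel
  have h2 := PH.rels_of_idArr (D := 7) (l := [([0, 14, 5, 2] ++ [0, 14, 5, 2], [])]) (by norm_num)
    (by decide +kernel) _ (List.mem_singleton_self _)
  rw [ev_append, ev_nil] at h2
  refine ⟨_, (ev PH.gen [0, 14, 5, 2]).2, ?_, fun x hx e => h ⟨x, hx⟩ (Subtype.ext e)⟩
  rw [Subgroup.orderOf_coe]
  exact orderOf_eq_prime (by rw [sq, h2]) fun e => h (PH.dec 0) (by rw [e, one_smul])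

theorem iso_stab {H H' : Subgroup Co0} {T : SubMulAction H Λ} {N : ℕ} {L : List Net} (M : PM H T N L)
    {X : Type*} [Group X] {k : ℕ}
    (h : ∀ K : Subgroup H, Nat.card K = k → (∀ g, M.FixL [0] g → g ∈ K) → Nonempty (K ≃* X))
    {g : Co0} (hg : ∀ a, g * a * g⁻¹ ∈ H' ↔ a ∈ H) {x : Λ} (hx : ∃ a ∈ H, a • (M.dec 0 : Λ) = g⁻¹ • x)
    (hk : Nat.card (H' ⊓ stabilizer Co0 x : Subgroup Co0) = k) :
    Nonempty ((H' ⊓ stabilizer Co0 x : Subgroup Co0) ≃* X) := by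
  obtain ⟨a, ha, e⟩ := hx
  have e1 : (H ⊓ stabilizer Co0 (M.dec 0 : Λ) : Subgroup Co0) ≃* (H' ⊓ stabilizer Co0 x : Subgroup Co0) :=
    conjEquiv (g * a) fun y => by
      have : x = (g * a) • (M.dec 0 : Λ) := by rw [mul_smul, e, smul_inv_smul]
      rw [Subgroup.mem_inf, Subgroup.mem_inf, this, conj_mem_stabilizer,
        show g * a * y * (g * a)⁻¹ = g * (a * y * a⁻¹) * g⁻¹ by group, hg,
        H.mul_mem_cancel_right (H.inv_mem ha), H.mul_mem_cancel_left ha]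
  have e2 := Subgroup.subgroupOfEquivOfLe (show H ⊓ stabilizer Co0 (M.dec 0 : Λ) ≤ H from inf_le_left)
  obtain ⟨e3⟩ := h _ ((Nat.card_congr (e2.trans e1).toEquiv).trans hk) fun b hb =>
    ⟨b.2, congrArg Subtype.val (hb 0 (List.mem_singleton_self _))⟩
  exact ⟨(e2.trans e1).symm.trans e3⟩

end H14
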