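import Cfsg.Agent.H14.MonH
import Cfsg.Agent.H14.Mod2

/-! Sublattices of the Leech lattice and their indices; invariant sublattices; the representation
modulo a prime. -/

set_option autoImplicit false

namespace H14
open Cfsg MulAction Finset
open scoped Pointwise

/-- The even vectors. -/
def Lev : AddSubgroup V where
  carrier := {x | IsL 0 x}
  zero_mem' := isL_of_four (by simp) (by simp)
  add_mem' hx hy := by simpa using IsL.add hx hy
  neg_mem' hx := IsL.neg hx

/-- Four times `D24`. -/
def L4 : AddSubgroup V := (redH GolayPt 4).ker ⊓ Lev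

theorem mem_L4 {x : V} : x ∈ L4 ↔ (∀ i, x i % 4 = 0) ∧ (∑ i, x i) % 8 = 0 := by
  constructor
  · rintro ⟨h1, h2⟩
    exact ⟨fun i => Int.emod_eq_zero_of_dvd (by simpa using mem_ker_redH.1 h1 i),
      by simpa using (show IsL 0 x from h2).sum⟩
  · rintro ⟨h1, h2⟩
    exact ⟨mem_ker_redH.2 fun i => by simpa using Int.dvd_of_emod_eq_zero (h1 i), isL_of_four h1 h2⟩

theorem Lev_le : Lev ≤ leechLattice := fun _ h => IsL.mem h

theorem relIndex_Lev : Lev.relIndex leechLattice = 2 := by
  refine AddSubgroup.relIndex_eq_two_iff.2 ⟨tv none, (isL_tv none).mem, fun b hb => ?_⟩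
  obtain ⟨m, hm⟩ := mem_leech.1 hb
  have h := hm.add (isL_tv none)
  rcases hm.cases with rfl | rfl
  · refine Or.inr ⟨hm, fun h' => ?_⟩
    have := (h.par none).symm.trans ((show IsL 0 _ from h').par none)
    omega
  · refine Or.inl ⟨h, fun h' => ?_⟩
    have := (hm.par none).symm.trans ((show IsL 0 _ from h').par none)
    omega

theorem relIndex_L4_ker : L4.relIndex (redH GolayPt 4).ker = 2 := by
  refine AddSubgroup.relIndex_eq_two_iff.2 ⟨Pi.single none 4, mem_ker_redH.2 fun i => ?_, fun b hb => ?_⟩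
  · by_cases h : i = none
    · subst h; simp
    · simp [h]
  have h4 : ∀ i, (4 : ℤ) ∣ b i := fun i => by simpa using mem_ker_redH.1 hb i
  have hs : (4 : ℤ) ∣ ∑ i, b i := dvd_sum fun i _ => h4 i
  have h5 : ∀ i, (b + Pi.single none 4 : V) i % 4 = 0 := fun i => by
    have := h4 i
    by_cases h : i = none
    · subst h; simp only [Pi.add_apply, Pi.single_eq_same]; omega
    · simp only [Pi.add_apply, Pi.single_eq_of_ne h]; omega
  have h6 : ∑ i, (b + Pi.single none 4 : V) i = ∑ i, b i + 4 := by
    simp [sum_add_distrib]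
  rw [mem_L4, mem_L4, h6]
  by_cases h : (∑ i, b i) % 8 = 0
  · exact Or.inr ⟨⟨fun i => by have := h4 i; omega, h⟩, fun h' => by have := h'.2; omega⟩
  · exact Or.inl ⟨⟨h5, by omega⟩, fun h' => h h'.2⟩

theorem red_eq_ind {x : V} (h : IsL 0 x) : redH GolayPt 4 x = redH GolayPt 4 (ind 2 (cs x)) := by
  rw [← sub_eq_zero, ← _root_.map_sub]
  refine mem_ker_redH.2 fun i => ?_
  simp only [Pi.sub_apply, ind]
  split_ifs with hi
  · have := h.two hi; push_cast; omega
  · have := h.zero hi; push_cast; omega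

theorem relIndex_L4_Lev : L4.relIndex Lev = 4096 := by
  rw [L4, AddSubgroup.inf_relIndex_right, AddSubgroup.relIndex_ker, ← ncard_GC,
    ← Set.ncard_image_of_injOn (f := fun c => redH GolayPt 4 (ind 2 c))]
  · refine (Nat.card_coe_set_eq _).trans (congrArg _ (Set.ext fun y => ⟨?_, ?_⟩))
    · rintro ⟨x, hx, rfl⟩
      exact ⟨cs x, (show IsL 0 x from hx).code, (red_eq_ind hx).symm⟩
    · rintro ⟨c, hc, rfl⟩
      exact ⟨_, isL_ind hc, rfl⟩
  · intro c _ d _ e
    have e' : ind 2 c - ind 2 d ∈ (redH GolayPt 4).ker := by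
      rw [AddMonoidHom.mem_ker, _root_.map_sub, sub_eq_zero]; exact e
    ext i
    have := mem_ker_redH.1 e' i
    simp only [Pi.sub_apply, ind] at this
    split_ifs at this with h1 h2 h2 <;> simp_all <;> omega

theorem relIndex_L4 : L4.relIndex leechLattice = 2 ^ 13 := by
  rw [← AddSubgroup.relIndex_mul_relIndex L4 Lev _ inf_le_right Lev_le, relIndex_L4_Lev,
    relIndex_Lev]; norm_num

theorem index_leech : leechLattice.index = 2 ^ 36 := by
  have h1 := AddSubgroup.relIndex_mul_index (show L4 ≤ leechLattice from inf_le_right.trans Lev_le)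
  have h2 := AddSubgroup.relIndex_mul_index (show L4 ≤ (redH GolayPt 4).ker from inf_le_left)
  rw [relIndex_L4_ker, index_ker_redH, card_golayPt] at h2
  rw [relIndex_L4, ← h2] at h1
  omega

/-- A maximal totally singular subspace of the lattice modulo 2. -/
def L24 : AddSubgroup V where
  carrier := {x | ((∀ i, x i % 4 = 0) ∨ ∀ i, x i % 4 = 2) ∧ (∑ i, x i) % 8 = 0}
  zero_mem' := by simp
  add_mem' := by
    rintro x y ⟨hx, hx'⟩ ⟨hy, hy'⟩
    refine ⟨?_, by simp only [Pi.add_apply, sum_add_distrib]; omega⟩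
    rcases hx with hx | hx <;> rcases hy with hy | hy
    · exact Or.inl fun i => by have := hx i; have := hy i; simp only [Pi.add_apply]; omega
    · exact Or.inr fun i => by have := hx i; have := hy i; simp only [Pi.add_apply]; omega
    · exact Or.inr fun i => by have := hx i; have := hy i; simp only [Pi.add_apply]; omega
    · exact Or.inl fun i => by have := hx i; have := hy i; simp only [Pi.add_apply]; omega
  neg_mem' := by
    rintro x ⟨hx, hx'⟩
    refine ⟨?_, by simp only [Pi.neg_apply, sum_neg_distrib]; omega⟩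
    rcases hx with hx | hx
    · exact Or.inl fun i => by have := hx i; simp only [Pi.neg_apply]; omega
    · exact Or.inr fun i => by have := hx i; simp only [Pi.neg_apply]; omega

theorem L24_le : L24 ≤ leechLattice := by
  rintro x ⟨hx | hx, hx'⟩
  · exact (isL_of_four hx hx').mem
  · refine IsL.mem (m := 0) ⟨fun i => by have := hx i; omega, by omega, GC_congr univ_mem_GC fun i => ?_⟩
    have := hx i
    simp only [mem_cs, mem_univ, iff_true]; omega

theorem relIndex_L24 : L24.relIndex leechLattice = 2 ^ 12 := by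
  have h0 : L4 ≤ L24 := fun x hx => ⟨Or.inl (mem_L4.1 hx).1, (mem_L4.1 hx).2⟩
  have h1 := AddSubgroup.relIndex_mul_relIndex L4 L24 _ h0 L24_le
  have hs : ∑ _ : GolayPt, (2 : ℤ) = 48 := by simp [card_golayPt]
  have h2 : L4.relIndex L24 = 2 := by
    refine AddSubgroup.relIndex_eq_two_iff.2 ⟨fun _ => 2, ⟨Or.inr fun _ => rfl, by rw [hs]; rfl⟩, ?_⟩
    rintro b ⟨hb | hb, hb'⟩ <;> rw [mem_L4, mem_L4]
    · refine Or.inr ⟨⟨hb, hb'⟩, fun h => ?_⟩
      have := h.1 none; have := hb none; simp only [Pi.add_apply] at *; omega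
    · refine Or.inl ⟨⟨fun i => ?_, ?_⟩, fun h => ?_⟩
      · have := hb i; simp only [Pi.add_apply]; omega
      · simp only [Pi.add_apply, sum_add_distrib, hs]; omega
      · have := h.1 none; have := hb none; omega
  rw [relIndex_L4, h2] at h1
  omega

theorem two_smul_mem_L24 {v : V} (hv : v ∈ leechLattice) : (2 : ℤ) • v ∈ L24 := by
  obtain ⟨m, hm⟩ := mem_leech.1 hv
  have hs := hm.sum
  refine ⟨?_, by simp only [Pi.smul_apply, smul_eq_mul, ← mul_sum]; omega⟩
  rcases hm.cases with rfl | rfl
  · exact Or.inl fun i => by have := hm.par i; simp only [Pi.smul_apply, smul_eq_mul]; omega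
  · exact Or.inr fun i => by have := hm.par i; simp only [Pi.smul_apply, smul_eq_mul]; omega

theorem dvd_of_L24 {v : V} (hv : v ∈ L24) : (32 : ℤ) ∣ sqNorm v := by
  obtain ⟨h | h, h'⟩ := hv
  · exact thirtytwo_dvd h h'
  · have := dvd_sum_sub (f := fun i => v i ^ 2) (g := fun _ => 4) (n := 32) fun i => by
      obtain ⟨k, hk⟩ : ∃ k, v i = 4 * k + 2 := ⟨v i / 4, by have := h i; omega⟩
      obtain ⟨j, hj⟩ := Int.even_mul_succ_self k
      exact ⟨j, by rw [hk]; linear_combination 16 * hj⟩
    have hs : ∑ _ : GolayPt, (4 : ℤ) = 96 := by simp [card_golayPt]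
    rw [hs] at this
    unfold sqNorm
    omega

/-- The minimal vectors generate the lattice. -/
theorem leech_le_of_min {K : AddSubgroup V} (h : ∀ x : Λ, sqNorm x.1 = 32 → x.1 ∈ K) :
    leechLattice ≤ K := by
  have h4 : ∀ p, p ≠ none → ∀ s (hs : s % 8 = 4), s ^ 2 = 16 → (l4 p none s hs).1 ∈ K :=
    fun p hp s hs h2 => h _ (norm_l4 hp hs h2)
  refine leech_le (h lT (by decide +kernel)) (fun b hb => ?_) (fun p => ?_) ?_
  · exact h ⟨_, (isL_ind (isCW_basis b hb).bset_mem).mem⟩
      ((by decide +kernel : ∀ b ∈ gB, sqNorm (ind 2 (bset b)) = 32) b hb)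
  · by_cases hp : p = none
    · subst hp; simp
    · have := h4 p hp (-4) rfl rfl
      simpa [l4, sub_eq_add_neg, Pi.single_neg] using this
  · have := K.sub_mem (h4 (some 0) (by simp) 4 rfl rfl) (h4 (some 0) (by simp) (-4) rfl rfl)
    rwa [← AddSubgroup.coe_sub, ← fr_eq_sub] at this

theorem inv_eq_top {M : AddSubgroup V} (h1 : ∀ v ∈ leechLattice, (2 : ℤ) • v ∈ M)
    (h2 : ∀ (g : Co0) (v : Λ), v.1 ∈ M → (g • v : Λ).1 ∈ M) {x : Λ} (hx : x.1 ∈ M) (h0 : x ∉ TwoL) :
    leechLattice ≤ M := by
  obtain ⟨y, e, hy⟩ := exists_short x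
  obtain ⟨w, hw⟩ := e.symm.exists_eq
  have hyM : y.1 ∈ M := by
    rw [hw, AddSubgroup.coe_add, AddSubgroup.coe_add, ← two_zsmul]
    exact M.add_mem hx (h1 _ w.2)
  have all : ∀ z : Λ, sqNorm y.1 ≤ 64 → sqNorm y.1 = sqNorm z.1 → z.1 ∈ M := fun z a b => by
    obtain ⟨g, rfl⟩ := shell_trans b a
    exact h2 g y hyM
  have fin : ∀ a : Λ, a.1 ∈ M → sqNorm a.1 = 32 → leechLattice ≤ M := fun a ha hn =>
    leech_le_of_min fun z hz => by
      obtain ⟨g, rfl⟩ := min_trans hn hz
      exact h2 g a ha
  rcases hy with rfl | hy | hy | hy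
  · exact absurd (E2.zero_iff.1 e) h0
  · exact fin y hyM hy
  · refine fin U' ?_ norm_U'
    have := M.sub_mem (all (VV + U') (by omega) (hy.trans (by decide +kernel)))
      (all VV (by omega) (hy.trans norm_VV.symm))
    simpa using this
  · refine fin lO ?_ (by decide +kernel)
    have := M.sub_mem (all (fr none) (by omega) (hy.trans (norm_fr _).symm))
      (all (fr none - lO) (by omega) (hy.trans (by decide +kernel)))
    simpa using this

theorem mem_center_of_E2 {g : Co0} (h : ∀ v : Λ, E2 (g • v) v) : g ∈ Subgroup.center Co0 := by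
  let X : Subgroup Co0 :=
    { carrier := {g | ∀ v : Λ, E2 (g • v) v}
      one_mem' := fun v => by rw [one_smul]; exact E2.refl v
      mul_mem' := fun {a b} ha hb v => by rw [mul_smul]; exact (ha _).trans (hb v)
      inv_mem' := fun {a} ha v => by simpa using (ha (a⁻¹ • v)).symm }
  haveI : X.Normal := ⟨fun a ha b v => by
    simpa [mul_smul] using (ha (b⁻¹ • v)).smul b⟩
  rcases normal_Co0 X (fun v => by rw [negOne_smul]; exact E2.neg v) with e | e
  · exact e ▸ h
  · exfalso
    obtain ⟨a, ha⟩ := min_trans norm_U norm_U'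
    have := (show a ∈ X from e ▸ trivial) U
    rw [ha] at this
    revert this
    rintro this
    rcases this.eq_or nU' (by rw [norm_U]; norm_num) with h | h <;> revert h <;> decide +kernel

theorem negOne_mem_of_index_two {K : Subgroup Co0} (h : K.index = 2) : negOne ∈ K := by
  haveI := Subgroup.normal_of_index_eq_two h
  have key : ∀ u : Λ, sqNorm u.1 = 32 → stabilizer Co0 u ≤ K := fun u hu => by
    haveI := (simple_stab (Or.inl hu)).1
    rcases (inferInstance : (K.subgroupOf (stabilizer Co0 u)).Normal).eq_bot_or_eq_top with e | e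
    · exfalso
      have h1 := K.relIndex_dvd_index_of_normal (stabilizer Co0 u)
      rw [h, Subgroup.relIndex, e, Subgroup.index_bot, card_stab32 hu] at h1
      omega
    · exact Subgroup.subgroupOf_eq_top.1 e
  have e : negOne = sgn o0 o0_mem.1 * sgn o0ᶜ (compl_mem_GC o0_mem.1) := by
    rw [← sgn_symmDiff, negOne]; congr 1; ext i; simp [mem_symmDiff]
  rw [e]
  refine K.mul_mem (key (l4 (some 4) (some 6) 4 rfl) (norm_l4 (by decide) _ rfl) ?_)
    (key U norm_U ?_)
  · refine Subtype.ext (funext fun p => ?_)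
    rw [sgn_apply]; revert p; decide +kernel
  · refine Subtype.ext (funext fun p => ?_)
    rw [sgn_apply]; revert p; decide +kernel

section
variable {R : Type} [CommRing R] {c : R} (hc : c * 8 = 1)
include hc

theorem cast_smul (g : Co0) (x : Λ) (i : GolayPt) : (((g • x : Λ).1 i : ℤ) : R) =
    ∑ q, c * ((g • fr q : Λ).1 i : ℤ) * (x.1 q : ℤ) := by
  have h := congrArg (fun y : Λ => (((g • y : Λ).1 i : ℤ) : R)) (eight_smul_eq x)
  simp only [smul_zsmul, smul_sum, AddSubgroup.coe_zsmul, Pi.smul_apply, smul_eq_mul,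
    AddSubgroup.val_finsetSum, Finset.sum_apply] at h
  push_cast at h
  rw [← one_mul (((g • x : Λ).1 i : ℤ) : R), ← hc, mul_assoc, h, mul_sum]
  exact sum_congr rfl fun q _ => by ring

/-- The matrix of an automorphism over a ring in which 8 is invertible. -/
noncomputable def matC : Co0 →* Matrix GolayPt GolayPt R where
  toFun g := Matrix.of fun p q => c * ((g • fr q : Λ).1 p : ℤ)
  map_one' := by
    ext p q
    rw [Matrix.of_apply, one_smul, fr_apply, Matrix.one_apply]
    split_ifs
    · simpa using hc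
    · simp
  map_mul' g h := by
    ext p q
    rw [Matrix.of_apply, mul_smul, cast_smul hc, Matrix.mul_apply, mul_sum]
    exact sum_congr rfl fun r _ => by simp only [Matrix.of_apply]; ring

theorem matC_mulVec (g : Co0) (x : Λ) :
    (matC hc g).mulVec (fun p => (x.1 p : R)) = fun p => (((g • x : Λ).1 p : ℤ) : R) :=
  funext fun i => (cast_smul hc g x i).symm

end

theorem exists_rep23 {R : Type} [Field R] {c : R} (hc : c * 8 = 1) :
    ∃ f : C2 →* GL (Fin 23) R, Function.Injective f := by
  have h8 : (8 : R) ≠ 0 := right_ne_zero_of_mul_eq_one hc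
  let u : GolayPt → R := fun p => (U.1 p : R)
  let ρ : Representation R C2 (GolayPt → R) :=
    ((Matrix.toLinAlgEquiv' (R := R)).toMulEquiv.toMonoidHom.comp (matC hc)).comp C2.subtype
  have hρ : ∀ (g : C2) (x : Λ), ρ g (fun p => (x.1 p : R)) =
      fun p => (((g.1 • x : Λ).1 p : ℤ) : R) := fun g x => matC_mulVec hc g x
  let W := Submodule.span R {u}
  have hW : ∀ g, W ≤ W.comap (ρ g) := fun g => by
    refine Submodule.span_le.2 (Set.singleton_subset_iff.2 ?_)
    show ρ g u ∈ W
    rw [hρ, g.2]; exact Submodule.subset_span rfl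
  have hd : Module.finrank R ((GolayPt → R) ⧸ W) = 23 := by
    have h0 : u ≠ 0 := fun e => h8 (by
      have h1 : ((U.1 none : ℤ) : R) = 0 := congrFun e none
      rw [show U.1 none = 4 by decide +kernel] at h1
      push_cast at h1
      linear_combination 2 * h1)
    have := W.finrank_quotient_add_finrank
    rw [finrank_span_singleton h0, Module.finrank_pi, card_golayPt] at this
    omega
  let b := Module.finBasisOfFinrankEq _ _ hd
  let f := ((LinearMap.toMatrixAlgEquiv b).toMulEquiv.toMonoidHom.comp (ρ.quotient W hW)).toHomUnits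
  refine ⟨f, ?_⟩
  haveI := simple_C2
  rcases f.normal_ker.eq_bot_or_eq_top with e | e
  · exact f.ker_eq_bot_iff.1 e
  exfalso
  let g : C2 := ⟨sgn o0ᶜ (compl_mem_GC o0_mem.1), Subtype.ext (funext fun p => by
    rw [sgn_apply]; revert p; decide +kernel)⟩
  have h1 : f g = 1 := (show g ∈ f.ker from e ▸ trivial)
  have h2 : ρ.quotient W hW g = 1 :=
    (LinearMap.toMatrixAlgEquiv b).injective ((congrArg Units.val h1).trans (map_one _).symm)
  have h3 := LinearMap.congr_fun h2 (W.mkQ fun p => ((fr (some 4)).1 p : R))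
  have h4 := (Submodule.Quotient.eq W).1 h3
  rw [hρ, Submodule.mem_span_singleton] at h4
  obtain ⟨a, ha⟩ := h4
  have h5 := congrFun ha (some 4)
  simp only [Pi.smul_apply, Pi.sub_apply, g, sgn_apply, u] at h5
  rw [if_pos (by decide +kernel), fr_apply, if_pos rfl,
    show U.1 (some 4) = 0 by decide +kernel] at h5
  push_cast at h5
  apply mul_ne_zero h8 h8
  rw [smul_zero] at h5
  linear_combination 4 * h5

end H14
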