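import Cfsg.Prelude.Def_AxialAlgebras

/-! Majorana axes: eigenvector projections, fusion rules, dihedral families of axes. -/

set_option autoImplicit false

namespace H14.Mj
open Cfsg.Axial

variable {V : Type*} [AddCommGroup V] [Module ℝ V] {mul : V →ₗ[ℝ] V →ₗ[ℝ] V}
  {B : LinearMap.BilinForm ℝ V}

/-- A Majorana axis of length 1 with its involution. -/
structure MP (mul : V →ₗ[ℝ] V →ₗ[ℝ] V) (B : LinearMap.BilinForm ℝ V) (μ : V ≃ₗ[ℝ] V) (a : V) :
    Prop where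
  aut : ∀ u v, μ (mul u v) = mul (μ u) (μ v)
  iso : ∀ u v, B (μ u) (μ v) = B u v
  idem : mul a a = a
  one : B a a = 1
  dec : ∀ v, ∃ (l : ℝ) (α β γ : V), v = l • a + α + β + γ ∧ μ v = l • a + α + β - γ ∧ mul a α = 0 ∧
    mul a β = (1 / 4 : ℝ) • β ∧ mul a γ = (1 / 32 : ℝ) • γ
  neg : ∀ v, mul a v = (1 / 32 : ℝ) • v → μ v = -v
  fix : ∀ v (c : ℝ), c ≠ 1 / 32 → mul a v = c • v → μ v = v
  f00 : ∀ u v, mul a u = 0 → mul a v = 0 → mul a (mul u v) = 0
  f0q : ∀ u v, mul a u = 0 → mul a v = (1 / 4 : ℝ) • v → mul a (mul u v) = (1 / 4 : ℝ) • mul u v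
  fqq : ∀ u v, mul a u = (1 / 4 : ℝ) • u → mul a v = (1 / 4 : ℝ) • v → ∃ l : ℝ, mul a (mul u v) = l • a

theorem mem_eigen {a v : V} {c : ℝ} : v ∈ eigen mul a c ↔ mul a v = c • v :=
  Module.End.mem_eigenspace_iff

theorem eigenSum_one (a : V) (c : ℝ) : eigenSum mul a {c} = eigen mul a c := by simp [eigenSum]

theorem eigenSum_insert (a : V) (c : ℝ) (S : Set ℝ) :
    eigenSum mul a (insert c S) = eigen mul a c ⊔ eigenSum mul a S := iSup_insert

theorem MP.of {μ : V ≃ₗ[ℝ] V} {a : V} (h : IsMajoranaPair mul B μ a) (h1 : B a a = 1) :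
    MP mul B μ a := by
  obtain ⟨h2, h3, ⟨⟨-, h4, h5, h6⟩, h7⟩, h8, h9⟩ := h
  have le : ∀ c ∈ ({1, 0, 1 / 4} : Set ℝ), ∀ v, mul a v = c • v → μ v = v := fun c hc v hv =>
    h8 v (Submodule.mem_iSup_of_mem c (Submodule.mem_iSup_of_mem hc (mem_eigen.2 hv)))
  have dec : ∀ v, ∃ (l : ℝ) (α β γ : V), v = l • a + α + β + γ ∧ μ v = l • a + α + β - γ ∧ mul a α = 0 ∧
      mul a β = (1 / 4 : ℝ) • β ∧ mul a γ = (1 / 32 : ℝ) • γ := fun v => by
    have hv : v ∈ eigenSum mul a majoranaSpectrum := h5 ▸ trivial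
    rw [majoranaSpectrum, eigenSum_insert, eigenSum_insert, eigenSum_insert, eigenSum_one, h7] at hv
    obtain ⟨p, hp, q, hq, rfl⟩ := Submodule.mem_sup.1 hv
    obtain ⟨α, hα, r, hr, rfl⟩ := Submodule.mem_sup.1 hq
    obtain ⟨β, hβ, γ, hγ, rfl⟩ := Submodule.mem_sup.1 hr
    obtain ⟨l, rfl⟩ := Submodule.mem_span_singleton.1 hp
    rw [mem_eigen] at hα hβ
    refine ⟨l, α, β, γ, by abel, ?_, by simpa using hα, hβ, mem_eigen.1 hγ⟩
    have e : μ γ = -γ := h9 γ hγ
    rw [map_add, map_add, map_add, map_smul, le 1 (by simp) a (by simpa using h4), le 0 (by simp) α hα,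
      le _ (by simp) β hβ, e]
    abel
  refine ⟨h2, h3, h4, h1, dec, fun v hv => h9 v (mem_eigen.2 hv), fun v c hc hv => ?_,
    fun u v hu hv => ?_, fun u v hu hv => ?_, fun u v hu hv => ?_⟩
  · obtain ⟨l, α, β, γ, rfl, e, e1, e2, e3⟩ := dec v
    have k : μ (mul a (l • a + α + β + γ)) = mul a (l • a + α + β - γ) := by
      rw [h2, e, le 1 (by simp) a (by simpa using h4)]
    rw [hv, map_smul, e] at k
    simp only [map_add, map_sub, map_smul, e1, e2, e3, h4] at hv k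
    have : γ = 0 := by
      refine (smul_eq_zero.1 (show (2 * (c - 1 / 32)) • γ = 0 from ?_)).resolve_left
        (mul_ne_zero two_ne_zero (sub_ne_zero.2 hc))
      linear_combination (norm := module) (-1 : ℝ) • hv - k
    rw [e, this]; abel
  · have := h6 0 (by simp [majoranaSpectrum]) 0 (by simp [majoranaSpectrum]) u
      (mem_eigen.2 (by simpa using hu)) v (mem_eigen.2 (by simpa using hv))
    rw [show monsterLaw (1 / 4 : ℝ) (1 / 32) 0 0 = {0} by norm_num [monsterLaw], eigenSum_one,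
      mem_eigen] at this
    simpa using this
  · have := h6 0 (by simp [majoranaSpectrum]) (1 / 4) (by simp [majoranaSpectrum]) u
      (mem_eigen.2 (by simpa using hu)) v (mem_eigen.2 hv)
    rwa [show monsterLaw (1 / 4 : ℝ) (1 / 32) 0 (1 / 4) = {1 / 4} by norm_num [monsterLaw], eigenSum_one,
      mem_eigen] at this
  · have := h6 (1 / 4) (by simp [majoranaSpectrum]) (1 / 4) (by simp [majoranaSpectrum]) u
      (mem_eigen.2 hu) v (mem_eigen.2 hv)
    rw [show monsterLaw (1 / 4 : ℝ) (1 / 32) (1 / 4) (1 / 4) = {1, 0} by norm_num [monsterLaw],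
      eigenSum_insert, eigenSum_one, h7] at this
    obtain ⟨p, hp, q, hq, e⟩ := Submodule.mem_sup.1 this
    obtain ⟨l, rfl⟩ := Submodule.mem_span_singleton.1 hp
    exact ⟨l, by rw [← e, map_add, map_smul, h4, mem_eigen.1 hq]; simp⟩

namespace MP
variable {μ ν : V ≃ₗ[ℝ] V} {a : V}

theorem self (h : MP mul B μ a) : μ a = a := h.fix a 1 (by norm_num) (by simpa using h.idem)

theorem invol (h : MP mul B μ a) (v : V) : μ (μ v) = v := by
  obtain ⟨l, α, β, γ, e0, e, e1, e2, e3⟩ := h.dec v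
  rw [e, map_sub, map_add, map_add, map_smul, h.self, h.fix α 0 (by norm_num) (by simpa using e1),
    h.fix β _ (by norm_num) e2, h.neg γ e3, e0]
  abel

theorem uniq (h : MP mul B μ a) (h' : MP mul B ν a) : μ = ν := by
  ext v
  obtain ⟨l, α, β, γ, rfl, e, e1, e2, e3⟩ := h.dec v
  rw [e, map_add, map_add, map_add, map_smul, h'.self, h'.fix α 0 (by norm_num) (by simpa using e1),
    h'.fix β _ (by norm_num) e2, h'.neg γ e3]
  abel

theorem conj (h : MP mul B μ a) (g : V ≃ₗ[ℝ] V) (h1 : ∀ u v, g (mul u v) = mul (g u) (g v))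
    (h2 : ∀ u v, B (g u) (g v) = B u v) : MP mul B (g * μ * g⁻¹) (g a) := by
  have e : ∀ v, (g * μ * g⁻¹) (g v) = g (μ v) := fun v => by simp
  have k : ∀ {u v : V}, mul (g a) (g u) = g v ↔ mul a u = v := by
    intro u v; rw [← h1, g.injective.eq_iff]
  refine ⟨fun u v => ?_, fun u v => ?_, k.2 h.idem, (h2 _ _).trans h.one, fun v => ?_, fun v hv => ?_,
    fun v c hc hv => ?_, fun u v hu hv => ?_, fun u v hu hv => ?_, fun u v hu hv => ?_⟩
  all_goals obtain ⟨v, rfl⟩ := g.surjective v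
  all_goals try obtain ⟨u, rfl⟩ := g.surjective u
  · rw [← h1, e, e, e, h.aut, h1]
  · rw [e, e, h2, h2, h.iso]
  · obtain ⟨l, α, β, γ, e0, e', e1, e2, e3⟩ := h.dec v
    exact ⟨l, g α, g β, g γ, by rw [e0]; simp, by rw [e, e']; simp, by rw [← h1, e1, map_zero],
      by rw [← h1, e2, map_smul], by rw [← h1, e3, map_smul]⟩
  · rw [← map_smul, k] at hv; rw [e, h.neg v hv, map_neg]
  · rw [← map_smul, k] at hv; rw [e, h.fix v c hc hv]
  · rw [← map_zero g, k] at hu hv; rw [← h1, ← h1, h.f00 u v hu hv, map_zero]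
  · rw [← map_zero g, k] at hu; rw [← map_smul, k] at hv; rw [← h1, ← h1, h.f0q u v hu hv, map_smul]
  · rw [← map_smul, k] at hu hv
    obtain ⟨l, hl⟩ := h.fqq u v hu hv
    exact ⟨l, by rw [← h1, ← h1, hl, map_smul]⟩

variable (hV : IsMajoranaAmbient mul B) (h : MP mul B μ a)
include hV h

theorem orth {v : V} {c : ℝ} (hc : c ≠ 1) (hv : mul a v = c • v) : B a v = 0 := by
  have := hV.2.2.2.1 a a v
  rw [hv, h.idem, map_smul, smul_eq_mul] at this
  exact (mul_eq_zero.1 (show (c - 1) * B a v = 0 by linear_combination this)).resolve_left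
    (sub_ne_zero.2 hc)

/-- The eigenvector components of `v`. -/
theorem comp {v w : V} (hw : μ v = w) :
    mul a (v - w) = (1 / 32 : ℝ) • (v - w) ∧
    mul a ((1 / 2 : ℝ) • (v + w) - (2 : ℝ) • mul a (v + w) + (3 * B a v) • a) = 0 ∧
    mul a ((2 : ℝ) • mul a (v + w) - (4 * B a v) • a) =
      (1 / 4 : ℝ) • ((2 : ℝ) • mul a (v + w) - (4 * B a v) • a) := by
  obtain ⟨l, α, β, γ, rfl, e, e1, e2, e3⟩ := h.dec v
  have hl : B a (l • a + α + β + γ) = l := by
    simp only [map_add, map_smul, h.one, h.orth hV (c := 0) (by norm_num) (by simpa using e1),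
      h.orth hV (by norm_num) e2, h.orth hV (by norm_num) e3]
    simp
  rw [← hw, hl, e]
  simp only [map_add, map_sub, map_smul, map_zero, e1, e2, e3, h.idem]
  exact ⟨by module, by module, by module⟩

theorem fqq' {u v : V} (hu : mul a u = (1 / 4 : ℝ) • u) (hv : mul a v = (1 / 4 : ℝ) • v) :
    mul a (mul u v) = (B u v / 4) • a := by
  obtain ⟨l, hl⟩ := h.fqq u v hu hv
  have h1 := hV.2.2.2.1 a a (mul u v)
  rw [hl, h.idem, hV.2.2.2.1, hu] at h1
  simp only [map_smul, h.one, LinearMap.smul_apply, smul_eq_mul] at h1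
  rw [hl]; congr 1; linarith

end MP

theorem eq_of_one (hV : IsMajoranaAmbient mul B) {a b : V} (ha : B a a = 1) (hb : B b b = 1)
    (h : B a b = 1) : a = b := by
  by_contra ne
  have := hV.2.2.1 _ (sub_ne_zero.2 ne)
  simp only [map_sub, LinearMap.sub_apply, ha, hb, h, hV.2.1 b a] at this
  norm_num at this

/-- A dihedral family of axes. -/
structure Dih (mul : V →ₗ[ℝ] V →ₗ[ℝ] V) (B : LinearMap.BilinForm ℝ V) (τ : ℤ → V ≃ₗ[ℝ] V)
    (a : ℤ → V) : Prop where
  amb : IsMajoranaAmbient mul B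
  mp : ∀ i, MP mul B (τ i) (a i)
  act : ∀ i j k, j + k = 2 * i → τ i (a j) = a k

theorem Dih.aff {τ : ℤ → V ≃ₗ[ℝ] V} {a : ℤ → V} (h : Dih mul B τ a) (c d : ℤ) :
    Dih mul B (fun i => τ (c * i + d)) fun i => a (c * i + d) :=
  ⟨h.amb, fun _ => h.mp _, fun i j k e => h.act _ _ _ (by linear_combination c * e)⟩

theorem exists_dih (hV : IsMajoranaAmbient mul B) {μ ν : V ≃ₗ[ℝ] V} {a b : V} (ha : MP mul B μ a)
    (hb : MP mul B ν b) : ∃ c : ℤ → V, c 0 = a ∧ c 1 = b ∧ Dih mul B (fun i => (ν * μ) ^ i * μ) c := by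
  let K : Subgroup (V ≃ₗ[ℝ] V) :=
    { carrier := {g | (∀ u v, g (mul u v) = mul (g u) (g v)) ∧ ∀ u v, B (g u) (g v) = B u v}
      one_mem' := ⟨fun _ _ => rfl, fun _ _ => rfl⟩
      mul_mem' := fun {g k} hg hk => ⟨fun u v => by simp [hk.1, hg.1], fun u v => by simp [hk.2, hg.2]⟩
      inv_mem' := fun {g} hg => ⟨fun u v => g.injective (by simp [hg.1]), fun u v => by
        rw [← hg.2]; simp⟩ }
  have hρ : ∀ i : ℤ, (ν * μ) ^ i ∈ K := fun i =>
    K.zpow_mem (K.mul_mem ⟨hb.aut, hb.iso⟩ ⟨ha.aut, ha.iso⟩) i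
  have m2 : μ * μ = 1 := LinearEquiv.ext ha.invol
  have n2 : ν * ν = 1 := LinearEquiv.ext hb.invol
  have sc : SemiconjBy μ (ν * μ)⁻¹ (ν * μ) := by
    rw [SemiconjBy, mul_inv_rev, inv_eq_of_mul_eq_one_right m2, inv_eq_of_mul_eq_one_right n2,
      ← mul_assoc, m2, mul_assoc, m2, one_mul, mul_one]
  have sz : ∀ i : ℤ, μ * (ν * μ) ^ (-i) = (ν * μ) ^ i * μ := fun i => by
    rw [← inv_zpow', (sc.zpow_right i).eq]
  have e1 : ν = (ν * μ) ^ (1 : ℤ) * μ := by rw [zpow_one, mul_assoc, m2, mul_one]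
  generalize ν * μ = ρ at *
  refine ⟨fun i => (ρ ^ (i / 2)) (if i % 2 = 0 then a else b), by simp, by simp, hV, fun i => ?_,
    fun i j k e => ?_⟩
  · split_ifs with h
    · have := ha.conj _ (hρ (i / 2)).1 (hρ (i / 2)).2
      rwa [mul_assoc, ← zpow_neg, sz, ← mul_assoc, ← zpow_add, show i / 2 + i / 2 = i by omega] at this
    · have := hb.conj _ (hρ (i / 2)).1 (hρ (i / 2)).2
      rwa [e1, mul_assoc, mul_assoc, ← zpow_neg, sz, ← mul_assoc, ← mul_assoc, ← zpow_add, ← zpow_add,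
        show i / 2 + 1 + i / 2 = i by omega] at this
  · rw [← LinearEquiv.mul_apply, mul_assoc, ← neg_neg (j / 2), sz, ← mul_assoc, ← zpow_add,
      show k % 2 = j % 2 by omega]
    split_ifs with h
    · rw [LinearEquiv.mul_apply, ha.self, show i + -(j / 2) = k / 2 by omega]
    · rw [show i + -(j / 2) = k / 2 + 1 by omega, zpow_add, mul_assoc, ← e1, LinearEquiv.mul_apply,
        hb.self]

end H14.Mj
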