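import Cfsg.Agent.H14.Maj

/-! The Norton–Sakuma computation: products and inner products in a dihedral family of Majorana axes
(coefficients generated by tools14/maj). -/

set_option autoImplicit false

namespace H14.Mj
open Cfsg.Axial

variable {V : Type*} [AddCommGroup V] [Module ℝ V] {mul : V →ₗ[ℝ] V →ₗ[ℝ] V}
  {B : LinearMap.BilinForm ℝ V} {τ : ℤ → V ≃ₗ[ℝ] V} {a : ℤ → V}

/-- The invariant part of a product. -/
noncomputable def Sg (mul : V →ₗ[ℝ] V →ₗ[ℝ] V) (u v : V) : V := mul u v - (1 / 32 : ℝ) • (u + v)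

theorem mul_eq_Sg {u v s : V} (e : Sg mul u v = s) : mul u v = s + (1 / 32 : ℝ) • (u + v) := by
  rw [← e, Sg]; abel

namespace Dih
variable (h : Dih mul B τ a)
include h

theorem Sc (u v : V) : Sg mul u v = Sg mul v u := by rw [Sg, Sg, h.amb.1 u v, add_comm]

theorem Sf (i j k : ℤ) (e : j + k = 2 * i := by norm_num) : Sg mul (a i) (a j) = Sg mul (a i) (a k) := by
  have := ((h.mp i).comp h.amb (h.act i j k e)).1
  rw [map_sub] at this
  rw [Sg, Sg]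
  linear_combination (norm := module) this

theorem Bs (i j i' j' : ℤ) (e : i + i' = j + j' ∧ (i + i') % 2 = 0 := by norm_num) :
    B (a i) (a j) = B (a i') (a j') := by
  rw [← h.act ((i + i') / 2) i i' (by omega), ← h.act ((i + i') / 2) j j' (by omega), (h.mp _).iso]

theorem eig (i j k : ℤ) {s : V} {x : ℝ} (hs : Sg mul (a i) (a j) = s) (hx : B (a i) (a j) = x)
    (e : j + k = 2 * i := by norm_num) :
    mul (a i) ((7 / 16 : ℝ) • a k + (3 * x - 1 / 8) • a i + (7 / 16 : ℝ) • a j - (4 : ℝ) • s) = 0 ∧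
    mul (a i) ((1 / 16 : ℝ) • a k + (1 / 8 - 4 * x) • a i + (1 / 16 : ℝ) • a j + (4 : ℝ) • s) =
      (1 / 4 : ℝ) • ((1 / 16 : ℝ) • a k + (1 / 8 - 4 * x) • a i + (1 / 16 : ℝ) • a j + (4 : ℝ) • s) := by
  obtain ⟨-, h1, h2⟩ := (h.mp i).comp h.amb (h.act i j k e)
  rw [map_add (mul (a i)) (a j), mul_eq_Sg hs, mul_eq_Sg ((h.Sf i j k e).symm.trans hs), hx] at h1 h2
  constructor
  · rw [← h1]; congr 1; module
  · convert h2 using 2 <;> module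

theorem mS (i j k : ℤ) {s : V} {x : ℝ} (hs : Sg mul (a i) (a j) = s) (hx : B (a i) (a j) = x)
    (e : j + k = 2 * i := by norm_num) :
    mul (a i) s = (7 / 32 : ℝ) • s + (3 / 4 * x - 25 / 1024) • a i + (7 / 2048 : ℝ) • (a j + a k) := by
  have h1 := (h.eig i j k hs hx e).1
  simp only [map_add, map_sub, map_smul, mul_eq_Sg hs, mul_eq_Sg ((h.Sf i j k e).symm.trans hs),
    (h.mp i).idem] at h1
  linear_combination (norm := module) (-1 / 4 : ℝ) • h1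

theorem BS {i j : ℤ} {s : V} {x : ℝ} (hs : Sg mul (a i) (a j) = s) (hx : B (a i) (a j) = x) :
    B (a i) s = x - (1 + x) / 32 := by
  rw [← hs, Sg, map_sub, h.amb.2.2.2.1, (h.mp i).idem]
  simp only [map_add, map_smul, hx, (h.mp i).one, smul_eq_mul]
  ring

theorem BS' {u v w s : V} (hs : Sg mul v w = s) : B u s = B (mul v u) w - (B u v + B u w) / 32 := by
  rw [← hs, Sg, map_sub, h.amb.2.2.2.1, h.amb.1 u]
  simp only [map_add, map_smul, smul_eq_mul]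
  ring

theorem yz : B (a (-1)) (a 1) = B (a 0) (a 2) := by
  have sy := h.amb.2.1
  have h0 := h.mS 0 1 (-1) rfl rfl
  have h1 := h.mS 1 0 2 (h.Sc _ _) (sy _ _)
  have b0 := h.BS (i := 0) (j := 1) rfl rfl
  have b1 := h.BS (i := 1) (j := 0) (h.Sc _ _) (sy _ _)
  have e : B (mul (a 0) (Sg mul (a 0) (a 1))) (a 1) = B (mul (a 1) (Sg mul (a 0) (a 1))) (a 0) := by
    rw [h.amb.1 (a 0), h.amb.1 (a 1), ← h.amb.2.2.2.1, ← h.amb.2.2.2.1, h.amb.1 (a 1)]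
  rw [h0, h1] at e
  simp only [map_add, map_smul, LinearMap.add_apply, LinearMap.smul_apply, smul_eq_mul, (h.mp _).one,
    sy (Sg mul (a 0) (a 1)), b0, b1, sy (a 1) (a 0), sy (a 2) (a 0)] at e
  linarith

theorem core {s1 se so : V} {x y : ℝ} (h1 : Sg mul (a 0) (a 1) = s1) (he : Sg mul (a 0) (a 2) = se)
    (ho : Sg mul (a (-1)) (a 1) = so) (hx : B (a 0) (a 1) = x) (hy : B (a 0) (a 2) = y) :
    mul (a 0) so = ((1/6)*x + (-19/3072) : ℝ) • a (-1) + ((7/6144) : ℝ) • a (-2) + ((-32/3)*x^2 + (5/3)*x + (-1/24)*y + (-127/3072) : ℝ) • a 0 + ((1/6)*x + (-19/3072) : ℝ) • a 1 + ((7/6144) : ℝ) • a 2 + ((32/3)*x + (-19/48) : ℝ) • s1 + ((7/96) : ℝ) • se ∧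
    mul s1 s1 = ((49/768)*x + (-245/196608) : ℝ) • a (-1) + ((49/196608) : ℝ) • a (-2) + ((7/6)*x^2 + (-7/384)*x + (7/1536)*y + (-7/98304) : ℝ) • a 0 + ((49/768)*x + (-245/196608) : ℝ) • a 1 + ((49/196608) : ℝ) • a 2 + ((-5/12)*x + (-13/1536) : ℝ) • s1 + ((-7/1536) : ℝ) • se + ((7/2048) : ℝ) • so := by
  have sy := h.amb.2.1
  have cm := h.amb.1
  have h1' := (h.Sf 0 (-1) 1).trans h1
  have hx' := (h.Bs 0 (-1) 0 1).trans hx
  have p0 := mul_eq_Sg h1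
  have p1 := mul_eq_Sg h1'
  have p2 := mul_eq_Sg ho
  have p3 := mul_eq_Sg he
  have p4 := mul_eq_Sg ((h.Sf 0 (-2) 2).trans he)
  have q0 := h.mS 0 1 (-1) h1 hx
  have q1 := h.mS 1 0 2 ((h.Sc _ _).trans h1) ((sy _ _).trans hx)
  have q2 := h.mS (-1) 0 (-2) ((h.Sc _ _).trans h1') ((sy _ _).trans hx')
  have q3 := h.mS 0 2 (-2) he hy
  have b0 := h.BS h1 hx
  have b1 := h.BS ((h.Sc _ _).trans h1) ((sy _ _).trans hx)
  have b2 := h.BS ((h.Sc _ _).trans h1') ((sy _ _).trans hx')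
  have b3 := h.yz.trans hy
  have b4 : B s1 s1 = (3/4)*x^2 + (65/512)*x + (7/2048)*y + (-3/2048) := by
    rw [h.BS' h1, q0]
    simp only [map_add, map_sub, map_smul, LinearMap.add_apply, LinearMap.sub_apply, LinearMap.smul_apply, smul_eq_mul, (h.mp _).one, sy s1 (a _), b0, b1, b3, hx]
    ring
  obtain ⟨ea, eb⟩ := h.eig 0 1 (-1) h1 hx
  have f1 := (h.mp 0).f00 _ _ ea ea
  have f2 := (h.mp 0).f0q _ _ ea eb
  have f3 := (h.mp 0).fqq' h.amb eb eb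
  generalize hal : (7 / 16 : ℝ) • a (-1) + (3 * x - 1 / 8) • a 0 + (7 / 16 : ℝ) • a 1 - (4 : ℝ) • s1 = al at *
  generalize hbe : (1 / 16 : ℝ) • a (-1) + (1 / 8 - 4 * x) • a 0 + (1 / 16 : ℝ) • a 1 + (4 : ℝ) • s1 = be at *
  have g1 : mul al al = ((-21/8)*x + (1183/4096) : ℝ) • a (-1) + ((-49/4096) : ℝ) • a (-2) + ((-9)*x^2 + (3/4)*x + (-81/2048) : ℝ) • a 0 + ((-21/8)*x + (1183/4096) : ℝ) • a 1 + ((-49/4096) : ℝ) • a 2 + (16 : ℝ) • mul s1 s1 + ((-49/32) : ℝ) • s1 + ((49/128) : ℝ) • so := by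
    simp only [← hal, map_add, map_sub, map_smul, LinearMap.add_apply, LinearMap.sub_apply, LinearMap.smul_apply, (h.mp _).idem, cm s1 (a _), cm (a 1) (a 0), cm (a (-1)) (a 0), cm (a 1) (a (-1)), p0, p1, p2, q0, q1, q2]
    module
  have g2 : mul al be = ((75/64)*x + (-39/4096) : ℝ) • a (-1) + ((21/4096) : ℝ) • a (-2) + (9*x^2 + (-21/32)*x + (45/2048) : ℝ) • a 0 + ((75/64)*x + (-39/4096) : ℝ) • a 1 + ((21/4096) : ℝ) • a 2 + ((-16) : ℝ) • mul s1 s1 + (3*x + (17/32) : ℝ) • s1 + ((7/128) : ℝ) • so := by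
    simp only [← hal, ← hbe, map_add, map_sub, map_smul, LinearMap.add_apply, LinearMap.sub_apply, LinearMap.smul_apply, (h.mp _).idem, cm s1 (a _), cm (a 1) (a 0), cm (a (-1)) (a 0), cm (a 1) (a (-1)), p0, p1, p2, q0, q1, q2]
    module
  have g3 : mul be be = ((1/4)*x + (-17/4096) : ℝ) • a (-1) + ((7/4096) : ℝ) • a (-2) + ((-8)*x^2 + (1/2)*x + (-9/2048) : ℝ) • a 0 + ((1/4)*x + (-17/4096) : ℝ) • a 1 + ((7/4096) : ℝ) • a 2 + (16 : ℝ) • mul s1 s1 + ((-8)*x + (15/32) : ℝ) • s1 + ((1/128) : ℝ) • so := by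
    simp only [← hbe, map_add, map_sub, map_smul, LinearMap.add_apply, LinearMap.sub_apply, LinearMap.smul_apply, (h.mp _).idem, cm s1 (a _), cm (a 1) (a 0), cm (a (-1)) (a 0), cm (a 1) (a (-1)), p0, p1, p2, q0, q1, q2]
    module
  have g4 : B be be = (-4)*x^2 + 4*x + (1/16)*y + (-1/16) := by
    simp only [← hbe, map_add, map_sub, map_smul, LinearMap.add_apply, LinearMap.sub_apply, LinearMap.smul_apply, smul_eq_mul, (h.mp _).one, sy s1 (a _), sy (a 1) (a 0), sy (a (-1)) (a 0),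
      sy (a 1) (a (-1)), hx, hx', b0, b1, b2, b3, b4]
    ring
  rw [g1] at f1
  rw [g2] at f2
  rw [g3, g4] at f3
  simp only [map_add, map_sub, map_smul, LinearMap.add_apply, LinearMap.sub_apply, LinearMap.smul_apply, (h.mp _).idem, p0, p1, p3, p4, q0, q3] at f1 f2 f3
  constructor
  · linear_combination (norm := module) (8/3 : ℝ) • f1 - (8/3 : ℝ) • f3
  · linear_combination (norm := module) (-1/24 : ℝ) • f1 + (1 / 4 : ℝ) • f2 + (7/24 : ℝ) • f3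

theorem rel {x y t u v : ℝ} (hx : B (a 0) (a 1) = x) (hy : B (a 0) (a 2) = y) (ht : B (a 0) (a 3) = t)
    (hu : B (a 0) (a 4) = u) (hv : B (a 0) (a 5) = v) :
    t = (-32768/7)*x^3 + (36864/7)*x^2 + (-1920/7)*x*y + (-2169/7)*x + (-33/7)*y + (33/7) ∧
    u = (8388608/7)*x^4 + (-9601024/7)*x^3 + 65536*x^2*y + 110592*x^2 + (-640/7)*x*y + (-19840/7)*x + (-128/7)*y^2 + (-3)*y + (156/7) ∧
    v = (-13958643712/49)*x^5 + (16273899520/49)*x^4 + (-754974720/49)*x^3*y + (-1633419264/49)*x^3 + (12582912/49)*x^2*y + (8683520/7)*x^2 + (475136/49)*x*y^2 + (259584/49)*x*y + (-137721/7)*x + (-256/49)*y^2 + (-5256/49)*y + (5512/49) ∧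
    1*x^4 + (-71/64)*x^3 + (5/256)*x^2*y + (45/512)*x^2 + (139/32768)*x*y + (-75/32768)*x + (1/16384)*y^2 + (-167/2097152)*y + (39/2097152) = 0 := by
  have sy := h.amb.2.1
  obtain ⟨s1, h1⟩ : ∃ s, Sg mul (a 0) (a 1) = s := ⟨_, rfl⟩
  obtain ⟨se, he⟩ : ∃ s, Sg mul (a 0) (a 2) = s := ⟨_, rfl⟩
  obtain ⟨so, ho⟩ : ∃ s, Sg mul (a (-1)) (a 1) = s := ⟨_, rfl⟩
  have bm2_m1 : B (a (-2)) (a (-1)) = x := ((h.Bs (-2) (-1) 0 (-1)).trans (h.Bs 0 (-1) 0 1)).trans hx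
  have bm1_m2 := (sy _ _).trans bm2_m1
  have bm2_0 : B (a (-2)) (a 0) = y := ((h.Bs (-2) 0 2 0).trans (sy _ _)).trans hy
  have b0_m2 := (sy _ _).trans bm2_0
  have bm2_1 : B (a (-2)) (a 1) = t := ((h.Bs (-2) 1 0 (-3)).trans (h.Bs 0 (-3) 0 3)).trans ht
  have b1_m2 := (sy _ _).trans bm2_1
  have bm2_2 : B (a (-2)) (a 2) = u := ((h.Bs (-2) 2 4 0).trans (sy _ _)).trans hu
  have b2_m2 := (sy _ _).trans bm2_2
  have bm2_3 : B (a (-2)) (a 3) = v := ((h.Bs (-2) 3 0 (-5)).trans (h.Bs 0 (-5) 0 5)).trans hv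
  have b3_m2 := (sy _ _).trans bm2_3
  have bm1_0 : B (a (-1)) (a 0) = x := ((h.Bs (-1) 0 1 0).trans (sy _ _)).trans hx
  have b0_m1 := (sy _ _).trans bm1_0
  have bm1_1 : B (a (-1)) (a 1) = y := (h.yz).trans hy
  have b1_m1 := (sy _ _).trans bm1_1
  have bm1_2 : B (a (-1)) (a 2) = t := ((h.Bs (-1) 2 3 0).trans (sy _ _)).trans ht
  have b2_m1 := (sy _ _).trans bm1_2
  have b0_1 : B (a 0) (a 1) = x := hx
  have b1_0 := (sy _ _).trans b0_1
  have b0_2 : B (a 0) (a 2) = y := hy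
  have b2_0 := (sy _ _).trans b0_2
  have b0_3 : B (a 0) (a 3) = t := ht
  have b3_0 := (sy _ _).trans b0_3
  have b1_2 : B (a 1) (a 2) = x := ((h.Bs 1 2 1 0).trans (sy _ _)).trans hx
  have b2_1 := (sy _ _).trans b1_2
  have b1_3 : B (a 1) (a 3) = y := ((h.Bs 1 3 1 (-1)).trans ((sy _ _).trans h.yz)).trans hy
  have b3_1 := (sy _ _).trans b1_3
  have b2_3 : B (a 2) (a 3) = x := ((h.Bs 2 3 0 (-1)).trans (h.Bs 0 (-1) 0 1)).trans hx
  have b3_2 := (sy _ _).trans b2_3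
  have s01 := h1
  have s10 := (h.Sc _ _).trans s01
  have s12 := (h.Sf 1 2 0).trans s10
  have s21 := (h.Sc _ _).trans s12
  have s23 := (h.Sf 2 3 1).trans s21
  have s32 := (h.Sc _ _).trans s23
  have s0m1 := (h.Sf 0 (-1) 1).trans s01
  have sm10 := (h.Sc _ _).trans s0m1
  have sm1m2 := (h.Sf (-1) (-2) 0).trans sm10
  have sm2m1 := (h.Sc _ _).trans sm1m2
  have s20 := (h.Sc _ _).trans he
  have s0m2 := (h.Sf 0 (-2) 2).trans he
  have sm20 := (h.Sc _ _).trans s0m2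
  have s1m1 := (h.Sc _ _).trans ho
  have s13 := (h.Sf 1 3 (-1)).trans s1m1
  have s31 := (h.Sc _ _).trans s13
  have s24 := (h.Sf 2 4 0).trans s20
  obtain ⟨m0, r0⟩ := h.core h1 he ho hx hy
  obtain ⟨m1, r1⟩ := (h.aff 1 1).core (s1 := s1) (se := so) (so := se) s12 s13 he b1_2 b1_3
  simp only [Int.reduceMul, Int.reduceAdd, Int.reduceNeg] at m1 r1
  have q0 := h.mS 0 1 (-1) h1 hx
  have q3 := h.mS 0 2 (-2) he hy
  have c0 := h.BS s01 b0_1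
  have c1 := h.BS s10 b1_0
  have c2 := h.BS s21 b2_1
  have c3 := h.BS s32 b3_2
  have cm1 := h.BS sm10 bm1_0
  have cm2 := h.BS sm2m1 bm2_m1
  have e0 := h.BS he b0_2
  have e2 := h.BS s20 b2_0
  have em2 := h.BS sm20 bm2_0
  have b3_4 : B (a 3) (a 4) = x := ((h.Bs 3 4 1 0).trans (sy _ _)).trans hx
  have b4_3 := (sy _ _).trans b3_4
  have b2_4 : B (a 2) (a 4) = y := ((h.Bs 2 4 2 0).trans (sy _ _)).trans hy
  have c4 := h.BS ((h.Sc _ _).trans ((h.Sf 3 4 2).trans s32)) b4_3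
  have e1 : B (a 1) se = (15/16)*x + (1/32)*y + (-1/32) := by
    rw [h.BS' he, mul_eq_Sg s01]
    simp only [map_add, map_sub, map_smul, LinearMap.add_apply, LinearMap.sub_apply, LinearMap.smul_apply, smul_eq_mul, sy s1 (a _), c0, c1, c2, c3, cm1, cm2, c4, b4_3, b3_4, b2_4,
      bm2_m1, bm1_m2, bm2_0, b0_m2, bm2_1, b1_m2, bm2_2, b2_m2, bm2_3, b3_m2, bm1_0, b0_m1, bm1_1, b1_m1, bm1_2, b2_m1, b0_1, b1_0, b0_2, b2_0, b0_3, b3_0, b1_2, b2_1, b1_3, b3_1, b2_3, b3_2]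
    ring
  have em1 : B (a (-1)) se = (15/16)*x + (1/32)*y + (-1/32) := by
    rw [h.BS' sm20, mul_eq_Sg sm2m1]
    simp only [map_add, map_sub, map_smul, LinearMap.add_apply, LinearMap.sub_apply, LinearMap.smul_apply, smul_eq_mul, sy s1 (a _), c0, c1, c2, c3, cm1, cm2, c4, b4_3, b3_4, b2_4,
      bm2_m1, bm1_m2, bm2_0, b0_m2, bm2_1, b1_m2, bm2_2, b2_m2, bm2_3, b3_m2, bm1_0, b0_m1, bm1_1, b1_m1, bm1_2, b2_m1, b0_1, b1_0, b0_2, b2_0, b0_3, b3_0, b1_2, b2_1, b1_3, b3_1, b2_3, b3_2]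
    ring
  have e3 : B (a 3) se = (15/16)*x + (1/32)*y + (-1/32) := by
    rw [h.BS' s24, mul_eq_Sg s23]
    simp only [map_add, map_sub, map_smul, LinearMap.add_apply, LinearMap.sub_apply, LinearMap.smul_apply, smul_eq_mul, sy s1 (a _), c0, c1, c2, c3, cm1, cm2, c4, b4_3, b3_4, b2_4,
      bm2_m1, bm1_m2, bm2_0, b0_m2, bm2_1, b1_m2, bm2_2, b2_m2, bm2_3, b3_m2, bm1_0, b0_m1, bm1_1, b1_m1, bm1_2, b2_m1, b0_1, b1_0, b0_2, b2_0, b0_3, b3_0, b1_2, b2_1, b1_3, b3_1, b2_3, b3_2]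
    ring
  have o2 : B (a 2) so = (15/16)*x + (1/32)*y + (-1/32) := by
    rw [h.BS' s13, mul_eq_Sg s12]
    simp only [map_add, map_sub, map_smul, LinearMap.add_apply, LinearMap.sub_apply, LinearMap.smul_apply, smul_eq_mul, sy s1 (a _), c0, c1, c2, c3, cm1, cm2, c4, b4_3, b3_4, b2_4,
      bm2_m1, bm1_m2, bm2_0, b0_m2, bm2_1, b1_m2, bm2_2, b2_m2, bm2_3, b3_m2, bm1_0, b0_m1, bm1_1, b1_m1, bm1_2, b2_m1, b0_1, b1_0, b0_2, b2_0, b0_3, b3_0, b1_2, b2_1, b1_3, b3_1, b2_3, b3_2]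
    ring
  have o0 : B (a 0) so = (15/16)*x + (1/32)*y + (-1/32) := by
    rw [h.BS' ho, mul_eq_Sg sm10]
    simp only [map_add, map_sub, map_smul, LinearMap.add_apply, LinearMap.sub_apply, LinearMap.smul_apply, smul_eq_mul, sy s1 (a _), c0, c1, c2, c3, cm1, cm2, c4, b4_3, b3_4, b2_4,
      bm2_m1, bm1_m2, bm2_0, b0_m2, bm2_1, b1_m2, bm2_2, b2_m2, bm2_3, b3_m2, bm1_0, b0_m1, bm1_1, b1_m1, bm1_2, b2_m1, b0_1, b1_0, b0_2, b2_0, b0_3, b3_0, b1_2, b2_1, b1_3, b3_1, b2_3, b3_2]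
    ring
  have om2 : B (a (-2)) so = (15/16)*x + (1/32)*y + (-1/32) := by
    rw [← (h.mp 0).iso, h.act 0 (-2) 2 (by norm_num), ← o2, ← ho, Sg, map_sub, map_smul, map_add,
      (h.mp 0).aut, h.act 0 (-1) 1 (by norm_num), h.act 0 1 (-1) (by norm_num), h.amb.1 (a 1), add_comm]
  have k1 := h.BS' (u := s1) he
  have k2 := h.BS' (u := se) s10
  have k3 := h.BS' (u := se) he
  have k4 := h.BS' (u := so) he
  have R := r0.symm.trans r1
  have k5 := congrArg (B (a 2)) R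
  have k6 := congrArg (B (a (-2))) R
  have k7 := congrArg (B se) R
  rw [q0] at k1
  rw [m1, sy] at k2
  rw [q3] at k3
  rw [m0, sy] at k4
  simp only [map_add, map_sub, map_smul, LinearMap.add_apply, LinearMap.sub_apply, LinearMap.smul_apply, smul_eq_mul, (h.mp _).one, sy s1 (a _), sy se (a _), sy so (a _), c0, c1, c2, c3, cm1, cm2, e0, e2, em2, e1, em1, e3, o0, o2, om2,
    bm2_m1, bm1_m2, bm2_0, b0_m2, bm2_1, b1_m2, bm2_2, b2_m2, bm2_3, b3_m2, bm1_0, b0_m1, bm1_1, b1_m1, bm1_2, b2_m1, b0_1, b1_0, b0_2, b2_0, b0_3, b3_0, b1_2, b2_1, b1_3, b3_1, b2_3, b3_2] at k1 k2 k3 k4 k5 k6 k7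
  have ht : t = (-32768/7)*x^3 + (36864/7)*x^2 + (-1920/7)*x*y + (-2169/7)*x + (-33/7)*y + (33/7) := by linear_combination (-3072 / 7 : ℝ) * (k1 - k2)
  subst ht
  have hu : u = (8388608/7)*x^4 + (-9601024/7)*x^3 + 65536*x^2*y + 110592*x^2 + (-640/7)*x*y + (-19840/7)*x + (-128/7)*y^2 + (-3)*y + (156/7) := by linear_combination (196608 / 49 : ℝ) * k5
  subst hu
  rw [k3, k4] at k7
  exact ⟨rfl, rfl, by linear_combination (-196608 / 49 : ℝ) * k6, by linear_combination (-1 / 28 : ℝ) * k7⟩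

end Dih
end H14.Mj
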