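import Cfsg.Agent.H14.MonH
import Cfsg.Agent.H21.Extra
import Cfsg.Agent.H1.Basic
import Cfsg.Prelude.Def_MonsterType

/-! Groups of Monster type in ambient form (`MT z Q P Rp`): `P` is the graph of the identification
`C(z) / Q = Co1`, `Rp v x` says that `x ∈ Q` represents the lattice vector `v`. -/

set_option autoImplicit false

namespace H14
open Cfsg MulAction H18 H21 Subgroup
open scoped commutatorElement

/-- Monster type. -/
structure MT {G : Type*} [Group G] (z : G) (Q : Subgroup G) (P : Subgroup (G × Co0))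
    (Rp : Λ → G → Prop) : Prop where
  ord : orderOf z = 2
  es : ES 2 Q
  card : Nat.card Q = 2 ^ 25
  zQ : z ∈ Q
  le : Q ≤ C1(z)
  fst : ∀ {h}, h ∈ C1(z) ↔ ∃ g, (h, g) ∈ P
  snd : ∀ g, ∃ h, (h, g) ∈ P
  ker : ∀ {h g}, (h, g) ∈ P → (h ∈ Q ↔ g ∈ center Co0)
  neg : (1, negOne) ∈ P
  mem : ∀ {v x}, Rp v x → x ∈ Q
  ex : ∀ v, ∃ x, Rp v x
  surj : ∀ {x}, x ∈ Q → ∃ v, Rp v x
  mul : ∀ {v w x y}, Rp v x → Rp w y → Rp (v + w) (x * y)
  iff : ∀ {v w x y}, Rp v x → Rp w y → (E2 v w ↔ x⁻¹ * y ∈ zpowers z)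
  of : ∀ {v w x y}, Rp v x → E2 v w → x⁻¹ * y ∈ zpowers z → Rp w y
  conj : ∀ {h g v x}, (h, g) ∈ P → Rp v x → Rp (g • v) (h * x * h⁻¹)

section build
variable {G : Type*} [Group G] [Finite G] {z : G} {Q : Subgroup C1(z)} [Q.Normal]

/-- The graph of `e`. -/
def grP (e : C1(z) ⧸ Q ≃* Spor.Co1) : Subgroup (G × Co0) where
  carrier := {x | ∃ hc : x.1 ∈ C1(z), (x.2 : Spor.Co1) = e (QuotientGroup.mk ⟨x.1, hc⟩)}
  one_mem' := ⟨one_mem _, (map_one e).symm⟩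
  mul_mem' := fun {x y} ⟨hx, ex⟩ ⟨hy, ey⟩ => ⟨mul_mem hx hy, by
    rw [Prod.snd_mul, QuotientGroup.mk_mul, ex, ey, ← map_mul]; rfl⟩
  inv_mem' := fun {x} ⟨hx, ex⟩ => ⟨inv_mem hx, by
    rw [Prod.snd_inv, QuotientGroup.mk_inv, ex, ← map_inv]; rfl⟩

/-- Representatives. -/
def grR (ψ : Λ → Q ⧸ center Q) (v : Λ) (x : G) : Prop :=
  ∃ q : Q, ((q : C1(z)) : G) = x ∧ ψ v = QuotientGroup.mk q

theorem mt_of {w : ℕ} (h : IsExtraspecialCentralizerSetting z Q w) (hw : w = 12)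
    {e : C1(z) ⧸ Q ≃* Spor.Co1} {ψ : Λ → Q ⧸ center Q} (hψ : IsLeechModTwoIso Q e ψ) :
    MT z (Q.map C1(z).subtype) (grP e) (grR ψ) := by
  obtain ⟨h1, h2, h3, h4, -⟩ := h
  obtain ⟨k1, k2, k3, k4⟩ := hψ
  have es : ES 2 (Q.map C1(z).subtype) :=
    (es_map_iff (subtype_injective _)).2 ((isExtraspecial_iff Nat.prime_two).1 h3).1
  have zQ : z ∈ Q.map C1(z).subtype := by
    refine ⟨⟨z, C1_self⟩, ?_, rfl⟩
    rw [← h2]
    refine (le_sup_right : _ ≤ generalizedFittingSubgroup _)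
      (le_sSup (s := {N : Subgroup C1(z) | N.Normal ∧ Group.IsNilpotent N})
        (a := center C1(z)) ⟨inferInstance, open scoped IsMulCommutative in inferInstance⟩ ?_)
    exact mem_center_iff.2 fun g => Subtype.ext (mem_C1.1 g.2)
  have le : Q.map C1(z).subtype ≤ C1(z) := map_subtype_le _
  have hz : zpowers z = Z(Q.map C1(z).subtype) :=
    es.zpowers_eq Nat.prime_two ⟨zQ, le_C1_iff.1 le⟩ fun e => by simp [e] at h1
  have hc : ∀ q : Q, q ∈ center Q ↔ ((q : C1(z)) : G) ∈ zpowers z := fun q => by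
    rw [hz, ← map_Z (subtype_injective _), ← H21.map_center,
      show ((q : C1(z)) : G) = C1(z).subtype (Q.subtype q) from rfl,
      mem_map_iff_mem (subtype_injective _), mem_map_iff_mem (subtype_injective _)]
  have h0 : ψ 0 = 1 := (k3 0).2 ⟨0, by simp⟩
  have hE : ∀ v w, E2 v w ↔ ψ v = ψ w := fun v w => by
    rw [E2, mem_TwoL, ← k3, ← mul_left_inj (ψ w), ← k1, sub_add_cancel, one_mul]
  refine ⟨h1, es, by rw [card_map_of_injective (subtype_injective _), h4, hw], zQ, le,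
    fun {h} => ⟨fun hc => ?_, fun ⟨_, hc, _⟩ => hc⟩, fun g => ?_, fun {h g} ⟨hc, e1⟩ => ?_,
    ⟨one_mem _, ?_⟩, fun ⟨q, e1, _⟩ => ⟨q, q.2, e1⟩, fun v => ?_, fun ⟨q, hq, e1⟩ => ?_, ?_, ?_, ?_,
    ?_⟩
  · obtain ⟨g, hg⟩ := QuotientGroup.mk_surjective (e (QuotientGroup.mk ⟨h, hc⟩))
    exact ⟨g, hc, hg⟩
  · obtain ⟨x, hx⟩ := e.surjective (g : Spor.Co1)
    obtain ⟨x, rfl⟩ := QuotientGroup.mk_surjective x
    exact ⟨x, x.2, hx.symm⟩
  · rw [← QuotientGroup.eq_one_iff g, e1, map_eq_one_iff _ e.injective, QuotientGroup.eq_one_iff]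
    exact mem_map_iff_mem (f := C1(z).subtype) (subtype_injective _) (x := ⟨h, hc⟩)
  · exact ((QuotientGroup.eq_one_iff _).2 (mem_center_Co0.2 (.inr rfl))).trans (map_one e).symm
  · obtain ⟨q, hq⟩ := QuotientGroup.mk_surjective (ψ v)
    exact ⟨_, q, rfl, hq.symm⟩
  · obtain ⟨v, hv⟩ := k2 (QuotientGroup.mk ⟨q, hq⟩)
    exact ⟨v, _, e1, hv⟩
  · rintro v w _ _ ⟨q, rfl, e1⟩ ⟨r, rfl, e2⟩
    exact ⟨q * r, rfl, by rw [k1, e1, e2]; rfl⟩
  · rintro v w _ _ ⟨q, rfl, e1⟩ ⟨r, rfl, e2⟩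
    rw [hE, e1, e2, QuotientGroup.eq, hc]; rfl
  · rintro v w _ y ⟨q, rfl, e1⟩ h5 h6
    have : y ∈ Q.map C1(z).subtype := by
      have := mul_mem (mem_map_of_mem C1(z).subtype q.2) ((hz.le h6).1)
      rwa [coe_subtype, mul_inv_cancel_left] at this
    obtain ⟨r, hr, rfl⟩ := this
    exact ⟨⟨r, hr⟩, rfl, by rw [← (hE _ _).1 h5, e1, QuotientGroup.eq, hc]; exact h6⟩
  · rintro h g v _ ⟨hc, e1⟩ ⟨q, rfl, e2⟩
    exact ⟨_, rfl, k4 ⟨h, hc⟩ g e1 v q e2⟩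

omit [Finite G] [Q.Normal] in
theorem mem_mapQ {s : G} : s ∈ Q.map C1(z).subtype ↔ ∃ hs : s ∈ C1(z), (⟨s, hs⟩ : C1(z)) ∈ Q :=
  ⟨fun ⟨q, hq, e⟩ => e ▸ ⟨q.2, hq⟩, fun ⟨_, h⟩ => ⟨_, h, rfl⟩⟩

theorem exists_mt (hM : IsOfMonsterType z Q) : (∃ P Rp, MT z (Q.map C1(z).subtype) P Rp) ∧
    ∃ g, g * z * g⁻¹ ∈ Q.map C1(z).subtype ∧ g * z * g⁻¹ ≠ z :=
  let ⟨h, _, _, hψ⟩ := hM
  let ⟨g, h1, h2⟩ := h.2.2.2.2
  ⟨⟨_, _, mt_of h rfl hψ⟩, g, mem_mapQ.2 h1, h2⟩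

end build

theorem mem_zpowers_two {G : Type*} [Group G] {z x : G} (h : orderOf z = 2) :
    x ∈ zpowers z ↔ x = 1 ∨ x = z := by
  refine ⟨fun ⟨k, hk⟩ => ?_, fun e => e.elim (· ▸ one_mem _) (· ▸ mem_zpowers _)⟩
  have := zpow_mod_orderOf z k
  rw [h] at this
  rcases Int.emod_two_eq_zero_or_one k with e | e <;> simp only [Nat.cast_ofNat, e] at this
  · left; rw [← hk]; simpa using this.symm
  · right; rw [← hk]; simpa using this.symm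

namespace MT
variable {G : Type*} [Group G] {z s : G} {Q Q' : Subgroup G} {P P' : Subgroup (G × Co0)}
  {Rp Rp' : Λ → G → Prop} (h : MT z Q P Rp) {v w : Λ} {x y a b : G} {g k : Co0}
include h

/-- Change the identification by an element of `Co0`. -/
theorem twist (k : Co0) : MT z Q (P.comap ((MonoidHom.id G).prodMap (MulAut.conj k).toMonoidHom))
    fun v => Rp (k • v) := by
  refine ⟨h.ord, h.es, h.card, h.zQ, h.le, fun {a} => h.fst.trans ⟨fun ⟨g, hg⟩ => ⟨k⁻¹ * g * k, ?_⟩,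
    fun ⟨_, hg⟩ => ⟨_, hg⟩⟩, fun g => h.snd (k * g * k⁻¹), fun {a g} hg => (h.ker hg).trans ?_, ?_, h.mem,
    fun v => h.ex _, fun hx => ?_, fun {v w _ _} h1 h2 => smul_add k v w ▸ h.mul h1 h2,
    fun h1 h2 => (Iff.intro (E2.smul k) (E2.of_smul k)).trans (h.iff h1 h2),
    fun h1 h2 => h.of h1 (h2.smul k), fun {a g v x} h1 h2 => ?_⟩
  · show (a, k * (k⁻¹ * g * k) * k⁻¹) ∈ P
    simpa [mul_assoc] using hg
  · exact ⟨fun e => by simpa [mul_assoc] using (inferInstance : (center Co0).Normal).conj_mem _ e k⁻¹,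
      fun e => (inferInstance : (center Co0).Normal).conj_mem _ e k⟩
  · show (1, k * negOne * k⁻¹) ∈ P
    rw [negOne_comm, mul_inv_cancel_right]; exact h.neg
  · obtain ⟨v, hv⟩ := h.surj hx
    exact ⟨k⁻¹ • v, by simpa using hv⟩
  · have := h.conj (g := k * g * k⁻¹) h1 h2
    rwa [← mul_smul, inv_mul_cancel_right, mul_smul] at this

/-- Conjugate in `G`. -/
theorem cj (a : G) : MT (a * z * a⁻¹) (cj a Q)
    (P.comap ((MulAut.conj a⁻¹).toMonoidHom.prodMap (MonoidHom.id Co0)))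
    fun v x => Rp v (a⁻¹ * x * a) := by
  have hP : ∀ b g, (b, g) ∈ P.comap ((MulAut.conj a⁻¹).toMonoidHom.prodMap (MonoidHom.id Co0)) ↔
      (a⁻¹ * b * a, g) ∈ P := fun b g => by simp [mem_comap]
  have hz : ∀ x y, x⁻¹ * y ∈ zpowers (a * z * a⁻¹) ↔
      (a⁻¹ * x * a)⁻¹ * (a⁻¹ * y * a) ∈ zpowers z := fun x y => by
    rw [← cj_zpowers, mem_cj]; congr! 1; group
  have he : ES 2 (H18.cj a Q) := by
    rw [cj_def, es_map_iff (MulAut.conj a).injective]; exact h.es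
  refine ⟨by rw [orderOf_conj, h.ord], he,
    card_cj.trans h.card, conj_mem_cj h.zQ, (cj_mono h.le).trans cj_C1.le, fun {b} => ?_, fun g => ?_,
    fun {b g} hg => ?_, by rw [hP]; simpa using h.neg, fun hx => mem_cj.2 (h.mem hx), fun v => ?_,
    fun hx => h.surj (mem_cj.1 hx), fun {v w x y} h1 h2 => ?_,
    fun h1 h2 => (h.iff h1 h2).trans (hz _ _).symm, fun h1 h2 h3 => h.of h1 h2 ((hz _ _).1 h3),
    fun {b g v x} h1 h2 => ?_⟩
  · simp only [hP]; rw [← cj_C1, mem_cj]; exact h.fst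
  · obtain ⟨b, hb⟩ := h.snd g
    exact ⟨a * b * a⁻¹, by rw [hP]; simpa [mul_assoc] using hb⟩
  · rw [mem_cj]; exact h.ker ((hP _ _).1 hg)
  · obtain ⟨x, hx⟩ := h.ex v
    exact ⟨a * x * a⁻¹, by simpa [mul_assoc] using hx⟩
  · have := h.mul h1 h2
    convert this using 1; group
  · have := h.conj ((hP _ _).1 h1) h2
    convert this using 1; group

theorem z_ne : z ≠ 1 := fun e => by have := h.ord; simp [e] at this
theorem z_sq : z * z = 1 := by rw [← sq, ← h.ord, pow_orderOf_eq_one]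
theorem z_inv : z⁻¹ = z := inv_eq_of_mul_eq_one_right h.z_sq
theorem mem_zp : x ∈ zpowers z ↔ x = 1 ∨ x = z := mem_zpowers_two h.ord
theorem zZ : z ∈ Z(Q) := ⟨h.zQ, le_C1_iff.1 h.le⟩
theorem memC (hp : (a, g) ∈ P) : a ∈ C1(z) := h.fst.2 ⟨g, hp⟩

theorem nml : C1(z) ≤ N(Q) := norm_iff.2 fun a ha x hx =>
  let ⟨_, hg⟩ := h.fst.1 ha
  let ⟨_, hv⟩ := h.surj hx
  h.mem (h.conj hg hv)

theorem one_center (hg : g ∈ center Co0) : (1, g) ∈ P := by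
  rcases mem_center_Co0.1 hg with rfl | rfl
  exacts [P.one_mem, h.neg]

theorem mem_one (hx : x ∈ Q) : (x, 1) ∈ P := by
  obtain ⟨g, hg⟩ := h.fst.1 (h.le hx)
  simpa using P.mul_mem hg (P.inv_mem (h.one_center ((h.ker hg).1 hx)))

theorem mul_neg (hp : (a, g) ∈ P) : (a, g * negOne) ∈ P := by simpa using P.mul_mem hp h.neg

theorem of_E2 (h1 : Rp v x) (h2 : E2 v w) : Rp w x := h.of h1 h2 (by simp)
theorem mul_z (h1 : Rp v x) : Rp v (x * z) := h.of h1 (E2.refl v) (by simp)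

theorem eq_or (h1 : Rp v x) (h2 : Rp v y) : y = x ∨ y = x * z := by
  have := h.mem_zp.1 ((h.iff h1 h2).1 (E2.refl v))
  rwa [inv_mul_eq_one, inv_mul_eq_iff_eq_mul, eq_comm] at this

theorem rp_one : Rp 0 1 := by
  obtain ⟨x, hx⟩ := h.ex 0
  refine h.of hx (E2.refl _) ?_
  have := (h.iff hx (h.mul hx hx)).1 (E2.of_eq (by simp))
  rw [mul_one, inv_mem_iff]; simpa using this

theorem mem_zp_iff (h1 : Rp v x) : x ∈ zpowers z ↔ v ∈ TwoL := by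
  rw [← E2.zero_iff, h.iff h1 h.rp_one, mul_one, inv_mem_iff]

theorem rp_inv (h1 : Rp v x) : Rp v x⁻¹ := by
  refine h.of h1 (E2.refl v) ?_
  rw [← mul_inv_rev, inv_mem_iff, h.mem_zp_iff (h.mul h1 h1)]; exact dbl_mem v

variable [Finite G]

theorem zp_eq : zpowers z = Z(Q) := h.es.zpowers_eq Nat.prime_two h.zZ h.z_ne

theorem comm_mem (hx : x ∈ Q) (hy : y ∈ Q) : ⁅x, y⁆ = 1 ∨ ⁅x, y⁆ = z :=
  h.mem_zp.1 (h.zp_eq ▸ h.es.comm_mem hx hy)

theorem sq_mem (hx : x ∈ Q) : x * x = 1 ∨ x * x = z :=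
  h.mem_zp.1 (h.zp_eq ▸ sq x ▸ h.es.pow_mem hx)

theorem not_mem_C (hx : x ∈ Q) (h1 : x ∉ zpowers z) : x ∉ C(Q) :=
  fun e => h1 (h.zp_eq ▸ ⟨hx, e⟩)

theorem exists_conj_z (hx : x ∈ Q) (h1 : x ∉ zpowers z) : ∃ y ∈ Q, y * x * y⁻¹ = x * z := by
  obtain ⟨y, hy, e⟩ := h.es.exists_comm_eq Nat.prime_two h.zZ hx (h.not_mem_C hx h1)
  refine ⟨y, hy, ?_⟩
  rw [mem_C1.1 (h.le hx), ← h.z_inv, ← e, commutatorElement_def]; group

theorem exists_conj_of (h1 : Rp v x) (h2 : Rp v y) (h3 : v ∉ TwoL) : ∃ q ∈ Q, q * x * q⁻¹ = y := by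
  rcases h.eq_or h1 h2 with rfl | rfl
  · exact ⟨1, Q.one_mem, by simp⟩
  · exact h.exists_conj_z (h.mem h1) fun e => h3 ((h.mem_zp_iff h1).1 e)

theorem exists_conj_norm (h1 : Rp v x) (h2 : Rp w y) (h3 : sqNorm v.1 = sqNorm w.1)
    (h4 : sqNorm v.1 ≤ 64) (h5 : sqNorm v.1 ≠ 0) : ∃ a ∈ C1(z), a * x * a⁻¹ = y := by
  obtain ⟨g, rfl⟩ := shell_trans h3 h4
  obtain ⟨a, ha⟩ := h.snd g
  obtain ⟨q, hq, e⟩ := h.exists_conj_of (h.conj ha h1) h2 (not_mem_TwoL (h3 ▸ h4) (h3 ▸ h5))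
  exact ⟨q * a, mul_mem (h.le hq) (h.memC ha), by rw [← e]; group⟩

theorem card_cent (hx : x ∈ Q) (h1 : x ∉ zpowers z) :
    Nat.card (Q ⊓ C1(x) : Subgroup G) = 2 ^ 24 := by
  have := h.es.card_cent Nat.prime_two hx (h.not_mem_C hx h1)
  rw [h.card] at this; omega

end MT

/-- The lattice automorphisms belonging to a subgroup. -/
def img {G : Type*} [Group G] (P : Subgroup (G × Co0)) (B : Subgroup G) : Subgroup Co0 :=
  (P ⊓ B.comap (MonoidHom.fst G Co0)).map (MonoidHom.snd G Co0)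

theorem mem_img {G : Type*} [Group G] {P : Subgroup (G × Co0)} {B : Subgroup G} {g : Co0} :
    g ∈ img P B ↔ ∃ a ∈ B, (a, g) ∈ P :=
  ⟨fun ⟨x, hx, e⟩ => ⟨x.1, hx.2, e ▸ hx.1⟩, fun ⟨a, h1, h2⟩ => ⟨(a, g), ⟨h2, h1⟩, rfl⟩⟩

namespace MT
variable {G : Type*} [Group G] {z s : G} {Q Q' B : Subgroup G} {P P' : Subgroup (G × Co0)}
  {Rp Rp' : Λ → G → Prop} (h : MT z Q P Rp) {v w : Λ} {x y a b : G} {g k : Co0}
include h

theorem neg_mem_img : negOne ∈ img P B := mem_img.2 ⟨1, B.one_mem, h.neg⟩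

theorem card_img (hB : B ≤ C1(z)) :
    Nat.card (img P B) * Nat.card (B ⊓ Q : Subgroup G) = Nat.card B * 2 := by
  have h1 := H1.card_map_mul_card_inf_ker (MonoidHom.fst G Co0) (P ⊓ B.comap (MonoidHom.fst G Co0))
  have h2 := H1.card_map_mul_card_inf_ker (MonoidHom.snd G Co0) (P ⊓ B.comap (MonoidHom.fst G Co0))
  have e1 : (P ⊓ B.comap (MonoidHom.fst G Co0)).map (MonoidHom.fst G Co0) = B := by
    ext a
    exact ⟨fun ⟨x, hx, e⟩ => e ▸ hx.2, fun ha =>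
      let ⟨g, hg⟩ := h.fst.1 (hB ha); ⟨(a, g), ⟨hg, ha⟩, rfl⟩⟩
  have e2 : (MonoidHom.fst G Co0).ker ⊓ (P ⊓ B.comap (MonoidHom.fst G Co0)) =
      (center Co0).map (MonoidHom.inr G Co0) := by
    ext ⟨a, g⟩
    refine ⟨fun ⟨h3, h4, _⟩ => ?_, ?_⟩
    · obtain rfl : a = 1 := h3
      exact ⟨g, (h.ker h4).1 Q.one_mem, rfl⟩
    · rintro ⟨k, hk, e⟩
      exact e ▸ ⟨rfl, h.one_center hk, B.one_mem⟩
  have e3 : (MonoidHom.snd G Co0).ker ⊓ (P ⊓ B.comap (MonoidHom.fst G Co0)) =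
      (B ⊓ Q).map (MonoidHom.inl G Co0) := by
    ext ⟨a, g⟩
    refine ⟨fun ⟨h3, h4, h5⟩ => ?_, ?_⟩
    · obtain rfl : g = 1 := h3
      exact ⟨a, ⟨h5, (h.ker h4).2 (one_mem _)⟩, rfl⟩
    · rintro ⟨k, hk, e⟩
      exact e ▸ ⟨rfl, h.mem_one hk.2, hk.1⟩
  rw [e1, e2, card_map_of_injective (f := MonoidHom.inr G Co0) fun _ _ e => congrArg Prod.snd e,
    card_center_Co0] at h1
  rw [e3, card_map_of_injective (f := MonoidHom.inl G Co0) fun _ _ e => congrArg Prod.fst e] at h2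
  exact h2.trans h1.symm

theorem img_norm {D : Subgroup G} (hD : D ≤ N(B)) : img P D ≤ N(img P B) :=
  norm_iff.2 fun _ hg _ hk =>
    let ⟨_, ha, h1⟩ := mem_img.1 hg
    let ⟨_, hb, h2⟩ := mem_img.1 hk
    mem_img.2 ⟨_, conj_mem hD ha hb, P.mul_mem (P.mul_mem h1 h2) (P.inv_mem h1)⟩

variable [Finite G]

theorem mem_img_cent (h1 : Rp v x) (h3 : v ∉ TwoL) :
    g ∈ img P (C1(z) ⊓ C1(x)) ↔ E2 (g • v) v := by
  rw [mem_img]
  refine ⟨fun ⟨a, ha, hp⟩ => ?_, fun e => ?_⟩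
  · have := h.conj hp h1
    rw [conj_eq_self_of_C1 ha.2] at this
    exact (h.iff this h1).2 (by simp)
  · obtain ⟨a, ha⟩ := h.snd g
    obtain ⟨q, hq, e⟩ := h.exists_conj_of (h.of_E2 (h.conj ha h1) e) h1 h3
    refine ⟨q * a, ⟨mul_mem (h.le hq) (h.memC ha), mem_C1.2 ?_⟩,
      by simpa using P.mul_mem (h.mem_one hq) ha⟩
    rw [← mul_inv_eq_iff_eq_mul]
    conv_rhs => rw [← e]
    group

/-- If `s` lies in `Q` then `z` lies in the extraspecial group of `s`. -/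
theorem symm_mem (h' : MT s Q' P' Rp') (hs : s ∈ Q) (hne : s ≠ z) : z ∈ Q' := by
  by_contra hz
  have h1 : s ∉ zpowers z := fun e => (h.mem_zp.1 e).elim h'.z_ne hne
  have h2 := h.card_cent hs h1
  have h3 := h'.card_img (B := Q ⊓ C1(s)) inf_le_right
  have h4 := h.es.card_mul_card_cent Nat.prime_two (A := Q ⊓ C1(s))
    (le_inf inf_le_left (inf_le_right.trans (C_le_C1 hs))) inf_le_left
  have h5 : Q ⊓ C1(s) ⊓ Q' ≤ Q ⊓ C(Q ⊓ C1(s)) := fun x hx => ⟨hx.1.1, mem_C.2 fun y hy => by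
    refine commutatorElement_eq_one_iff_mul_comm.1
      ((h.comm_mem hy.1 hx.1.1).resolve_right fun e => hz ?_)
    rw [← e, commutatorElement_def]
    exact mul_mem (conj_mem h'.nml hy.2 hx.2) (inv_mem hx.2)⟩
  obtain ⟨m, h6⟩ := card_dvd_of_le h5
  obtain ⟨n, h7⟩ := card_subgroup_dvd_card (img P' (Q ⊓ C1(s)))
  rw [h2, h.card] at h4
  rw [card_Co0] at h7
  rw [h2] at h3
  have h8 : Nat.card (Q ⊓ C(Q ⊓ C1(s)) : Subgroup G) = 4 := by omega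
  have : 8315553613086720000 * 4 = 2 ^ 24 * 2 * (n * m) := by
    rw [h7, ← h8, h6, ← h3]; ring
  omega

end MT
end H14
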