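import Cfsg.Agent.H14.Mons

/-! Monster type: the squaring form, conjugates of `z` in `Q` are the classes of type 4, the
structure of a pair `z, s`. -/

set_option autoImplicit false

namespace H14
open Cfsg MulAction H18 H21 Subgroup
open scoped commutatorElement

open Classical in
/-- `0` at the identity, `1` elsewhere. -/
noncomputable def sgz {G : Type*} [Group G] (x : G) : ZMod 2 := if x = 1 then 0 else 1

theorem sgz_eq_zero {G : Type*} [Group G] {x : G} : sgz x = 0 ↔ x = 1 := by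
  unfold sgz; split_ifs with h <;> simp [h]

theorem sgz_conj {G : Type*} [Group G] (a x : G) : sgz (a * x * a⁻¹) = sgz x := by
  by_cases e : x = 1
  · simp [e]
  · rw [sgz, sgz, if_neg e, if_neg fun e' => e (conj_eq_one_iff'.1 e')]

namespace MT
variable {G : Type*} [Group G] [Finite G] {z s : G} {Q Q' B : Subgroup G}
  {P P' : Subgroup (G × Co0)} {Rp Rp' : Λ → G → Prop} (h : MT z Q P Rp) {v w : Λ} {x y a b : G}
  {g k : Co0}
include h

omit [Finite G] in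
theorem sgz_mul (hx : x = 1 ∨ x = z) (hy : y = 1 ∨ y = z) : sgz (x * y) = sgz x + sgz y := by
  rcases hx with rfl | rfl <;> rcases hy with rfl | rfl <;> simp [sgz, h.z_sq, h.z_ne]
  decide

theorem mul_sq (hx : x ∈ Q) (hy : y ∈ Q) :
    sgz (x * y * (x * y)) = sgz (x * x) + sgz (y * y) + sgz ⁅y, x⁆ := by
  have h1 := (h.es.commute hy hx hx).eq
  have h2 : x * y * (x * y) = ⁅y, x⁆ * (x * x * (y * y)) := by
    rw [← mul_assoc, ← mul_assoc ⁅y, x⁆, ← mul_assoc ⁅y, x⁆, ← h1, commutatorElement_def]; group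
  have h3 := h.mem_zp.1 (mul_mem (h.mem_zp.2 (h.sq_mem hx)) (h.mem_zp.2 (h.sq_mem hy)))
  rw [h2, h.sgz_mul (h.comm_mem hy hx) h3, h.sgz_mul (h.sq_mem hx) (h.sq_mem hy), add_comm]

theorem comm_mul (ha : a ∈ Q) (hx : x ∈ Q) (hy : y ∈ Q) :
    sgz ⁅a, x * y⁆ = sgz ⁅a, x⁆ + sgz ⁅a, y⁆ := by
  have h1 := (h.es.commute ha hy hx).eq
  have h2 : ⁅a, x * y⁆ = ⁅a, x⁆ * (x * ⁅a, y⁆ * x⁻¹) := by
    simp only [commutatorElement_def]; group
  rw [h2, h1, mul_inv_cancel_right, h.sgz_mul (h.comm_mem ha hx) (h.comm_mem ha hy)]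

omit [Finite G] in
theorem sq_eq (h1 : Rp v x) (h2 : Rp v y) : y * y = x * x := by
  rcases h.eq_or h1 h2 with rfl | rfl
  · rfl
  · rw [← mul_assoc, mul_assoc x z, ← mem_C1.1 (h.le (h.mem h1)), ← mul_assoc, mul_assoc, h.z_sq,
      mul_one]

theorem sgz_sq (h1 : Rp v x) : sgz (x * x) = qf v := by
  have key : ∀ {v x}, Rp v x → sgz ((h.ex v).choose * (h.ex v).choose) = sgz (x * x) :=
    fun h1 => by rw [h.sq_eq h1 (h.ex _).choose_spec]
  rw [← key h1]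
  refine quad_eq (fun v => sgz ((h.ex v).choose * (h.ex v).choose)) (fun v w => ?_)
    (fun u v w => ?_) (fun g v => ?_) ?_ v
  · exact key (h.of_E2 (h.ex v).choose_spec (E2.add_dbl v w).symm)
  · obtain ⟨x, hx⟩ := h.ex u
    obtain ⟨y, hy⟩ := h.ex v
    obtain ⟨t, ht⟩ := h.ex w
    simp only [key hx, key hy, key ht, key (h.mul hx hy), key (h.mul hx ht), key (h.mul hy ht),
      key (h.mul (h.mul hx hy) ht)]
    rw [h.mul_sq (h.mem (h.mul hx hy)) (h.mem ht), h.mul_sq (h.mem hx) (h.mem hy),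
      h.mul_sq (h.mem hx) (h.mem ht), h.mul_sq (h.mem hy) (h.mem ht),
      h.comm_mul (h.mem ht) (h.mem hx) (h.mem hy)]
    ring
  · obtain ⟨a, ha⟩ := h.snd g
    obtain ⟨x, hx⟩ := h.ex v
    simp only [key hx, key (h.conj ha hx)]
    rw [conj_mul, sgz_conj]
  · by_contra hn
    have h2 : ∀ x ∈ Q, x * x = 1 := fun x hx => by
      obtain ⟨v, hv⟩ := h.surj hx
      rw [← sgz_eq_zero, ← key hv]
      by_contra e; exact hn ⟨v, e⟩
    have := h.es.eq_Z_of_abel (cent_iff.2 fun x hx y hy => by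
      rw [← inv_eq_of_mul_eq_one_right (h2 _ (mul_mem hx hy)), mul_inv_rev,
        inv_eq_of_mul_eq_one_right (h2 _ hx), inv_eq_of_mul_eq_one_right (h2 _ hy)])
    rw [h.card] at this; omega

theorem sq_iff (h1 : Rp v x) : x * x = 1 ↔ (32 : ℤ) ∣ sqNorm v.1 := by
  rw [← sgz_eq_zero, h.sgz_sq h1, qf_eq_zero]

theorem comm_iff (h1 : Rp v x) (h2 : Rp w y) : x * y = y * x ↔ (16 : ℤ) ∣ dotInt v.1 w.1 := by
  have := h.mul_sq (h.mem h1) (h.mem h2)
  rw [h.sgz_sq (h.mul h1 h2), h.sgz_sq h1, h.sgz_sq h2, qf_add, add_left_cancel_iff] at this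
  rw [← bf2_eq_zero, this, sgz_eq_zero, commutatorElement_eq_one_iff_mul_comm, eq_comm]

section pair
variable (h' : MT s Q' P' Rp') (hs : s ∈ Q) (hne : s ≠ z)
include h' hne

omit [Finite G] in
theorem eq_one_of (h1 : x = 1 ∨ x = z) (h2 : x = 1 ∨ x = s) : x = 1 :=
  h1.elim id fun e => h2.elim id fun e' => absurd (e'.symm.trans e) hne

omit [Finite G] in
theorem not_mem_zp : s ∉ zpowers z := fun e => (h.mem_zp.1 e).elim h'.z_ne hne

theorem inter_sq (hx : x ∈ Q ⊓ Q') : x * x = 1 :=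
  h.eq_one_of h' hne (h.sq_mem hx.1) (h'.sq_mem hx.2)

theorem inter_abel : Abel (Q ⊓ Q') := cent_iff.2 fun _ hx _ hy =>
  commutatorElement_eq_one_iff_mul_comm.1
    (h.eq_one_of h' hne (h.comm_mem hx.1 hy.1) (h'.comm_mem hx.2 hy.2))

include hs

theorem card_img_pair :
    Nat.card (img P (Q' ⊓ C1(z))) * Nat.card (Q ⊓ Q' : Subgroup G) = 2 ^ 25 := by
  have h1 := h.card_img (B := Q' ⊓ C1(z)) inf_le_right
  rw [h'.card_cent (h.symm_mem h' hs hne) (h'.not_mem_zp h hne.symm), inf_assoc,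
    inf_of_le_right h.le, inf_comm Q' Q] at h1
  exact h1

theorem img_pgroup : IsPGroup 2 (img P (Q' ⊓ C1(z))) :=
  let ⟨_, _, e⟩ := (Nat.dvd_prime_pow Nat.prime_two).1 (Dvd.intro _ (h.card_img_pair h' hs hne))
  IsPGroup.of_card e

theorem le_card_img : 4096 ≤ Nat.card (img P (Q' ⊓ C1(z))) := by
  have h1 := h.card_img_pair h' hs hne
  have h2 := h.es.card_abel_le Nat.prime_two (n := 12) h.card (h.inter_abel h' hne) inf_le_left
  have := Nat.mul_le_mul_left (Nat.card (img P (Q' ⊓ C1(z)))) h2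
  omega

omit [Finite G] hs hne in
theorem img_norm_pair : img P (C1(z) ⊓ C1(s)) ≤ N(img P (Q' ⊓ C1(z))) :=
  h.img_norm (norm_inf (inf_le_right.trans h'.nml) (norm_C1 inf_le_left))

omit [Finite G] hs hne in
theorem img_le_pair : img P (Q' ⊓ C1(z)) ≤ img P (C1(z) ⊓ C1(s)) := fun _ hg =>
  let ⟨a, ha, e⟩ := mem_img.1 hg
  mem_img.2 ⟨a, ⟨ha.2, h'.le ha.1⟩, e⟩

omit hs in
theorem type4 (h1 : Rp v s) : ∃ w : Λ, sqNorm w.1 = 64 ∧ E2 v w := by
  obtain ⟨w, e, hw⟩ := exists_short v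
  have h2 := h.of_E2 h1 e
  have h3 : w ∉ TwoL := fun e => h.not_mem_zp h' hne ((h.mem_zp_iff h2).2 e)
  have key : ¬ (sqNorm w.1 = 32 ∨ sqNorm w.1 = 48) := fun hw => by
    have := card_le_of_le (le_center hw h.neg_mem_img
      (fun g hg => (h.mem_img_cent h2 h3).1 (h.img_le_pair h' hg))
      (le_trans (fun g hg => (h.mem_img_cent h2 h3).2 (E2.of_eq hg)) (h.img_norm_pair h'))
      (h.img_pgroup h' (h.mem h1) hne))
    have h4 := h.le_card_img h' (h.mem h1) hne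
    rw [card_center_Co0] at this; omega
  rcases hw with rfl | hw | hw | hw
  exacts [absurd TwoL.zero_mem h3, absurd (.inl hw) key, absurd (.inr hw) key, ⟨w, hw, e⟩]

theorem exists_std : ∃ P Rp, MT z Q P Rp ∧ Rp (fr none) s := by
  obtain ⟨v, hv⟩ := h.surj hs
  obtain ⟨w, hw, e⟩ := h.type4 h' hne hv
  obtain ⟨g, rfl⟩ := shell_trans ((norm_fr none).trans hw.symm) (norm_fr none).le
  exact ⟨_, _, h.twist g, h.of_E2 hv e⟩

omit h' hs hne in
theorem img_eq_Mon {p : GolayPt} (h1 : Rp (fr p) s) : img P (C1(z) ⊓ C1(s)) = Mon := by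
  ext g
  rw [h.mem_img_cent h1 (not_mem_TwoL (norm_fr p).le (by simp [norm_fr])), mem_Mon_iff_E2]

omit hs in
theorem img_eq_Sg {p : GolayPt} (h1 : Rp (fr p) s) : img P (Q' ⊓ C1(z)) = Sg :=
  eq_of_le_of_card_ge (le_Sg (h.img_eq_Mon h1 ▸ h.img_le_pair h')
    (h.img_eq_Mon h1 ▸ h.img_norm_pair h') (h.img_pgroup h' (h.mem h1) hne))
    (card_Sg ▸ h.le_card_img h' (h.mem h1) hne)

theorem card_inter : Nat.card (Q ⊓ Q' : Subgroup G) = 2 ^ 13 := by
  obtain ⟨P, Rp, h, h1⟩ := h.exists_std h' hs hne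
  have := h.card_img_pair h' hs hne
  rw [h.img_eq_Sg h' hne h1, card_Sg] at this; omega

end pair

theorem conj_type4 (h1 : Rp v s) (hc : IsConj z s) (hne : s ≠ z) :
    ∃ w : Λ, sqNorm w.1 = 64 ∧ Rp w s := by
  obtain ⟨a, rfl⟩ := isConj_iff.1 hc
  obtain ⟨w, hw, e⟩ := h.type4 (h.cj a) hne h1
  exact ⟨w, hw, h.of_E2 h1 e⟩

theorem conj_of_type4 (hw : ∃ g, g * z * g⁻¹ ∈ Q ∧ g * z * g⁻¹ ≠ z) (h1 : Rp v s)
    (h2 : sqNorm v.1 = 64) : IsConj z s ∧ s ≠ z := by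
  obtain ⟨g, hg, hne⟩ := hw
  obtain ⟨u, hu⟩ := h.surj hg
  obtain ⟨w, hw, h3⟩ := h.conj_type4 hu (isConj_iff.2 ⟨g, rfl⟩) hne
  obtain ⟨a, -, rfl⟩ := h.exists_conj_norm h3 h1 (hw.trans h2.symm) hw.le (by omega)
  refine ⟨isConj_iff.2 ⟨a * g, by group⟩, fun e => ?_⟩
  exact not_mem_TwoL h2.le (by omega) ((h.mem_zp_iff h1).1 (h.mem_zp.2 (.inr e)))

theorem type2 (hw : ∃ g, g * z * g⁻¹ ∈ Q ∧ g * z * g⁻¹ ≠ z) (hs : s ∈ Q) (h2 : orderOf s = 2)
    (hc : ¬ IsConj z s) : ∃ v : Λ, sqNorm v.1 = 32 ∧ Rp v s := by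
  obtain ⟨u, hu⟩ := h.surj hs
  obtain ⟨v, e, hv⟩ := exists_short u
  have h1 := h.of_E2 hu e
  rcases hv with rfl | hv | hv | hv
  · rcases h.mem_zp.1 ((h.mem_zp_iff h1).2 TwoL.zero_mem) with rfl | rfl
    · simp at h2
    · exact absurd (IsConj.refl _) hc
  · exact ⟨v, hv, h1⟩
  · have := (h.sq_iff h1).1 (by rw [← sq, ← h2, pow_orderOf_eq_one])
    omega
  · exact absurd (h.conj_of_type4 hw h1 hv).1 hc

omit [Finite G] in
/-- The homomorphism from `Co0` to a quotient of `C(z)`. -/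
theorem exists_lift {X : Type*} [Group X] (π : C1(z) →* X) (hπ : ∀ a : C1(z), a.1 ∈ Q → π a = 1) :
    ∃ θ : Co0 →* X, ∀ (a : C1(z)) g, (a.1, g) ∈ P → θ g = π a := by
  have key : ∀ (a b : C1(z)) g, (a.1, g) ∈ P → (b.1, g) ∈ P → π a = π b := fun a b g h1 h2 => by
    rw [← inv_mul_eq_one, ← map_inv, ← map_mul]
    exact hπ _ ((h.ker (P.mul_mem (P.inv_mem h1) h2)).2 (by simp))
  let f : Co0 → C1(z) := fun g => ⟨_, h.memC (h.snd g).choose_spec⟩
  have hf : ∀ g, ((f g).1, g) ∈ P := fun g => (h.snd g).choose_spec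
  exact ⟨MonoidHom.mk' (fun g => π (f g)) fun g k => by
    rw [← map_mul]; exact key _ _ _ (hf _) (P.mul_mem (hf g) (hf k)),
    fun a g hp => key _ _ _ (hf g) hp⟩

end MT
end H14
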