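import Cfsg.Agent.H14.Mons2
import Cfsg.Agent.H17.Local
import Cfsg.Agent.H1.Cores

/-! Monster type: the extraspecial-centralizer setting in sections `H / A`; the Baby Monster case. -/

set_option autoImplicit false

namespace H14
open Cfsg MulAction H18 H21 Subgroup
open scoped commutatorElement

theorem gfit_eq {D : Type*} [Group D] [Finite D] {R : Subgroup D} [R.Normal] (h2 : IsPGroup 2 R)
    (hc : C(R) ≤ R) (ho : pCore 2 D ≤ R) : generalizedFittingSubgroup D = R := by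
  have e : pCore 2 D = R := le_antisymm ho (H1.le_pCore h2)
  rw [← e, ← H17.charP_top_iff, H17.CharP, H17.oP_top, e]
  exact inf_le_right.trans hc

theorem gen_setting {X P T : Type*} [Group X] [Finite X] [Group P] [Group T] {z : X}
    (α : P →* X) (hα : α.range = C1(z)) (β : P →* T) (hβ : Function.Surjective β) (R : Subgroup P)
    (hk : ∀ p, β p = 1 ↔ α p ∈ R.map α) (hz : orderOf z = 2) (hzR : z ∈ R.map α)
    (hder : ∀ x ∈ R, ∀ y ∈ R, α ⁅x, y⁆ ∈ zpowers z)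
    (hZ : ∀ x ∈ R, (∀ y ∈ R, α ⁅x, y⁆ = 1) → α x ∈ zpowers z) {w : ℕ} (hw : w ≠ 0)
    (hcard : Nat.card (R.map α) = 2 ^ (2 * w + 1))
    (hT : ∀ N : Subgroup T, N.Normal → IsPGroup 2 N → N = ⊥)
    (hcent : ∀ p, (∀ r ∈ R, α ⁅p, r⁆ = 1) → β p = 1)
    (hn : ∃ g, g * z * g⁻¹ ∈ R.map α ∧ g * z * g⁻¹ ≠ z) :
    ∃ (Q : Subgroup C1(z)) (_ : Q.Normal), IsExtraspecialCentralizerSetting z Q w ∧
      (∀ x : C1(z), x ∈ Q ↔ x.1 ∈ R.map α) ∧ (∀ q : Q, q ∈ center Q ↔ q.1.1 ∈ zpowers z) ∧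
      ∃ e : C1(z) ⧸ Q ≃* T, ∀ p (hp : α p ∈ C1(z)), e (QuotientGroup.mk ⟨α p, hp⟩) = β p := by
  let α' : P →* C1(z) := α.codRestrict _ fun p => hα ▸ ⟨p, rfl⟩
  have hs : Function.Surjective α' := fun x => by
    obtain ⟨p, hp⟩ := hα.ge x.2
    exact ⟨p, Subtype.ext hp⟩
  let β' := α'.liftOfSurjective hs ⟨β, fun p hp => (hk p).2 (by
    rw [show α p = 1 from congrArg Subtype.val hp]; exact one_mem _)⟩
  have hβ' : ∀ p, β' (α' p) = β p := fun p => α'.liftOfRightInverse_comp_apply _ _ _ p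
  have hs' : Function.Surjective β' := fun t => let ⟨p, hp⟩ := hβ t; ⟨α' p, (hβ' p).trans hp⟩
  have hQ : ∀ x : C1(z), x ∈ β'.ker ↔ x.1 ∈ R.map α := fun x => by
    obtain ⟨p, rfl⟩ := hs x
    rw [MonoidHom.mem_ker, hβ', hk]; rfl
  have hle : R.map α ≤ C1(z) := hα ▸ map_le_range _ _
  have hm : β'.ker.map C1(z).subtype = R.map α := by
    ext x
    exact ⟨fun ⟨y, hy, e⟩ => e ▸ (hQ y).1 hy, fun hx => ⟨⟨x, hle hx⟩, (hQ _).2 hx, rfl⟩⟩
  have hzp : Z(R.map α) = zpowers z := by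
    refine le_antisymm ?_ (zpowers_le.2 ⟨hzR, le_C1_iff.1 hle⟩)
    rintro _ ⟨⟨x, hx, rfl⟩, h1⟩
    refine hZ x hx fun y hy => ?_
    rw [map_commutatorElement, commutatorElement_eq_one_iff_mul_comm]
    exact (mem_C.1 h1 _ (mem_map_of_mem α hy)).symm
  have es : ES 2 (R.map α) := ⟨by rw [hzp, Nat.card_zpowers, hz], by
    rw [commutator_le]
    rintro _ ⟨x, hx, rfl⟩ _ ⟨y, hy, rfl⟩
    rw [← map_commutatorElement]
    exact (hzp.ge (hder x hx y hy)).2⟩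
  have es' : ES 2 β'.ker := (es_map_iff (subtype_injective _)).1 (hm ▸ es)
  have hc : Nat.card β'.ker = 2 ^ (2 * w + 1) := by
    rw [← hcard, ← hm, card_map_of_injective (subtype_injective _)]
  refine ⟨β'.ker, inferInstance, ⟨hz, gfit_eq (IsPGroup.of_card hc) (fun x hx => ?_) ?_,
    (isExtraspecial_iff Nat.prime_two).2 ⟨es', fun ha => hw ((es'.abel_iff_card Nat.prime_two hc).1 ha)⟩,
    hc, ?_⟩, hQ, fun q => ?_, QuotientGroup.quotientKerEquivOfSurjective β' hs', fun p _ => hβ' p⟩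
  · obtain ⟨p, rfl⟩ := hs x
    rw [MonoidHom.mem_ker, hβ']
    refine hcent p fun r hr => ?_
    rw [map_commutatorElement, commutatorElement_eq_one_iff_mul_comm]
    exact (congrArg Subtype.val (mem_C.1 hx (α' r) ((hQ _).2 (mem_map_of_mem α hr)))).symm
  · rw [← Subgroup.map_eq_bot_iff]
    exact hT _ (Normal.map inferInstance _ hs') ((H1.pCore_isPGroup 2 _).map _)
  · obtain ⟨g, h1, h2⟩ := hn
    exact ⟨g, ⟨hle h1, (hQ _).2 h1⟩, h2⟩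
  · rw [← hzp, ← hm, ← map_Z (subtype_injective _), ← H21.map_center,
      show q.1.1 = C1(z).subtype (β'.ker.subtype q) from rfl,
      mem_map_iff_mem (subtype_injective _), mem_map_iff_mem (subtype_injective _)]

theorem mem_perpU {x : Λ} : x ∈ leechPerpU ↔ (16 : ℤ) ∣ dotInt x.1 U.1 := Iff.rfl

theorem smul_mem_perpU {g : Co0} (hg : g • U = U) {x : Λ} (hx : x ∈ leechPerpU) :
    g • x ∈ leechPerpU := by
  rw [mem_perpU, dot_comm, dot_smul_of_fix hg, dot_comm]; exact hx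

/-- The vectors congruent to `0` or `U`. -/
def WU : AddSubgroup Λ where
  carrier := {y | E2 y 0 ∨ E2 y U}
  zero_mem' := .inl (E2.refl _)
  add_mem' := by
    rintro x y (h | h) (h' | h') <;> have := h.add h'
    · exact .inl (by simpa using this)
    · exact .inr (by simpa using this)
    · exact .inr (by simpa using this)
    · exact .inl (this.trans (E2.zero_iff.2 (dbl_mem U)))
  neg_mem' h := h.imp (E2.neg _).trans (E2.neg _).trans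

theorem smul_mem_WU {g : Co0} (hg : g • U = U) {x : Λ} (hx : x ∈ WU) : g • x ∈ WU :=
  hx.imp (fun e => by simpa using e.smul g) fun e => hg ▸ e.smul g

theorem eq_one_of_perpU {g : Co0} (hg : g ∈ C2) (h : ∀ x ∈ leechPerpU, g • x - x ∈ WU) : g = 1 := by
  let N : Subgroup C2 :=
    { carrier := {g | ∀ x ∈ leechPerpU, g.1 • x - x ∈ WU}
      one_mem' := fun x _ => by simpa using WU.zero_mem
      mul_mem' := fun {g k} hg hk x hx => by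
        have := WU.add_mem (smul_mem_WU g.2 (hk x hx)) (hg x hx)
        rwa [smul_sub, sub_add_sub_cancel, ← mul_smul] at this
      inv_mem' := fun {g} hg x hx => by
        have := WU.neg_mem (smul_mem_WU (g⁻¹).2 (hg x hx))
        rwa [smul_sub, neg_sub, ← mul_smul, ← coe_mul, inv_mul_cancel, coe_one, one_smul] at this }
  have hN : N.Normal := ⟨fun g hg k x hx => by
    have := smul_mem_WU k.2 (hg _ (smul_mem_perpU (k⁻¹).2 hx))
    rwa [smul_sub, ← mul_smul, ← mul_smul, ← mul_smul, ← coe_mul C2 k k⁻¹, mul_inv_cancel, coe_one,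
      one_smul] at this⟩
  have := simple_C2
  refine congrArg Subtype.val ((eq_bot_iff_forall _).1 (hN.eq_bot_or_eq_top.resolve_right fun e => ?_)
    ⟨g, hg⟩ h)
  obtain ⟨k, h1, h2⟩ := pair_trans norm_U norm_U' norm_U (y := l4 (some 1) (some 2) 4 rfl)
    (by decide +kernel) (by decide +kernel)
  have h3 := (e.ge (mem_top (⟨k, h1⟩ : C2)) : ∀ x ∈ leechPerpU, k • x - x ∈ WU) U'
    (mem_perpU.2 (by decide +kernel))
  rw [h2] at h3
  rcases h3 with h3 | h3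
  · exact not_mem_TwoL (by decide +kernel) (by decide +kernel) (E2.zero_iff.1 h3)
  · have := h3.norm_eq (by decide +kernel) (by decide +kernel)
    revert this; decide +kernel

namespace MT
variable {G : Type*} [Group G] [Finite G] {z s t : G} {Q Q' B : Subgroup G}
  {P P' : Subgroup (G × Co0)} {Rp Rp' : Λ → G → Prop} (h : MT z Q P Rp) {v w : Λ} {x y a b : G}
  {g k : Co0}
include h

theorem section_setting {H A : Subgroup G} [(A.subgroupOf H).Normal] (hz : z ∈ H) (hzA : z ∉ A)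
    (hc : ∀ b ∈ H, ⁅b, z⁆ ∈ A → b ∈ C1(z)) {Y : Subgroup Co0} {T : Type*} [Group T] (τ : Y →* T)
    (hs : Function.Surjective τ) (hY : ∀ b ∈ H, b ∈ C1(z) → ∃ g ∈ Y, (b, g) ∈ P)
    (hY' : ∀ g ∈ Y, ∃ b ∈ H, (b, g) ∈ P)
    (hτ : ∀ b ∈ H, ∀ g : Y, (b, g.1) ∈ P → (τ g = 1 ↔ ∃ r ∈ Q ⊓ H, r⁻¹ * b ∈ A))
    (hZ : ∀ x ∈ Q ⊓ H, (∀ y ∈ Q ⊓ H, x * y = y * x) → x ∈ A ∨ z⁻¹ * x ∈ A) {w : ℕ} (hw : w ≠ 0)
    (hcard : Nat.card (Q ⊓ H : Subgroup G) = 2 ^ (2 * w + 1) * Nat.card (A ⊓ (Q ⊓ H) : Subgroup G))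
    (hT : ∀ N : Subgroup T, N.Normal → IsPGroup 2 N → N = ⊥)
    (hcent : ∀ b ∈ H, ∀ g : Y, (b, g.1) ∈ P → (∀ r ∈ Q ⊓ H, ⁅b, r⁆ ∈ A) → τ g = 1)
    (hn : ∃ y ∈ H, y * z * y⁻¹ ∈ Q ∧ y * z * y⁻¹ ≠ z) {z' : H ⧸ A.subgroupOf H}
    (hz' : z' = QuotientGroup.mk ⟨z, hz⟩) :
    ∃ (R : Subgroup C1(z')) (_ : R.Normal), IsExtraspecialCentralizerSetting z' R w ∧
      (∀ x : C1(z'), x ∈ R ↔ ∃ r : H, r.1 ∈ Q ∧ QuotientGroup.mk r = x.1) ∧
      (∀ q : R, q ∈ center R ↔ q.1.1 ∈ zpowers z') ∧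
      (∀ b : H, QuotientGroup.mk b ∈ C1(z') ↔ b.1 ∈ C1(z)) ∧
      ∃ e : C1(z') ⧸ R ≃* T, ∀ (b : H) (g : Y) (hb : QuotientGroup.mk b ∈ C1(z')),
        (b.1, g.1) ∈ P → e (QuotientGroup.mk ⟨QuotientGroup.mk b, hb⟩) = τ g := by
  let π := QuotientGroup.mk' (A.subgroupOf H)
  have hπ : ∀ b : H, π b = 1 ↔ b.1 ∈ A := fun b => QuotientGroup.eq_one_iff b
  have hπ' : ∀ b c : H, π b = π c ↔ b.1⁻¹ * c.1 ∈ A := fun b c => QuotientGroup.eq
  let P₁ : Subgroup (H × Y) := P.comap (H.subtype.prodMap Y.subtype)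
  let α : P₁ →* _ := π.comp ((MonoidHom.fst H Y).comp P₁.subtype)
  let β : P₁ →* T := τ.comp ((MonoidHom.snd H Y).comp P₁.subtype)
  let R : Subgroup P₁ := Q.comap (H.subtype.comp ((MonoidHom.fst H Y).comp P₁.subtype))
  have hC : ∀ b : H, π b ∈ C1(z') ↔ b.1 ∈ C1(z) := fun b => by
    rw [mem_C1, hz', ← commutatorElement_eq_one_iff_mul_comm]
    erw [← map_commutatorElement π b ⟨z, hz⟩, hπ]
    exact ⟨hc b b.2, fun e => by
      rw [show (⁅b, ⟨z, hz⟩⁆ : H).1 = ⁅b.1, z⁆ from rfl,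
        commutatorElement_eq_one_iff_mul_comm.2 (mem_C1.1 e)]; exact one_mem _⟩
  have hR : ∀ x, x ∈ R.map α ↔ ∃ r : H, r.1 ∈ Q ∧ π r = x := fun x =>
    ⟨fun ⟨p, hp, e⟩ => ⟨_, hp, e⟩, fun ⟨r, hr, e⟩ => ⟨⟨(r, 1), h.mem_one hr⟩, hr, e⟩⟩
  have hzp : ∀ b : H, b.1 ∈ zpowers z → π b ∈ zpowers z' := fun b hb => by
    rcases h.mem_zp.1 hb with e | e
    · rw [show b = 1 from Subtype.ext e, map_one]; exact one_mem _
    · rw [show b = ⟨z, hz⟩ from Subtype.ext e, hz']; exact mem_zpowers _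
  obtain ⟨R', hR', h1, h2, h3, e, he⟩ := gen_setting (z := z') α (by
      ext x
      obtain ⟨b, rfl⟩ := QuotientGroup.mk'_surjective _ x
      refine ⟨fun ⟨p, e⟩ => e ▸ (hC _).2 (h.memC p.2), fun hb => ?_⟩
      obtain ⟨g, hg, hp⟩ := hY b b.2 ((hC b).1 hb)
      exact ⟨⟨(b, ⟨g, hg⟩), hp⟩, rfl⟩) β (fun x => by
      obtain ⟨g, rfl⟩ := hs x
      obtain ⟨b, hb, hp⟩ := hY' g g.2
      exact ⟨⟨(⟨b, hb⟩, g), hp⟩, rfl⟩) R (fun p => by
      rw [hR]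
      exact (hτ _ p.1.1.2 p.1.2 p.2).trans ⟨fun ⟨r, hr, e⟩ => ⟨⟨r, hr.2⟩, hr.1, (hπ' _ _).2 e⟩,
        fun ⟨r, hr, e⟩ => ⟨r, ⟨hr, r.2⟩, (hπ' _ _).1 e⟩⟩) (by
      refine orderOf_eq_prime ?_ fun e => hzA ((hπ ⟨z, hz⟩).1 (hz'.symm.trans e))
      rw [hz', ← QuotientGroup.mk_pow, show (⟨z, hz⟩ : H) ^ 2 = 1 from
        Subtype.ext ((sq z).trans h.z_sq)]; rfl) ((hR _).2 ⟨⟨z, hz⟩, h.zQ, hz'.symm⟩)
    (fun x hx y hy => hzp _ (h.mem_zp.2 (h.comm_mem hx hy))) (fun x hx h1 => by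
      rcases hZ _ ⟨hx, x.1.1.2⟩ fun y hy => commutatorElement_eq_one_iff_mul_comm.1
        ((h.comm_mem hx hy.1).resolve_right fun e => hzA (e ▸ (hπ _).1
          (h1 ⟨(⟨y, hy.2⟩, 1), h.mem_one hy.1⟩ hy.1))) with e | e
      · rw [show α x = 1 from (hπ _).2 e]; exact one_mem _
      · rw [show α x = z' from (hz'.trans ((hπ' ⟨z, hz⟩ _).2 e)).symm]; exact mem_zpowers _) hw (by
      have e1 : R.map α = ((Q ⊓ H).subgroupOf H).map π := by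
        ext x
        rw [hR]
        exact ⟨fun ⟨r, hr, e⟩ => ⟨r, ⟨hr, r.2⟩, e⟩, fun ⟨r, hr, e⟩ => ⟨r, hr.1, e⟩⟩
      have e2 := H1.card_map_mul_card_inf_ker π ((Q ⊓ H).subgroupOf H)
      rw [QuotientGroup.ker_mk', ← e1, show A.subgroupOf H ⊓ (Q ⊓ H).subgroupOf H =
        (A ⊓ (Q ⊓ H)).subgroupOf H from rfl, Nat.card_congr (subgroupOfEquivOfLe inf_le_right).toEquiv,
        Nat.card_congr (subgroupOfEquivOfLe (inf_le_right.trans inf_le_right)).toEquiv, hcard] at e2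
      exact Nat.eq_of_mul_eq_mul_right Nat.card_pos e2) hT
    (fun p hp => hcent _ p.1.1.2 p.1.2 p.2 fun r hr =>
      (hπ _).1 (hp ⟨(⟨r, hr.2⟩, 1), h.mem_one hr.1⟩ hr.1)) (by
      obtain ⟨y, hy, h1, h2⟩ := hn
      refine ⟨π ⟨y, hy⟩, (hR _).2 ⟨⟨y, hy⟩ * ⟨z, hz⟩ * ⟨y, hy⟩⁻¹, h1, by rw [hz']; rfl⟩, fun e => h2 ?_⟩
      exact conj_eq_self_of_C1 ((hC ⟨y, hy⟩).1 (mem_C1.2 (mul_inv_eq_iff_eq_mul.1 e))))
  exact ⟨R', hR', h1, fun x => (h2 x).trans (hR _), h3, hC, e, fun b g hb hp => he ⟨(b, g), hp⟩ hb⟩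

theorem cent_cent (ht : t ∈ Q) (hx : x ∈ Q) (hc : ∀ y ∈ Q ⊓ C1(t), x * y = y * x) :
    x ∈ zpowers t ∨ z⁻¹ * x ∈ zpowers t := by
  have h1 := h.es.cent_cent Nat.prime_two (A := zpowers z ⊔ zpowers t) (h.zp_eq ▸ le_sup_left)
    (sup_le (zpowers_le.2 h.zQ) (zpowers_le.2 ht))
  rw [C_sup, C_zpowers, C_zpowers, ← inf_assoc, inf_of_le_left h.le] at h1
  obtain ⟨a, ha, b, hb, rfl⟩ := (mem_sup_of_cent (zpowers_le.2 (C_zpowers.ge (mem_C1_comm.1 (h.le ht))))).1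
    (h1.le ⟨hx, mem_C.2 fun y hy => (hc y hy).symm⟩)
  rcases h.mem_zp.1 ha with rfl | rfl
  · exact .inl (by simpa using hb)
  · exact .inr (by simpa using hb)

theorem exists_pair (hw : ∃ g, g * z * g⁻¹ ∈ Q ∧ g * z * g⁻¹ ≠ z) (ht : t ∈ Q) (h2 : orderOf t = 2)
    (hc : ¬ IsConj z t) : ∃ g, g * z * g⁻¹ ∈ Q ∧ g * z * g⁻¹ ≠ z ∧ t ∈ H18.cj g Q := by
  obtain ⟨g, hg, hne⟩ := id hw
  have h' := h.cj g
  obtain ⟨P, Rp, h, h1⟩ := h.exists_std h' hg hne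
  obtain ⟨b, hb, hp⟩ := mem_img.1 (h.img_eq_Sg h' hne h1 ▸ sgn_mem_Sg (c := bset 0x200f68)
    (bset_mem_GC (by decide +kernel)))
  obtain ⟨q, hq⟩ := h.ex lO
  have h3 : q ∈ C1(g * z * g⁻¹) := mem_C1.2 ((h.comm_iff hq h1).2 (by decide +kernel))
  have h4 := h.of_E2 (h.mul (h.conj hp hq) (h.rp_inv hq)) (E2.sub _ _).symm
  obtain ⟨v, hv, h5⟩ := h.type2 hw ht h2 hc
  have h6 : ∀ c hc, (sgn c hc • lO - lO).1 = fun p => (if p ∈ c then -lO.1 p else lO.1 p) - lO.1 p :=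
    fun c hc => funext fun p => by rw [AddSubgroup.coe_sub, Pi.sub_apply, sgn_apply]
  obtain ⟨a, ha, rfl⟩ := h.exists_conj_norm h4 h5 (by rw [hv, h6]; decide +kernel)
    (by rw [h6]; decide +kernel) (by rw [h6]; decide +kernel)
  refine ⟨a * g, ?_, fun e => hne ?_, ?_⟩
  · simpa [mul_assoc] using conj_mem h.nml ha hg
  · calc g * z * g⁻¹ = a⁻¹ * (a * g * z * (a * g)⁻¹) * a⁻¹⁻¹ := by group
      _ = z := by rw [e]; exact conj_eq_self_of_C1 (inv_mem ha)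
  · rw [cj_mul, conj_mem_cj_iff, mul_assoc, mul_assoc, ← mul_assoc q]
    exact mul_mem hb.1 (conj_mem h'.nml h3 (inv_mem hb.1))

theorem exists_move (hw : ∃ g, g * z * g⁻¹ ∈ Q ∧ g * z * g⁻¹ ≠ z) (ht : t ∈ Q) (h2 : orderOf t = 2)
    (hc : ¬ IsConj z t) : ∃ y ∈ C1(t), y * z * y⁻¹ ∈ Q ∧ y * z * y⁻¹ ≠ z := by
  obtain ⟨g, hg, hne, h3⟩ := h.exists_pair hw ht h2 hc
  have h' := h.cj g
  have hz := h.symm_mem h' hg hne
  by_cases h4 : ∀ y ∈ H18.cj g Q ⊓ C1(t), z * y = y * z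
  · exfalso
    rcases h'.cent_cent h3 hz h4 with e | e <;> rcases (mem_zpowers_two h2).1 e with e | e
    · exact h.z_ne e
    · exact hc (e ▸ IsConj.refl _)
    · exact hne (inv_mul_eq_one.1 e)
    · obtain ⟨y, -, e'⟩ := h.exists_conj_z hg (h.not_mem_zp h' hne)
      rw [h'.z_inv, ← e'] at e
      exact hc (isConj_iff.2 ⟨y * g, by rw [← e]; group⟩)
  · push Not at h4
    obtain ⟨y, hy, h4⟩ := h4
    have h5 := (h'.comm_mem hy.1 hz).resolve_left fun e =>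
      h4 (commutatorElement_eq_one_iff_mul_comm.1 e).symm
    rw [commutatorElement_def, mul_inv_eq_iff_eq_mul] at h5
    exact ⟨y, hy.2, h5 ▸ mul_mem hg h.zQ, fun e => h4 (mul_inv_eq_iff_eq_mul.1 e).symm⟩

theorem rp_WU (h1 : Rp U t) (h2 : orderOf t = 2) (hv : Rp v x) :
    v ∈ WU ↔ x ∈ zpowers t ∨ z⁻¹ * x ∈ zpowers t := by
  have h3 := h.iff h1 hv
  rw [h.mem_zp, inv_mul_eq_one, inv_mul_eq_iff_eq_mul, mem_C1.1 (h.le (h.mem h1))] at h3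
  rw [mem_zpowers_two h2, mem_zpowers_two h2, inv_mul_eq_one, inv_mul_eq_iff_eq_mul]
  have h4 := (h.mem_zp.symm.trans (h.mem_zp_iff hv)).trans E2.zero_iff.symm
  constructor
  · rintro (e | e)
    · exact (h4.2 e).elim (fun e => .inl (.inl e)) fun e => .inr (.inl e.symm)
    · exact (h3.1 e.symm).elim (fun e => .inl (.inr e.symm)) fun e => .inr (.inr e)
  · rintro ((e | e) | e | e)
    exacts [.inl (h4.1 (.inl e)), .inr (h3.2 (.inl e.symm)).symm, .inl (h4.1 (.inr e.symm)),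
      .inr (h3.2 (.inr e)).symm]

theorem baby (hw : ∃ g, g * z * g⁻¹ ∈ Q ∧ g * z * g⁻¹ ≠ z) (ht : t ∈ Q) (h2 : orderOf t = 2)
    (hc : ¬ IsConj z t) [((zpowers t).subgroupOf C1(t)).Normal] :
    IsOfBabyMonsterType (C1(t) ⧸ (zpowers t).subgroupOf C1(t)) := by
  obtain ⟨u, hu, h1⟩ := h.type2 hw ht h2 hc
  obtain ⟨g, rfl⟩ := min_trans norm_U hu
  obtain ⟨P, Rp, h, h1⟩ : ∃ P Rp, MT z Q P Rp ∧ Rp U t := ⟨_, _, h.twist g, h1⟩
  have hU : U ∉ TwoL := not_mem_TwoL nU (by rw [norm_U]; norm_num)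
  have htz : t ∉ zpowers z := fun e => hU ((h.mem_zp_iff h1).1 e)
  have hz : z ∈ C1(t) := mem_C1_comm.1 (h.le ht)
  have hY : ∀ b ∈ C1(t), b ∈ C1(z) → ∃ g ∈ C2, (b, g) ∈ P := fun b hb hb' => by
    obtain ⟨g, hg⟩ := h.fst.1 hb'
    rcases ((h.mem_img_cent h1 hU).1 (mem_img.2 ⟨b, ⟨hb', hb⟩, hg⟩)).eq_or
      ((sqNorm_smul _ _).trans_le nU) (by rw [norm_U]; norm_num) with e | e
    · exact ⟨g, e, hg⟩
    · exact ⟨_, show (g * negOne) • U = U by rw [mul_smul, negOne_smul, smul_neg', e, neg_neg],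
        h.mul_neg hg⟩
  have hp : ∀ {v x}, Rp v x → (x ∈ C1(t) ↔ v ∈ leechPerpU) := fun hv =>
    mem_C1.trans (h.comm_iff hv h1)
  have := isCo2.1
  obtain ⟨R, hR, k1, k2, k3, k4, e, k5⟩ := h.section_setting (H := C1(t)) (A := zpowers t) hz
    (fun e => ((mem_zpowers_two h2).1 e).elim h.z_ne fun e => hc (e ▸ IsConj.refl _))
    (fun b _ e => by
      rcases (mem_zpowers_two h2).1 e with e | e
      · exact mem_C1.2 (commutatorElement_eq_one_iff_mul_comm.1 e)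
      · obtain ⟨y, -, e'⟩ := h.exists_conj_z ht htz
        rw [commutatorElement_def, mul_inv_eq_iff_eq_mul, ← e'] at e
        exact absurd (isConj_iff.2 ⟨y⁻¹ * b, by
          rw [mul_inv_rev, mul_assoc y⁻¹, ← mul_assoc, mul_assoc y⁻¹, e]; group⟩) hc)
    (Y := C2) eCo2.toMonoidHom eCo2.surjective hY
    (fun g hg => let ⟨b, hb, e⟩ := mem_img.1 ((h.mem_img_cent h1 hU).2 (E2.of_eq hg)); ⟨b, hb.2, e⟩)
    (fun b hb g hp => by
      rw [MulEquiv.coe_toMonoidHom, map_eq_one_iff _ eCo2.injective]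
      refine ⟨fun e => ⟨b, ⟨(h.ker hp).2 (by rw [e]; exact one_mem _), hb⟩, by simp⟩,
        fun ⟨r, hr, e⟩ => ?_⟩
      rcases mem_center_Co0.1 ((h.ker hp).1 ((Q.mul_mem_cancel_left (Q.inv_mem hr.1)).1
        (zpowers_le.2 ht e))) with e | e
      · exact Subtype.ext e
      · exact absurd ((show g.1 • U = U from g.2).symm.trans (e ▸ negOne_smul U)) U_ne_neg)
    (fun x hx => h.cent_cent ht hx.1) (w := 11) (by norm_num)
    (by rw [h.card_cent ht htz, inf_of_le_left (zpowers_le.2 (mem_inf.2 ⟨ht, C1_self⟩)), Nat.card_zpowers, h2]; rfl)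
    (fun N _ hN => eq_bot_of_simple isCo2.2 (by norm_num) (q := 3) (by norm_num) (by norm_num)
      (by norm_num) N hN (S := Spor.Co2) (p := 2) )
    (fun b _ g hg hr => by
      rw [show g = 1 from Subtype.ext (eq_one_of_perpU g.2 fun x hx => ?_), map_one]
      obtain ⟨r, hv⟩ := h.ex x
      exact (h.rp_WU h1 h2 (h.of_E2 (h.mul (h.conj hg hv) (h.rp_inv hv)) (E2.sub _ _).symm)).2
        (.inl (hr r ⟨h.mem hv, (hp hv).2 hx⟩)))
    (h.exists_move hw ht h2 hc) rfl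
  let π := QuotientGroup.mk' ((zpowers t).subgroupOf C1(t))
  let Rq : Λ → R → Prop := fun x q => ∃ r : C1(t), Rp x r.1 ∧ π r = q.1.1
  have ex : ∀ x : leechPerpU, ∃ q, Rq x q := fun x => by
    obtain ⟨r, hr⟩ := h.ex x
    exact ⟨⟨⟨π ⟨r, (hp hr).2 x.2⟩, (k4 _).2 (h.le (h.mem hr))⟩, (k2 _).2 ⟨_, h.mem hr, rfl⟩⟩, _, hr, rfl⟩
  have mul : ∀ {x y q q'}, Rq x q → Rq y q' → Rq (x + y) (q * q') :=
    fun ⟨r, h1, e1⟩ ⟨r', h2, e2⟩ => ⟨r * r', h.mul h1 h2, by rw [map_mul, e1, e2]; rfl⟩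
  have inv : ∀ {x q}, Rq x q → Rq x q⁻¹ :=
    fun ⟨r, h1, e1⟩ => ⟨r⁻¹, h.rp_inv h1, by rw [map_inv, e1]; rfl⟩
  have cen : ∀ {x q}, Rq x q → (q ∈ center R ↔ x ∈ WU) := fun ⟨r, h3, e1⟩ => by
    rw [k3, ← e1, h.rp_WU h1 h2 h3, mem_zpowers_two k1.1]
    exact or_congr (QuotientGroup.eq_one_iff r) (eq_comm.trans QuotientGroup.eq)
  have key : ∀ {x : leechPerpU} {q}, Rq x q →
      (QuotientGroup.mk (ex x).choose : R ⧸ center R) = QuotientGroup.mk q := fun {x q} hq =>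
    QuotientGroup.eq.2 ((cen (mul (inv (ex x).choose_spec) hq)).2 (.inl (E2.zero_iff.2 (dbl_mem _))))
  refine ⟨_, R, hR, k1, e, fun x => QuotientGroup.mk (ex x).choose, fun x y => ?_, fun q => ?_,
    fun x => ?_, fun d g hg x y hxy q hq => ?_⟩
  · exact key (x := x + y) (mul (ex x).choose_spec (ex y).choose_spec)
  · obtain ⟨q, rfl⟩ := QuotientGroup.mk_surjective q
    obtain ⟨r, hr, e1⟩ := (k2 q.1).1 q.2
    obtain ⟨v, hv⟩ := h.surj hr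
    exact ⟨⟨v, (hp hv).1 r.2⟩, key ⟨r, hv, e1⟩⟩
  · rw [QuotientGroup.eq_one_iff, cen (ex x).choose_spec]
    exact or_congr (E2.zero_iff.trans mem_TwoL) ⟨E2.exists_eq, fun ⟨w, e⟩ => e ▸ E2.add_dbl _ w⟩
  · obtain ⟨d, hd⟩ := d
    obtain ⟨b, rfl⟩ := QuotientGroup.mk_surjective d
    obtain ⟨k, hk, hb⟩ := hY b b.2 ((k4 b).1 hd)
    rw [k5 b ⟨k, hk⟩ hd hb] at hg
    subst hg
    obtain ⟨r, h3, e1⟩ := (ex x).choose_spec
    have h4 : Rq y ⟨⟨_, hd⟩ * (ex x).choose * ⟨_, hd⟩⁻¹, hR.conj_mem _ (ex x).choose.2 _⟩ :=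
      ⟨b * r * b⁻¹, hxy ▸ h.conj hb h3, by rw [map_mul, map_mul, e1]; rfl⟩
    refine (key h4).trans (QuotientGroup.eq.2 ((k3 _).2 ?_))
    have h5 := (k3 _).1 (QuotientGroup.eq.1 hq)
    have h6 := conj_mem C1_le_N_zpowers hd h5
    convert h6 using 1
    simp only [coe_mul, coe_inv]; group

end MT
end H14
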