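import Cfsg.Agent.H14.Mons3
import Cfsg.Agent.H14.FixT

/-! Monster type: centralisers of elements of odd prime order. -/

set_option autoImplicit false

namespace H14
open Cfsg MulAction H18 H21 Subgroup
open scoped commutatorElement

theorem not_dvd_two_pow {p n : ℕ} (hp : p.Prime) (h2 : p ≠ 2) : ¬ p ∣ 2 ^ n := fun h =>
  h2 ((Nat.prime_dvd_prime_iff_eq hp Nat.prime_two).1 (hp.dvd_of_dvd_pow h))

theorem eq_one_of_sq_odd {G : Type*} [Group G] {u : G} {p : ℕ} (hp : Odd p) (h1 : u ^ p = 1) {n : ℕ}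
    (h2 : u ^ 2 ^ n = 1) : u = 1 := by
  rw [← orderOf_dvd_iff_pow_eq_one] at h1 h2
  exact orderOf_eq_one_iff.1 (Nat.eq_one_of_dvd_coprimes (hp.coprime_two_right.pow_right n) h1 h2)

theorem pow_of_mem_zpowers {G : Type*} [Group G] {a u : G} {p : ℕ} (h1 : a ^ p = 1) (hu : u ∈ zpowers a) :
    u ^ p = 1 := by
  obtain ⟨k, rfl⟩ := hu
  simp only [← zpow_natCast, ← zpow_mul, mul_comm k]
  rw [zpow_mul, zpow_natCast, h1, one_zpow]

namespace MT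
variable {G : Type*} [Group G] [Finite G] {z s t : G} {Q Q' B : Subgroup G}
  {P P' : Subgroup (G × Co0)} {Rp Rp' : Λ → G → Prop} (h : MT z Q P Rp) {v w : Λ} {x y a b r : G}
  {g k n : Co0} {p : ℕ}
include h

omit [Finite G] in
theorem center_of (h1 : (a, g) ∈ P) (h2 : (a, k) ∈ P) : k = g ∨ k = g * negOne := by
  have := mem_center_Co0.1 ((h.ker (h := a⁻¹ * a) (P.mul_mem (P.inv_mem h1) h2)).1 (by simp))
  exact this.imp (fun e => (inv_mul_eq_one.1 e).symm) inv_mul_eq_iff_eq_mul.1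

theorem pow_four (hx : x ∈ Q) : x ^ 2 ^ 2 = 1 := by
  rw [show 2 ^ 2 = 2 * 2 from rfl, pow_mul, sq x]
  rcases h.sq_mem hx with e | e <;> simp [e, sq, h.z_sq]

theorem lift_rel (hp : p.Prime) (h2 : p ≠ 2) (h1 : (x, g) ∈ P) (h3 : (y, k) ∈ P) (hx : x ^ p = 1)
    (hy : y ^ p = 1) (hn : g * n = n * k) : ∃ b, (b, n) ∈ P ∧ x * b = b * y := by
  obtain ⟨b, hb⟩ := h.snd n
  refine exists_intertwine (S := {s | (s, n) ∈ P}) (Set.toFinite _) hp ?_ hx hy fun s hs => ?_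
  · rw [show {s | (s, n) ∈ P} = (b * ·) '' Q from Set.ext fun s => ⟨fun hs => ⟨b⁻¹ * s, (h.ker
      (P.mul_mem (P.inv_mem hb) hs)).2 (by simp), by simp⟩, fun ⟨q, hq, e⟩ => by
        simpa [← e] using P.mul_mem hb (h.mem_one hq)⟩,
      Set.ncard_image_of_injective _ (mul_right_injective b), ← Nat.card_coe_set_eq, SetLike.coe_sort_coe, h.card]
    exact not_dvd_two_pow hp h2
  · have := P.mul_mem (P.mul_mem h1 hs) (P.inv_mem h3)
    rwa [Prod.mk_mul_mk, Prod.inv_mk, Prod.mk_mul_mk, hn, mul_inv_cancel_right] at this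

theorem exists_swap (hp : p.Prime) (h2 : p ≠ 2) (ha : a ^ p = 1) (haz : a ∈ C1(z)) (hax : a ∈ C1(x)) (hx : x ∈ Q)
    (h1 : x ∉ zpowers z) : ∃ y ∈ C1(a), y * x * y⁻¹ = x * z := by
  obtain ⟨y, ⟨hy, h3⟩, e⟩ := exists_intertwine (S := (Q : Set G) \ (Q ⊓ C1(x) : Subgroup G)) (Set.toFinite _) hp (by
    rw [Set.ncard_diff (SetLike.coe_subset_coe.2 inf_le_left), ← Nat.card_coe_set_eq, ← Nat.card_coe_set_eq, SetLike.coe_sort_coe,
      SetLike.coe_sort_coe, h.card, h.card_cent hx h1]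
    exact not_dvd_two_pow (n := 24) hp h2) ha ha fun s hs => ⟨conj_mem h.nml haz hs.1, fun e =>
      hs.2 ⟨hs.1, by simpa [mul_assoc] using mul_mem (mul_mem (inv_mem hax) e.2) hax⟩⟩
  have h4 := (h.comm_mem hy hx).resolve_left fun e =>
    h3 ⟨hy, mem_C1.2 (commutatorElement_eq_one_iff_mul_comm.1 e)⟩
  rw [commutatorElement_def, mul_inv_eq_iff_eq_mul] at h4
  exact ⟨y, mem_C1.2 e.symm, h4.trans (mem_C1.1 (h.le hx)).symm⟩

theorem exists_conj_cent (hp : p.Prime) (h2 : p ≠ 2) (ha : a ^ p = 1) (haz : a ∈ C1(z)) (has : a ∈ C1(s))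
    (hs : s ∈ Q) (hc : IsConj z s) (hne : s ≠ z) : ∃ y ∈ C1(a), y * z * y⁻¹ = s := by
  obtain ⟨u, rfl⟩ := isConj_iff.1 hc
  have h' := h.cj u
  obtain ⟨y, hy, e⟩ := h.exists_swap hp h2 ha haz has hs (h.not_mem_zp h' hne)
  obtain ⟨y', hy', e'⟩ := h'.exists_swap hp h2 ha has haz (h.symm_mem h' hs hne) (h'.not_mem_zp h hne.symm)
  refine ⟨y⁻¹ * y', mul_mem (inv_mem hy) hy', ?_⟩
  rw [mul_inv_rev, mul_assoc y⁻¹, ← mul_assoc, mul_assoc y⁻¹, e', ← mem_C1.1 (h.le hs), ← e]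
  group

omit [Finite G] in
theorem mem_cent_iff (hp : Odd p) (ha : a ^ p = 1) (h1 : (a, g) ∈ P) (hr : Rp v r) : r ∈ C1(a) ↔ CF g v := by
  refine ⟨fun e => (h.iff (h.conj h1 hr) hr).2 (by rw [conj_eq_self_of_C1 (mem_C1_comm.1 e)]; simp),
    fun e => mem_C1_comm.1 ?_⟩
  rcases h.eq_or hr (h.of_E2 (h.conj h1 hr) e) with e | e
  · exact mem_C1.2 (mul_inv_eq_iff_eq_mul.1 e)
  · have h2 : a ^ 2 ∈ C1(r) := mem_C1.2 (mul_inv_eq_iff_eq_mul.1 (by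
      calc a ^ 2 * r * (a ^ 2)⁻¹ = a * (a * r * a⁻¹) * a⁻¹ := by rw [sq]; group
        _ = a * r * a⁻¹ * (a * z * a⁻¹) := (congrArg (a * · * a⁻¹) e).trans (by group)
        _ = r := by rw [e, conj_eq_self_of_C1 (h.memC h1), mul_assoc, h.z_sq, mul_one]))
    obtain ⟨m, rfl⟩ := hp
    have := pow_mem h2 (m + 1)
    rwa [← pow_mul, show 2 * (m + 1) = 2 * m + 1 + 1 by ring, pow_succ, ha, one_mul] at this

theorem ncard_fixed {d : ℕ} {b c : Fin d → Λ} (F : FX g b c) (hp : Odd p) (ha : a ^ p = 1) (h1 : (a, g) ∈ P)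
    (K : Set (Fin d → ZMod 2)) : {r | r ∈ C1(a) ∧ ∃ v, Rp v r ∧ kap c v ∈ K}.ncard = K.ncard * 2 := by
  classical
  let f : G → Fin d → ZMod 2 := fun r => if e : ∃ v, Rp v r then kap c e.choose else 0
  have hf : ∀ {v r}, Rp v r → f r = kap c v := fun {v r} hr =>
    (dif_pos ⟨v, hr⟩).trans (((h.iff (Exists.choose_spec (⟨v, hr⟩ : ∃ v, Rp v r)) hr).2 (by simp)).kap c)
  rw [ncard_eq_mul_image (Set.toFinite _) f (m := 2)]
  · congr 2
    ext k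
    refine ⟨fun ⟨r, ⟨_, v, hv, e⟩, e'⟩ => e' ▸ hf hv ▸ e, fun e => ?_⟩
    obtain ⟨r, hr⟩ := h.ex (bet b k)
    exact ⟨r, ⟨(h.mem_cent_iff hp ha h1 hr).2 (F.cbet k), _, hr, (F.kap_bet k).symm ▸ e⟩, (hf hr).trans (F.kap_bet k)⟩
  · rintro r ⟨hr, v, hv, e⟩
    refine Set.ncard_eq_two.2 ⟨r, r * z, by simpa using h.z_ne, Set.ext fun y => ⟨fun ⟨⟨hy, w, hw, _⟩, e'⟩ => ?_, ?_⟩⟩
    · rw [hf hw, hf hv, ← F.E2_iff ((h.mem_cent_iff hp ha h1 hw).1 hy) ((h.mem_cent_iff hp ha h1 hv).1 hr)] at e'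
      exact h.eq_or hv (h.of_E2 hw e')
    · rintro (rfl | rfl)
      · exact ⟨⟨hr, v, hv, e⟩, rfl⟩
      · exact ⟨⟨mul_mem hr (mem_C1_comm.1 (h.memC h1)), v, h.mul_z hv, e⟩, (hf (h.mul_z hv)).trans (hf hv).symm⟩

theorem eq_one_of_zp (hp : Odd p) (ha : a ^ p = 1) (hx : x ∈ zpowers a) (hQ : x ∈ Q) : x = 1 :=
  eq_one_of_sq_odd hp (pow_of_mem_zpowers ha hx) (h.pow_four hQ)

theorem odd_setting {d e : ℕ} {b c : Fin d → Λ} {T : Type*} [Group T] {τ : C1(g) →* T} (F : FT g b c τ)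
    (hT : NoO2 T) (hd : d = 2 * e) (he : e ≠ 0) (hp : p.Prime) (h2 : p ≠ 2) (ha : a ^ p = 1) (hg : g ^ p = 1)
    (h1 : (a, g) ∈ P) (has : a ∈ C1(s)) (hs : s ∈ Q) (hc : IsConj z s) (hne : s ≠ z)
    [((zpowers a).subgroupOf C(zpowers a)).Normal] : ∃ hz : z ∈ C(zpowers a),
    ∃ (R : Subgroup C1((QuotientGroup.mk ⟨z, hz⟩ : C(zpowers a) ⧸ (zpowers a).subgroupOf C(zpowers a))))
      (_ : R.Normal), IsExtraspecialCentralizerSetting _ R e ∧
      (∀ x, x ∈ R ↔ ∃ r : C(zpowers a), r.1 ∈ Q ∧ QuotientGroup.mk r = x.1) ∧ Nonempty (_ ⧸ R ≃* T) := by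
  have ho := hp.odd_of_ne_two h2
  have hz : z ∈ C(zpowers a) := C_zpowers.ge (mem_C1_comm.1 (h.memC h1))
  have hr : ∀ {v r}, Rp v r → (r ∈ C(zpowers a) ↔ CF g v) := fun hv => by
    rw [C_zpowers]; exact h.mem_cent_iff ho ha h1 hv
  obtain ⟨R, hR, k1, k2, -, -, e, -⟩ := h.section_setting (H := C(zpowers a)) (A := zpowers a) hz
    (fun e => h.z_ne (h.eq_one_of_zp ho ha e h.zQ)) (fun b _ e => by
      rw [mem_C1, ← commutatorElement_eq_one_iff_mul_comm]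
      refine eq_one_of_sq_odd ho (pow_of_mem_zpowers ha e) (n := 1) ?_
      have h3 := mem_C.1 hz _ e
      calc ⁅b, z⁆ ^ 2 ^ 1 = ⁅b, z⁆ * z * (⁅b, z⁆ * z) := by
            rw [pow_one, sq, mul_assoc, ← mul_assoc z, ← h3, mul_assoc, h.z_sq, mul_one]
        _ = b * (z * z) * b⁻¹ := by rw [commutatorElement_def]; group
        _ = 1 := by simp [h.z_sq])
    τ F.surj (fun b hb hb' => by
      obtain ⟨y, hy⟩ := h.fst.1 hb'
      have h3 := P.mul_mem (P.mul_mem hy h1) (P.inv_mem hy)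
      rw [Prod.mk_mul_mk, Prod.inv_mk, Prod.mk_mul_mk, conj_eq_self_of_C1 (C_zpowers.le hb)] at h3
      refine ⟨y, mem_C1.2 (mul_inv_eq_iff_eq_mul.1 ((h.center_of h1 h3).resolve_right fun e => ?_)), hy⟩
      have := congrArg (· ^ p) e
      simp only [conj_pow, hg, (show Commute g negOne from negOne_comm g).mul_pow, mul_one, mul_inv_cancel,
        one_mul] at this
      exact negOne_ne_one (eq_one_of_sq_odd ho this.symm (n := 1) ((sq _).trans negOne_sq)))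
    (fun y hy => let ⟨b, hb, e⟩ := h.lift_rel hp h2 h1 h1 ha ha (mem_C1.1 hy).symm
      ⟨b, C_zpowers.ge (mem_C1.2 e.symm), hb⟩)
    (fun b hb y hy => ⟨fun e => by
        obtain ⟨m, hm⟩ := F.ker' y e
        have h3 := P.mul_mem hy (P.inv_mem (P.zpow_mem (h.mul_neg h1) m))
        rw [Prod.pow_mk, Prod.inv_mk, Prod.mk_mul_mk, show (g * negOne) ^ m = y from hm, mul_inv_cancel] at h3
        exact ⟨_, ⟨(h.ker h3).2 (one_mem _), C(zpowers a).mul_mem hb (inv_mem (zpow_mem (C_zpowers.ge C1_self) m))⟩,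
          by simp⟩,
      fun ⟨r, hr', e⟩ => (F.ker y).2 fun x hx => by
        obtain ⟨q, hq⟩ := h.ex x
        have h3 := h.conj (h := r⁻¹ * b) (g := y) (by simpa using P.mul_mem (P.inv_mem (h.mem_one hr'.1)) hy) hq
        rw [conj_eq_self_of_C1 (mem_C1.2 (mem_C.1 ((hr hq).2 hx) _ e))] at h3
        exact (h.iff h3 hq).2 (by simp)⟩)
    (fun x hx hy => by
      obtain ⟨v, hv⟩ := h.surj hx.1
      rcases h.mem_zp.1 ((h.mem_zp_iff hv).2 (F.inj v ((hr hv).1 hx.2) (funext fun j => by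
        obtain ⟨y, hy'⟩ := h.ex (c j)
        exact bf2_eq_zero.2 ((h.comm_iff hv hy').1 (hy y ⟨h.mem hy', (hr hy').2 (F.cc j)⟩))))) with e | e <;>
      simp [e])
    he (by
      rw [show zpowers a ⊓ (Q ⊓ C(zpowers a)) = ⊥ from (eq_bot_iff_forall _).2 fun x hx =>
        h.eq_one_of_zp ho ha hx.1 hx.2.1, card_bot, mul_one, pow_succ, ← hd]
      have := h.ncard_fixed F.1 ho ha h1 Set.univ
      rw [Set.ncard_univ, Nat.card_fun, Nat.card_zmod, Nat.card_eq_fintype_card, Fintype.card_fin] at this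
      rw [← this, ← Nat.card_coe_set_eq]
      exact Nat.card_congr (Equiv.subtypeEquivRight fun x => ⟨fun hx => ⟨C_zpowers.le hx.2,
        let ⟨v, hv⟩ := h.surj hx.1; ⟨v, hv, trivial⟩⟩, fun ⟨hx, v, hv, _⟩ => ⟨h.mem hv, C_zpowers.ge hx⟩⟩))
    hT (fun b _ y hy hb => (F.ker y).2 fun x hx => by
      obtain ⟨q, hq⟩ := h.ex x
      have h3 := h.eq_one_of_zp ho ha (hb q ⟨h.mem hq, (hr hq).2 hx⟩)
        (mul_mem (conj_mem h.nml (h.memC hy) (h.mem hq)) (inv_mem (h.mem hq)))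
      exact (h.iff (h.conj hy hq) hq).2 (by rw [mul_inv_eq_one.1 h3]; simp))
    (let ⟨y, hy, e⟩ := h.exists_conj_cent hp h2 ha (h.memC h1) has hs hc hne;
      ⟨y, C_zpowers.ge hy, e ▸ hs, e ▸ hne⟩) rfl
  exact ⟨hz, R, hR, k1, k2, ⟨e⟩⟩

end MT
end H14
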