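import Cfsg.Agent.H14.Mons4
import Cfsg.Agent.H14.Fx5
import Cfsg.Agent.H14.Fx7
import Cfsg.Agent.H14.FxA
import Cfsg.Agent.H14.FxB

/-! Monster type: the Harada–Norton, Thompson, Fischer and Held sections. -/

set_option autoImplicit false

namespace H14
open Cfsg MulAction H18 H21 Subgroup
open scoped commutatorElement

theorem C_pair_eq {G : Type*} [Group G] (z s : G) : centralizer ({z, s} : Set G) = C1(z) ⊓ C1(s) := by
  ext; simp [mem_centralizer_iff]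

theorem zpowers_of_prime {G : Type*} [Group G] {B : Subgroup G} {p : ℕ} (hp : p.Prime) (h : Nat.card B = p)
    {a : G} (ha : a ∈ B) (h1 : a ≠ 1) : B = zpowers a ∧ a ^ p = 1 := by
  have : Finite B := Nat.finite_of_card_ne_zero (h ▸ hp.ne_zero)
  have h2 := (Nat.dvd_prime hp).1 (h ▸ card_dvd_of_le (zpowers_le.2 ha))
  rw [card_eq_one, zpowers_eq_bot] at h2
  exact ⟨(eq_of_le_of_card_ge (zpowers_le.2 ha) (h.trans (h2.resolve_left h1).symm).le).symm,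
    h ▸ congrArg Subtype.val (pow_card_eq_one' (x := (⟨a, ha⟩ : B)))⟩

section pi
variable {L M : Type*} [Group L] [Finite L] [Group M] {π : L →* M} (hs : Function.Surjective π)
  (hk : IsPGroup 2 π.ker) {p : ℕ} (hp : p.Prime) (h2 : p ≠ 2)
include hs hk hp h2

theorem fact_eq {k m : ℕ} (hM : Nat.card M = p ^ k * m) (hm : ¬ p ∣ m) : (Nat.card L).factorization p = k := by
  obtain ⟨n, hn⟩ := hk.exists_card_eq
  have h0 : m ≠ 0 := fun e => hm (e ▸ dvd_zero p)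
  rw [← π.ker.card_mul_index, index_ker, MonoidHom.range_eq_top.2 hs, card_top, hM, hn, mul_left_comm,
    Nat.factorization_mul (pow_ne_zero _ hp.ne_zero) (by positivity), Finsupp.add_apply, hp.factorization_pow,
    Nat.factorization_eq_zero_of_not_dvd fun e => ((hp.dvd_mul).1 e).elim (not_dvd_two_pow hp h2) hm]
  simp

omit hs in
theorem map_ne_one {a : L} (ha : a ^ p = 1) (h1 : a ≠ 1) : π a ≠ 1 := fun e => by
  obtain ⟨n, hn⟩ := hk ⟨a, e⟩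
  exact h1 (eq_one_of_sq_odd (hp.odd_of_ne_two h2) ha (congrArg Subtype.val hn))

theorem central_iff {k m : ℕ} (hM : Nat.card M = p ^ k * m) (hm : ¬ p ∣ m) {a : L} (ha : a ^ p = 1) :
    (∃ P : Sylow p L, zpowers a ≤ (center P).map (P : Subgroup L).subtype) ↔ p ^ k ∣ Nat.card C1(π a) := by
  have := Fact.mk hp
  have h0 : ∀ P : Sylow p L, Nat.card P = p ^ k := fun P => by
    rw [P.card_eq_multiplicity, fact_eq hs hk hp h2 hM hm]
  constructor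
  · rintro ⟨P, hP⟩
    obtain ⟨x, hx, rfl⟩ := hP (mem_zpowers a)
    have h3 := H1.card_map_mul_card_inf_ker π P
    rw [disjoint_iff.1 (IsPGroup.disjoint_of_ne 2 p h2.symm _ _ hk P.isPGroup'), card_bot, mul_one, h0] at h3
    refine h3 ▸ card_dvd_of_le ?_
    rintro _ ⟨y, hy, rfl⟩
    rw [mem_C1, ← map_mul, ← map_mul]
    exact congrArg (fun u : P => π u) (mem_center_iff.1 hx ⟨y, hy⟩)
  · intro h
    have h3 : C1(π a) ≤ C1(a).map π := fun t ht => by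
      obtain ⟨l, rfl⟩ := hs t
      obtain ⟨n, hn⟩ := hk.exists_card_eq
      obtain ⟨s, h4, h5⟩ := exists_intertwine (S := (l * ·) '' π.ker) (Set.toFinite _) hp (by
        rw [Set.ncard_image_of_injective _ (mul_right_injective l), ← Nat.card_coe_set_eq, SetLike.coe_sort_coe, hn]
        exact not_dvd_two_pow hp h2) ha ha fun _ ⟨q, hq, e⟩ => ⟨l⁻¹ * (a * (l * q) * a⁻¹), by
          simp [show π q = 1 from hq, ← mem_C1.1 ht], by simp [← e]⟩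
      obtain ⟨q, hq, rfl⟩ := h4
      exact ⟨_, mem_C1.2 h5.symm, by simp [show π q = 1 from hq]⟩
    have h4 := h.trans ((card_dvd_of_le h3).trans (card_map_dvd _ _))
    obtain ⟨S, hS⟩ := (IsPGroup.comap_subtype (K := C1(a)) (H := zpowers a) fun x =>
      ⟨1, Subtype.ext (by simpa using pow_of_mem_zpowers ha x.2)⟩).exists_le_sylow
    obtain ⟨P, hP⟩ := (S.isPGroup'.map C1(a).subtype).exists_le_sylow
    have h5 := eq_of_le_of_card_ge hP (by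
      rw [h0, card_map_of_injective (subtype_injective _), S.card_eq_multiplicity]
      exact Nat.pow_le_pow_right hp.pos ((hp.pow_dvd_iff_le_factorization Nat.card_pos.ne').1 h4))
    exact ⟨P, zpowers_le.2 ⟨⟨a, hP ⟨⟨a, C1_self⟩, hS (mem_zpowers a), rfl⟩⟩, mem_center_iff.2 fun y =>
      Subtype.ext (mem_C1.1 (map_subtype_le _ (h5.ge y.2))), rfl⟩⟩

end pi

namespace MT
variable {G : Type*} [Group G] [Finite G] {z s t : G} {Q Q' B : Subgroup G}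
  {P P' : Subgroup (G × Co0)} {Rp Rp' : Λ → G → Prop} (h : MT z Q P Rp) {v w : Λ} {x y a b r : G}
  {g k n : Co0} {p : ℕ}
include h

theorem exists_mon (h1 : Rp (fr none) s) (hx : x ∈ centralizer ({z, s} : Set G)) : ∃ g : Mon, (x, g.1) ∈ P := by
  rw [C_pair_eq] at hx
  obtain ⟨g, hg⟩ := h.fst.1 hx.1
  exact ⟨⟨g, h.img_eq_Mon h1 ▸ mem_img.2 ⟨x, hx, hg⟩⟩, hg⟩

theorem exists_pi (h1 : Rp (fr none) s) : ∃ π : centralizer ({z, s} : Set G) →* M24, Function.Surjective π ∧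
    IsPGroup 2 π.ker ∧ ∀ l (g : Mon), (l.1, g.1) ∈ P → π l = monH g := by
  let P₁ := P.comap ((centralizer ({z, s} : Set G)).subtype.prodMap Mon.subtype)
  let α := (MonoidHom.fst _ _).comp P₁.subtype
  have hα : Function.Surjective α := fun l => let ⟨g, hg⟩ := h.exists_mon h1 l.2; ⟨⟨(l, g), hg⟩, rfl⟩
  let π := α.liftOfSurjective hα ⟨monH.comp ((MonoidHom.snd _ _).comp P₁.subtype), fun x hx => monH_eq_one.2 (by
    rcases mem_center_Co0.1 ((h.ker x.2).1 (show x.1.1.1 ∈ Q by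
      rw [show x.1.1 = 1 from hx]; exact one_mem _)) with e | e
    exacts [(show x.1.2.1 = 1 from e) ▸ one_mem _, (show x.1.2.1 = _ from e) ▸ negOne_mem_Sg])⟩
  have hπ : ∀ l (g : Mon), (l.1, g.1) ∈ P → π l = monH g := fun l g hp =>
    α.liftOfRightInverse_comp_apply _ _ _ ⟨(l, g), hp⟩
  refine ⟨π, fun σ => ?_, fun l => ⟨3, Subtype.ext (Subtype.ext ?_)⟩, hπ⟩
  · obtain ⟨l, hl, e⟩ := mem_img.1 ((h.img_eq_Mon h1).ge (permH_mem σ))
    exact ⟨⟨l, (C_pair_eq z s).ge hl⟩, (hπ _ ⟨_, permH_mem σ⟩ e).trans (monH_permH σ)⟩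
  · obtain ⟨g, hg⟩ := h.exists_mon h1 l.1.2
    have h2 := P.mul_mem hg hg
    rw [Prod.mk_mul_mk, Sg_sq (monH_eq_one.1 ((hπ _ _ hg).symm.trans l.2))] at h2
    have h3 := h.pow_four ((h.ker h2).2 (one_mem _))
    rwa [← sq, ← pow_mul] at h3

theorem std_elt (h1 : Rp (fr none) s) (hp : p.Prime) (h2 : p ≠ 2) (ha : a ^ p = 1) {g : Mon} (hg : (a, g.1) ∈ P)
    {m σ : M24} (e : m * monH g * m⁻¹ = σ) : ∃ P Rp, MT z Q P Rp ∧ Rp (fr none) s ∧ (a, permH σ) ∈ P := by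
  obtain ⟨g', h3, h4, h5⟩ : ∃ g' : Mon, (a, g'.1) ∈ P ∧ g'.1 ^ p = 1 ∧ monH g' = monH g := by
    have h3 := P.pow_mem hg p
    rw [Prod.pow_mk, ha] at h3
    rcases mem_center_Co0.1 ((h.ker h3).1 (one_mem _)) with e | e
    · exact ⟨g, hg, e, rfl⟩
    · obtain ⟨k, rfl⟩ := hp.odd_of_ne_two h2
      refine ⟨g * ⟨negOne, Sg_le_Mon negOne_mem_Sg⟩, h.mul_neg hg, ?_, by
        rw [map_mul, (monH_eq_one (g := ⟨negOne, _⟩)).2 negOne_mem_Sg, mul_one]⟩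
      rw [coe_mul, (show Commute g.1 negOne from negOne_comm g).mul_pow, e, ← pow_succ',
        show 2 * k + 1 + 1 = 2 * (k + 1) from rfl, pow_mul, sq, negOne_sq, one_pow]
  obtain ⟨u, hu, h6⟩ := exists_conj_permH hp h2 h4
  refine ⟨_, _, h.twist (u * (permH m)⁻¹), h.of_E2 h1 ((mem_Mon_iff_E2 _).1
    (mul_mem (Sg_le_Mon hu) (inv_mem (permH_mem m)))).symm, ?_⟩
  show (a, u * (permH m)⁻¹ * permH σ * (u * (permH m)⁻¹)⁻¹) ∈ P
  rw [← e, map_mul, map_mul, map_inv, ← h5, ← h6]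
  convert h3 using 2; group

theorem std_sylow (hs : s ∈ Q) (hc : IsConj z s) (hne : s ≠ z) (hp : p.Prime) (h2 : p ≠ 2) {m : ℕ}
    (hM : 244823040 = p ^ 1 * m) (hm : ¬ p ∣ m) {σ : M24} (hσ : orderOf σ = p)
    (hB : B ≤ centralizer ({z, s} : Set G))
    (hBp : Nat.card B = p ^ (Nat.card (centralizer ({z, s} : Set G))).factorization p) :
    ∃ a, B = zpowers a ∧ a ^ p = 1 ∧ a ≠ 1 ∧ a ∈ C1(s) ∧ ∃ P Rp, MT z Q P Rp ∧ Rp (fr none) s ∧ (a, permH σ) ∈ P := by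
  have := Fact.mk hp
  obtain ⟨u, hu⟩ := isConj_iff.1 hc
  obtain ⟨P, Rp, h, h1⟩ := h.exists_std (hu ▸ h.cj u) hs hne
  obtain ⟨π, h3, h4, h5⟩ := h.exists_pi h1
  rw [fact_eq h3 h4 hp h2 (card_M24.trans hM) hm, pow_one] at hBp
  obtain ⟨⟨a, ha⟩, h6⟩ := (B.ne_bot_iff_exists_ne_one).1 fun e => hp.ne_one (by rw [← hBp, e, card_bot])
  have h7 : (⟨a, hB ha⟩ : centralizer ({z, s} : Set G)) ^ p = 1 :=
    Subtype.ext (zpowers_of_prime hp hBp ha fun e => h6 (Subtype.ext e)).2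
  obtain ⟨g, -, k, hk⟩ := cls_of_sylow (H := ⊤) (X := zpowers (π ⟨a, hB ha⟩)) (k := 1) le_top (by
    rw [Nat.card_zpowers, pow_one]
    exact orderOf_eq_prime (by rw [← map_pow, h7, map_one]) (map_ne_one h4 hp h2 h7 fun e =>
      h6 (Subtype.ext (congrArg Subtype.val e :)))) (card_top.trans (card_M24.trans hM)) hm (j := 1) (t := σ) trivial
    (by rw [pow_one, ← hσ, pow_orderOf_eq_one])
  simp only [← map_zpow] at hk
  have h8 : a ^ k ≠ 1 := fun e => hp.ne_one (by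
    rw [show (⟨a, hB ha⟩ : centralizer ({z, s} : Set G)) ^ k = 1 from Subtype.ext e, map_one, eq_comm,
      mul_inv_eq_one, mul_eq_left] at hk
    rw [← hσ, hk, orderOf_one])
  obtain ⟨e, h9⟩ := zpowers_of_prime hp hBp (zpow_mem ha k) h8
  obtain ⟨g', hg'⟩ := h.exists_mon h1 (hB (zpow_mem ha k))
  exact ⟨_, e, h9, h8, ((C_pair_eq z s).le (hB (zpow_mem ha k))).2, h.std_elt h1 hp h2 h9 hg' (m := g⁻¹) (by
    rw [← h5 ⟨_, hB (zpow_mem ha k)⟩ _ hg', show π ⟨_, _⟩ = _ from hk]; group)⟩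

theorem std_three (hs : s ∈ Q) (hc : IsConj z s) (hne : s ≠ z) (hB : B ≤ centralizer ({z, s} : Set G))
    (h3 : Nat.card B = 3) : ∃ a σ, B = zpowers a ∧ a ^ 3 = 1 ∧ a ∈ C1(s) ∧
      (∃ P Rp, MT z Q P Rp ∧ Rp (fr none) s ∧ (a, permH σ) ∈ P) ∧ (σ = ev M0.gen xA ∨ σ = ev M0.gen xB) ∧
      ((∃ P : Sylow 3 (centralizer ({z, s} : Set G)), B.subgroupOf _ ≤ (center P).map
        (P : Subgroup (centralizer ({z, s} : Set G))).subtype) ↔ 27 ∣ Nat.card C1(σ)) := by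
  obtain ⟨u, hu⟩ := isConj_iff.1 hc
  obtain ⟨P, Rp, h, h1⟩ := h.exists_std (hu ▸ h.cj u) hs hne
  obtain ⟨π, h3', h4, h5⟩ := h.exists_pi h1
  obtain ⟨⟨a, ha⟩, h6⟩ := (B.ne_bot_iff_exists_ne_one).1 fun e => by simp [e] at h3
  obtain ⟨rfl, h7⟩ := zpowers_of_prime Nat.prime_three h3 ha fun e => h6 (Subtype.ext e)
  have h8 : (⟨a, hB ha⟩ : centralizer ({z, s} : Set G)) ^ 3 = 1 := Subtype.ext h7
  obtain ⟨σ, hσ, m, e⟩ : ∃ σ, (σ = ev M0.gen xA ∨ σ = ev M0.gen xB) ∧ ∃ m, m * π ⟨a, hB ha⟩ * m⁻¹ = σ :=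
    (cls3 (orderOf_eq_prime (by rw [← map_pow, h8, map_one]) (map_ne_one h4 Nat.prime_three (by norm_num) h8
      fun e => h6 (Subtype.ext (congrArg Subtype.val e :))))).elim (fun e => ⟨_, .inl rfl, e.2⟩) fun e => ⟨_, .inr rfl, e.2⟩
  obtain ⟨g, hg⟩ := h.exists_mon h1 (hB ha)
  refine ⟨a, σ, rfl, h7, ((C_pair_eq z s).le (hB ha)).2, h.std_elt h1 Nat.prime_three (by norm_num) h7 hg
    (h5 ⟨_, hB ha⟩ _ hg ▸ e), hσ, ?_⟩
  rw [show (zpowers a).subgroupOf _ = zpowers (⟨a, hB ha⟩ : centralizer ({z, s} : Set G)) by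
    rw [← comap_map_eq_self_of_injective (subtype_injective _) (zpowers _), MonoidHom.map_zpowers]; rfl,
    central_iff h3' h4 Nat.prime_three (by norm_num) (k := 3) (m := 9067520) card_M24 (by norm_num) h8,
    Nat.card_congr (conjEquiv m (card_cent_conj e)).toEquiv]; rfl

theorem hn_type (hs : s ∈ Q) (hc : IsConj z s) (hne : s ≠ z) (hB : B ≤ centralizer ({z, s} : Set G))
    (hBp : Nat.card B = 5 ^ (Nat.card (centralizer ({z, s} : Set G))).factorization 5)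
    [(B.subgroupOf C(B)).Normal] : IsOfHaradaNortonType (C(B) ⧸ B.subgroupOf C(B)) := by
  obtain ⟨a, rfl, h1, -, h2, P, Rp, h, -, h3⟩ := h.std_sylow hs hc hne (by norm_num) (by norm_num) (m := 48964608)
    rfl (by norm_num) ord_y5 hB hBp
  obtain ⟨h4, τ, F⟩ := Fx5.ft
  obtain ⟨_, R, hR, k1, -, k2⟩ := h.odd_setting F h4 (e := 4) rfl (by norm_num) (by norm_num) (by norm_num) h1
    (Fx5.ord ▸ pow_orderOf_eq_one _) h3 h2 hs hc hne
  exact ⟨_, R, hR, k1, k2⟩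

theorem th_type (hs : s ∈ Q) (hc : IsConj z s) (hne : s ≠ z) (hB : B ≤ centralizer ({z, s} : Set G))
    (h3 : Nat.card B = 3) (hn : ¬ ∃ P : Sylow 3 (centralizer ({z, s} : Set G)), B.subgroupOf _ ≤ (center P).map
        (P : Subgroup (centralizer ({z, s} : Set G))).subtype)
    [(B.subgroupOf C(B)).Normal] : IsOfThompsonType (C(B) ⧸ B.subgroupOf C(B)) := by
  obtain ⟨a, σ, rfl, h1, h2, ⟨P, Rp, h, -, h3⟩, rfl | rfl, h5⟩ := h.std_three hs hc hne hB h3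
  · exact absurd (h5.2 (cardCxA ▸ by norm_num)) hn
  obtain ⟨h4, τ, F⟩ := FxB.ft
  obtain ⟨_, R, hR, k1, -, k2⟩ := h.odd_setting F h4 (e := 4) rfl (by norm_num) (by norm_num) (by norm_num) h1
    (FxB.ord ▸ pow_orderOf_eq_one _) h3 h2 hs hc hne
  exact ⟨_, R, hR, k1, k2⟩

theorem fi_type (hs : s ∈ Q) (hc : IsConj z s) (hne : s ≠ z) (hB : B ≤ centralizer ({z, s} : Set G))
    (h3 : Nat.card B = 3) (hn : ∃ P : Sylow 3 (centralizer ({z, s} : Set G)), B.subgroupOf _ ≤ (center P).map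
        (P : Subgroup (centralizer ({z, s} : Set G))).subtype)
    [(B.subgroupOf C(B)).Normal] : IsOfLargeFischerType (C(B) ⧸ B.subgroupOf C(B)) := by
  obtain ⟨a, σ, rfl, h1, h2, ⟨P, Rp, h, -, h3⟩, rfl | rfl, h5⟩ := h.std_three hs hc hne hB h3
  swap
  · exact absurd (cardCxB ▸ h5.1 hn) (by norm_num)
  obtain ⟨F, h6, h4⟩ := FxA.ft
  obtain ⟨_, R, hR, k1, -, ⟨e⟩⟩ := h.odd_setting F h4 (e := 6) rfl (by norm_num) (by norm_num) (by norm_num) h1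
    (FxA.ord ▸ pow_orderOf_eq_one _) h3 h2 hs hc hne
  have := h6.comap (e.toMonoidHom.comp (QuotientGroup.mk' R)) (e.surjective.comp (QuotientGroup.mk'_surjective R))
  rw [show (e.toMonoidHom.comp (QuotientGroup.mk' R)).ker = R by ext; simp] at this
  exact ⟨_, R, hR, k1, this⟩

theorem he_type (hw : ∃ g, g * z * g⁻¹ ∈ Q ∧ g * z * g⁻¹ ≠ z) (hs : s ∈ Q) (hc : IsConj z s) (hne : s ≠ z)
    (hB : B ≤ centralizer ({z, s} : Set G))
    (hBp : Nat.card B = 7 ^ (Nat.card (centralizer ({z, s} : Set G))).factorization 7)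
    [(B.subgroupOf C(B)).Normal] : IsOfHeldType (C(B) ⧸ B.subgroupOf C(B)) := by
  obtain ⟨a, rfl, h1, -, h2, P, Rp, h, -, h3⟩ := h.std_sylow hs hc hne (by norm_num) (by norm_num) (m := 34974720)
    rfl (by norm_num) ord_y7 hB hBp
  obtain ⟨h4, τ, F⟩ := Fx7.ft
  obtain ⟨hz, R, hR, k1, k3, k2⟩ := h.odd_setting F h4 (e := 3) rfl (by norm_num) (by norm_num) (by norm_num) h1
    (Fx7.ord ▸ pow_orderOf_eq_one _) h3 h2 hs hc hne
  refine ⟨_, R, hR, k1, k2, ?_⟩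
  have ho : Odd 7 := by decide
  have h5 := h.ncard_fixed F.1 ho h1 h3 (TyK Fx7.g Fx7.c 64)
  have h6 : ∀ r : C(zpowers a), r.1 ∈ Q → (IsConj (QuotientGroup.mk ⟨z, hz⟩ : _ ⧸ (zpowers a).subgroupOf C(zpowers a))
      (QuotientGroup.mk r) ↔ r.1 = z ∨ ∃ v, Rp v r ∧ kap Fx7.c v ∈ TyK Fx7.g Fx7.c 64) := fun r hr => by
    rw [isConj_iff, QuotientGroup.mk_surjective.exists, or_iff_not_imp_left]
    constructor
    · rintro ⟨y, e⟩ hne
      have e1 : (y.1 * z * y.1⁻¹)⁻¹ * r ∈ zpowers a := by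
        rw [← QuotientGroup.mk_inv, ← QuotientGroup.mk_mul, ← QuotientGroup.mk_mul, QuotientGroup.eq] at e
        exact e
      have e2 := eq_one_of_sq_odd ho (pow_of_mem_zpowers h1 e1) (n := 2) (by
        have e3 := h.pow_four hr
        rw [← mul_inv_cancel_left (y.1 * z * y.1⁻¹) r, (show Commute (y.1 * z * y.1⁻¹) _ from
          (mem_C.1 (mul_mem (mul_mem y.2 hz) (inv_mem y.2)) _ e1).symm).mul_pow, conj_pow, h.pow_four h.zQ] at e3
        simpa using e3)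
      obtain ⟨v, hv⟩ := h.surj hr
      obtain ⟨w, h7, h8⟩ := h.conj_type4 hv (isConj_iff.2 ⟨y, inv_mul_eq_one.1 e2⟩) hne
      exact ⟨w, h8, w, (h.mem_cent_iff ho h1 h3 h8).1 (C_zpowers.le r.2), h7, rfl⟩
    · intro e
      by_cases hne : r.1 = z
      · exact ⟨1, by simp [show r = ⟨z, hz⟩ from Subtype.ext hne]⟩
      obtain ⟨v, hv, x, h7, h8, h9⟩ := e hne
      obtain ⟨y, hy, e'⟩ := h.exists_conj_cent (by norm_num) (by norm_num) h1 (h.memC h3)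
        (mem_C1_comm.1 (C_zpowers.le r.2)) hr (h.conj_of_type4 hw (h.of_E2 hv ((F.E2_iff
          ((h.mem_cent_iff ho h1 h3 hv).1 (C_zpowers.le r.2)) h7).2 h9.symm)) h8).1 hne
      exact ⟨⟨y, C_zpowers.ge hy⟩, congrArg QuotientGroup.mk (Subtype.ext e' : (⟨y, _⟩ * ⟨z, hz⟩ * ⟨y, _⟩⁻¹ : C(zpowers a)) = r)⟩
  rw [← Set.ncard_image_of_injective _ Subtype.val_injective, show Subtype.val '' _ = QuotientGroup.mk ''
    (Subtype.val ⁻¹' insert z {r | r ∈ C1(a) ∧ ∃ v, Rp v r ∧ kap Fx7.c v ∈ TyK Fx7.g Fx7.c 64} : Set C(zpowers a))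
    from ?_,
    Set.InjOn.ncard_image fun x hx y hy e => ?_, ← Set.ncard_image_of_injective _ Subtype.val_injective,
    Set.image_preimage_eq_of_subset ?_, Set.ncard_insert_of_notMem ?_, h5, Fx7.n4]
  · rintro ⟨-, v, hv, x, h7, h8, h9⟩
    exact (h.conj_of_type4 hw (h.of_E2 hv ((F.E2_iff ((h.mem_cent_iff ho h1 h3 hv).1 (C_zpowers.le hz)) h7).2
      h9.symm)) h8).2 rfl
  · rintro _ (rfl | e)
    exacts [⟨⟨_, hz⟩, rfl⟩, ⟨⟨_, C_zpowers.ge e.1⟩, rfl⟩]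
  · have key : ∀ x : C(zpowers a), x.1 ∈ insert z {r | r ∈ C1(a) ∧ ∃ v, Rp v r ∧ kap Fx7.c v ∈ TyK Fx7.g Fx7.c 64} →
        x.1 ∈ Q := fun x hx => hx.elim (fun e => e ▸ h.zQ) fun ⟨_, v, hv, _⟩ => h.mem hv
    exact Subtype.ext (inv_mul_eq_one.1 (h.eq_one_of_zp ho h1 (QuotientGroup.eq.1 e :)
      (mul_mem (inv_mem (key x hx)) (key y hy))))
  · ext x
    constructor
    · rintro ⟨x, ⟨hx, e⟩, rfl⟩
      obtain ⟨r, hr, e'⟩ := (k3 x).1 hx
      exact ⟨r, ((h6 r hr).1 (e' ▸ e)).imp_right fun e => ⟨C_zpowers.le r.2, e⟩, e'⟩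
    · rintro ⟨r, hr, rfl⟩
      have hq : r.1 ∈ Q := hr.elim (fun e => e ▸ h.zQ) fun ⟨_, v, hv, _⟩ => h.mem hv
      refine ⟨⟨_, mem_C1.2 (congrArg QuotientGroup.mk (Subtype.ext (mem_C1.1 (h.le hq)) :
        r * ⟨z, hz⟩ = ⟨z, hz⟩ * r))⟩, ⟨(k3 _).2 ⟨r, hq, rfl⟩, (h6 r hq).2 (hr.imp_right And.right)⟩, rfl⟩

end MT
end H14
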