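import Cfsg.Agent.H14.Mons5
import Mathlib.GroupTheory.FixedPointFree

/-! Monster type: the automizer of an element of order seven. -/

set_option autoImplicit false

namespace H14
open Cfsg MulAction H18 H21 Subgroup
open scoped commutatorElement

section setting
variable {X : Type*} [Group X] [Finite X] {z : X} {R : Subgroup C1(z)} [R.Normal] {w : ℕ}

theorem inverts_nml (N : Subgroup X) [N.Normal] {t : X} (ht : t * t = 1) (hc : ∀ x ∈ N, x ∈ C1(t) → x = 1)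
    {x : X} (hx : x ∈ N) : t * x * t⁻¹ = x⁻¹ :=
  congrArg Subtype.val (congrFun (MonoidHom.FixedPointFree.coe_eq_inv_of_involutive (φ := MulAut.conjNormal (H := N) t)
    (fun y e => Subtype.ext (hc _ y.2 (mem_C1.2 (mul_inv_eq_iff_eq_mul.1 (congrArg Subtype.val e :)).symm)))
    fun y => by rw [← MulAut.mul_apply, ← map_mul, ht, map_one, MulAut.one_apply]) ⟨x, hx⟩)

theorem mem_nml_of_setting (h : IsExtraspecialCentralizerSetting z R w) (N : Subgroup X) [hN : N.Normal]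
    (h1 : N ≠ ⊥) : z ∈ N := by
  obtain ⟨hz, hF, hE, -, g, ⟨hg, hgR⟩, hne⟩ := h
  obtain ⟨hE, -⟩ := (isExtraspecial_iff Nat.prime_two).1 hE
  have hC : ∀ x : C1(z), x ∈ C(R) → x ∈ R := fun x hx =>
    hF ▸ H17.centralizer_generalizedFittingSubgroup_le _ (hF ▸ hx :)
  have hz' : (⟨z, C1_self⟩ : C1(z)) ∈ C(R) := mem_C.2 fun y _ => Subtype.ext (mem_C1.1 y.2)
  have hz2 : z * z = 1 := by rw [← sq, ← hz, pow_orderOf_eq_one]
  have ho : orderOf (⟨z, C1_self⟩ : C1(z)) = 2 := (orderOf_coe _).symm.trans hz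
  have hZ : zpowers (⟨z, C1_self⟩ : C1(z)) = Z(R) := eq_of_le_of_card_ge (zpowers_le.2 ⟨hC _ hz', hz'⟩) (by
    rw [hE.card, Nat.card_zpowers, ho])
  by_contra hn
  have h2 : N.subgroupOf C1(z) ⊓ R = ⊥ := by_contra fun e =>
    hn (hE.Z_le_of_nml Nat.prime_two ⟨inf_le_right, (normalizer_eq_top _).ge.trans' le_top⟩ e ⟨hC _ hz', hz'⟩).1
  have h3 : ∀ x ∈ N, x ∈ C1(z) → x = 1 := fun x hx hc => congrArg Subtype.val (h2.le (x := ⟨x, hc⟩)
    ⟨hx, hC _ (mem_C.2 fun r hr => commutatorElement_eq_one_iff_mul_comm.1 (h2.le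
      ⟨commutator_le_right ⊤ _ (commutator_mem_commutator trivial hx),
        commutator_le_left _ ⊤ (commutator_mem_commutator hr trivial)⟩))⟩)
  have h4 : ∀ g, ∀ x ∈ N, (g * z * g⁻¹) * x * (g * z * g⁻¹)⁻¹ = x⁻¹ := fun g x hx =>
    inverts_nml N (by rw [conj_mul, hz2]; simp) (fun x hx hc => by
      have := h3 _ (hN.conj_mem' x hx g) (mem_C1.2 (by
        rw [← mul_left_inj g⁻¹, ← mul_right_inj g]; simpa [mul_assoc] using mem_C1.1 hc))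
      simpa using (conj_eq_one_iff (a := g⁻¹) (b := x)).1 (by simpa using this)) hx
  obtain ⟨y, hy, e⟩ : ∃ y ∈ R, y * ⟨_, hg⟩ * y⁻¹ = ⟨_, hg⟩ * ⟨z, C1_self⟩ := by
    have : (⟨_, hg⟩ : C1(z)) ∉ C(R) := fun e => by
      rcases (mem_zpowers_two ho).1 (hZ.ge ⟨hgR, e⟩) with e | e
      · exact absurd (conj_eq_one_iff.1 (congrArg Subtype.val e :)) (by rintro rfl; simp at hz)
      · exact hne (congrArg Subtype.val e)
    obtain ⟨y, hy, e⟩ : ∃ y ∈ R, y * ⟨_, hg⟩ ≠ ⟨_, hg⟩ * y := by simpa [mem_C] using this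
    rcases (mem_zpowers_two ho).1 (hZ.ge (hE.comm_mem hy hgR)) with e' | e'
    · exact absurd (commutatorElement_eq_one_iff_mul_comm.1 e') e
    · exact ⟨y, hy, by
        rw [show (⟨_, hg⟩ * ⟨z, C1_self⟩ : C1(z)) = ⟨z, C1_self⟩ * ⟨_, hg⟩ from Subtype.ext (mem_C1.1 hg), ← e',
          commutatorElement_def]; group⟩
  refine h1 (eq_bot_iff.2 fun x hx => h3 x hx (mem_C1.2 ?_))
  have e1 := h4 (y * g) x hx
  have e2 := h4 g x hx
  rw [show y.1 * g * z * (y.1 * g)⁻¹ = g * z * g⁻¹ * z from Eq.trans (by simp [mul_assoc]) (congrArg Subtype.val e),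
    ← e2, mul_inv_rev, ← mul_assoc, mul_left_inj, mul_assoc (g * z * g⁻¹), mul_assoc (g * z * g⁻¹), mul_right_inj,
    mul_inv_eq_iff_eq_mul] at e1
  exact e1.symm

theorem mem_layer_of_setting (h : IsExtraspecialCentralizerSetting z R w) {x y : X} (hx : IsConj z x)
    (hy : IsConj z y) (hn : x * y ≠ y * x) : z ∈ layer X := by
  refine mem_nml_of_setting h _ fun e => hn ?_
  have h1 : H17.fit (⊤ : Subgroup X) ≠ ⊥ := fun e' => hn (by
    have := H17.gfit_eq_bot_iff.1 (by rw [H17.gfit_eq, H17.lay_top, e, e', bot_sup_eq] : H17.gfit (⊤ : Subgroup X) = ⊥)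
    rw [mem_bot.1 (this.le (mem_top x)), one_mul, mul_one])
  have h2 := Nil.Z_ne_bot (H17.fit_nilpotent _) h1
  rw [H17.fit_top] at h2
  have h3 := mem_nml_of_setting h _ h2
  obtain ⟨a, rfl⟩ := isConj_iff.1 hx
  obtain ⟨b, rfl⟩ := isConj_iff.1 hy
  exact mem_C.1 (Normal.conj_mem inferInstance _ h3 b).2 _ (Normal.conj_mem inferInstance _ h3 a).1

end setting

theorem relIndex_six {G : Type*} [Group G] [Finite G] {a t b : G} (h7 : a ^ 7 = 1) (h1 : a ≠ 1)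
    (ht : t * a * t⁻¹ = a⁻¹) (hb : b * a * b⁻¹ = a ^ 2) : C(zpowers a).relIndex N(zpowers a) = 6 := by
  have ho : orderOf a = 7 := haveI := Fact.mk Nat.prime_seven; orderOf_eq_prime h7 h1
  have hn : ∀ {u : G} {k : ℤ}, u * a * u⁻¹ = a ^ k → u ∈ N(zpowers a) := fun {u k} e =>
    mem_normalizer_fintype fun x ⟨n, hn⟩ => hn ▸ ⟨k * n, by simp only [zpow_mul, ← e, conj_zpow]⟩
  have hd : ∀ (u : N(zpowers a)) {p : ℕ}, p.Prime → u.1 ^ p ∈ C1(a) → u.1 ∉ C1(a) →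
      p ∣ C(zpowers a).relIndex N(zpowers a) := fun u p hp e1 e2 => by
    have := Fact.mk hp
    rw [relIndex, index, ← orderOf_eq_prime (x := (QuotientGroup.mk u : _ ⧸ C(zpowers a).subgroupOf N(zpowers a))) (p := p)
      ((QuotientGroup.eq_one_iff (u ^ p)).2 (C_zpowers.ge e1)) fun e => e2 (C_zpowers.le ((QuotientGroup.eq_one_iff u).1 e))]
    exact orderOf_dvd_natCard _
  have h6 := card_dvd_of_injective _ (QuotientGroup.kerLift_injective (zpowers a).normalizerMonoidHom)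
  rw [normalizerMonoidHom_ker, ← index, ← relIndex, IsCyclic.card_mulAut, Nat.card_zpowers, ho] at h6
  have hp : ∀ {k : ℕ}, a ^ k = 1 → 7 ∣ k := fun e => ho ▸ orderOf_dvd_of_pow_eq_one e
  refine Nat.dvd_antisymm h6 (Nat.Coprime.mul_dvd_of_dvd_of_dvd (m := 2) (n := 3) (by norm_num)
    (hd ⟨t, hn (ht.trans (zpow_neg_one a).symm)⟩ Nat.prime_two (mem_C1.2 ?_) fun e => ?_)
    (hd ⟨b, hn (hb.trans (zpow_natCast a 2).symm)⟩ Nat.prime_three (mem_C1.2 ?_) fun e => ?_))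
  · rw [← mul_inv_eq_iff_eq_mul, show t ^ 2 * a * (t ^ 2)⁻¹ = t * (t * a * t⁻¹) * t⁻¹ by simp [pow_succ, mul_assoc], ht,
      ← conj_inv, ht, inv_inv]
  · rw [mem_C1.1 e, mul_inv_cancel_right, eq_inv_iff_mul_eq_one, ← sq] at ht
    exact absurd (hp ht) (by norm_num)
  · rw [← mul_inv_eq_iff_eq_mul, show b ^ 3 * a * (b ^ 3)⁻¹ = b * (b * (b * a * b⁻¹) * b⁻¹) * b⁻¹ by
      simp [pow_succ, mul_assoc], hb, ← conj_pow, hb, ← conj_pow, ← conj_pow, hb, ← pow_mul, ← pow_mul, pow_succ, h7, one_mul]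
  · rw [mem_C1.1 e, mul_inv_cancel_right, sq, left_eq_mul] at hb
    exact h1 hb

namespace MT
variable {G : Type*} [Group G] [Finite G] {z s t : G} {Q Q' B : Subgroup G}
  {P P' : Subgroup (G × Co0)} {Rp Rp' : Λ → G → Prop} (h : MT z Q P Rp) {v w : Λ} {x y a b r : G}
  {g k n : Co0} {p : ℕ}
include h

theorem exists_inv_Sg (h1 : Rp (fr none) s) (hc : IsConj z s) (hne : s ≠ z) (hg : g ∈ Sg) :
    ∃ b, (b, g) ∈ P ∧ b * b = 1 := by
  obtain ⟨u, rfl⟩ := isConj_iff.1 hc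
  have h' := h.cj u
  have hs := h.mem h1
  obtain ⟨b, hb, e⟩ := mem_img.1 ((h.img_eq_Sg h' hne h1).ge hg)
  by_cases h2 : b * b = 1
  · exact ⟨b, e, h2⟩
  obtain ⟨y, hy, h3⟩ : ∃ y ∈ Q ⊓ H18.cj u Q, y * b ≠ b * y := by
    by_contra! hc
    exact h2 (h.inter_sq h' hne ((h'.es.cent_eq_of_card Nat.prime_two (n := 12) h'.card (h.inter_abel h' hne) inf_le_right
      (h.card_inter h' hs hne)).le ⟨hb.1, mem_C.2 hc⟩))
  refine ⟨b * y, by simpa using P.mul_mem e (h.mem_one hy.1), sgz_eq_zero.1 ?_⟩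
  rw [h'.mul_sq hb.1 hy.2, h.inter_sq h' hne hy, sgz, sgz, sgz, if_neg h2, if_pos rfl,
    if_neg (mt commutatorElement_eq_one_iff_mul_comm.1 h3)]
  rfl

theorem exists_inverter (h1 : Rp (fr none) s) (hc : IsConj z s) (hne : s ≠ z) (h7 : a ^ 7 = 1) (h3 : (a, Fx7.g) ∈ P) :
    ∃ t, t * t = 1 ∧ t * a * t⁻¹ = a⁻¹ := by
  obtain ⟨k, hk⟩ := Fx7.t_sg
  have ht := Fx7.t_inv
  have hg : Fx7.g ^ 7 = 1 := Fx7.ord ▸ pow_orderOf_eq_one _
  generalize coOf Fx7.Rt Fx7.ht = n, Fx7.g = g at *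
  obtain ⟨b, hb, e⟩ := h.exists_inv_Sg h1 hc hne hk
  obtain ⟨c, hc⟩ := h.snd k
  obtain ⟨t, h4, h5⟩ : ∃ t, (t, n) ∈ P ∧ t * t = 1 := ⟨c * b * c⁻¹, by
    simpa [mul_assoc] using P.mul_mem (P.mul_mem hc hb) (P.inv_mem hc), by rw [conj_mul, e]; simp⟩
  have h6 : n * n = 1 := by simpa [mul_assoc, mul_eq_one_comm] using Sg_sq hk
  have h8 : (t * (a * t * a⁻¹), g ^ 5) ∈ P := by
    rw [show g ^ 5 = n * (g * n * g⁻¹) by rw [ht, ← mul_assoc, ← mul_assoc, h6]; group]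
    exact P.mul_mem h4 (P.mul_mem (P.mul_mem h3 h4) (P.inv_mem h3))
  have h9 := P.pow_mem h8 7
  rw [Prod.pow_mk, ← pow_mul, mul_comm 5, pow_mul g, hg, one_pow] at h9
  obtain ⟨q, -, e⟩ := h.lift_rel (n := 1) Nat.prime_seven (by norm_num) (show (_ ^ 4, (g ^ 5) ^ 4) ∈ P from P.pow_mem h8 4)
    (show (a ^ 20, g ^ 20) ∈ P from P.pow_mem h3 20) (by rw [← pow_mul, mul_comm 4, pow_mul]; exact h.pow_four ((h.ker h9).2 (one_mem _)))
    (by rw [← pow_mul, mul_comm, pow_mul, h7, one_pow]) (by simp [← pow_mul])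
  have e1 : t * (t * (a * t * a⁻¹)) * t⁻¹ = (t * (a * t * a⁻¹))⁻¹ := by
    rw [← mul_assoc, h5, one_mul, mul_inv_rev, conj_inv, inv_eq_of_mul_eq_one_right h5]
  have e2 : a = (q⁻¹ * (t * (a * t * a⁻¹)) ^ 4 * q) ^ 6 := by
    rw [mul_assoc, show (t * (a * t * a⁻¹)) ^ 4 * q = q * a ^ 20 from e, inv_mul_cancel_left, ← pow_mul,
      show 20 * 6 = 7 * 17 + 1 from rfl, pow_succ, pow_mul, h7, one_pow, one_mul]
  refine ⟨q⁻¹ * t * q, by simp [mul_assoc, ← mul_assoc t, h5], ?_⟩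
  generalize t * (a * t * a⁻¹) = y at e1 e2
  rw [e2, ← conj_pow, ← inv_pow, show q⁻¹ * t * q * (q⁻¹ * y ^ 4 * q) * (q⁻¹ * t * q)⁻¹ = q⁻¹ * (t * y * t⁻¹) ^ 4 * q by
    rw [conj_pow]; group, e1]
  group

theorem seven (hw : ∃ g, g * z * g⁻¹ ∈ Q ∧ g * z * g⁻¹ ≠ z) (hs : s ∈ Q) (hc : IsConj z s) (hne : s ≠ z)
    (hB : B ≤ centralizer ({z, s} : Set G))
    (hBp : Nat.card B = 7 ^ (Nat.card (centralizer ({z, s} : Set G))).factorization 7) :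
    C(B).relIndex N(B) = 6 ∧ ∃ t : G, orderOf t = 2 ∧ (∀ b ∈ B, t * b * t⁻¹ = b⁻¹) ∧
      (∀ x ∈ H17.lay C(B), t * x * t⁻¹ ∈ H17.lay C(B)) ∧
      ¬ ∃ l ∈ H17.lay C(B), ∀ x ∈ H17.lay C(B), t * x * t⁻¹ = l * x * l⁻¹ := by
  obtain ⟨a, rfl, h1, h0, h2, P, Rp, h, hr, h3⟩ := h.std_sylow hs hc hne (by norm_num) (by norm_num) (m := 34974720)
    rfl (by norm_num) ord_y7 hB hBp
  have hg : Fx7.g ^ 7 = 1 := Fx7.ord ▸ pow_orderOf_eq_one _
  have ho : Odd 7 := by decide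
  obtain ⟨t, ht, hta⟩ := h.exists_inverter hr hc hne h1 h3
  obtain ⟨b, -, hb⟩ := h.lift_rel (n := permH (ev M0.gen mu7)) Nat.prime_seven (by norm_num) 
    (show (a ^ 2, Fx7.g ^ 2) ∈ P from P.pow_mem h3 2) h3 (by rw [← pow_mul, mul_comm, pow_mul, h1, one_pow]) h1 (by rw [← map_pow, ← mu7_conj, ← map_mul, ← map_mul, inv_mul_cancel_right])
  have hti : ∀ b ∈ zpowers a, t * b * t⁻¹ = b⁻¹ := by
    rintro _ ⟨n, rfl⟩; rw [← conj_zpow, hta, inv_zpow]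
  have hcj : ∀ r ∈ Q, r ∈ C1(a) → IsConj z r → r ≠ z → ∃ y ∈ C(zpowers a), y * z * y⁻¹ = r := fun r e1 e2 e3 e4 =>
    C_zpowers (x := a) ▸ h.exists_conj_cent Nat.prime_seven (by norm_num) h1 (h.memC h3) (mem_C1_comm.1 e2) e1 e3 e4
  have hz : z ∈ H17.lay C(zpowers a) := by
    have : ((zpowers a).subgroupOf C(zpowers a)).Normal :=
      (normal_subgroupOf_iff_le_normalizer (zpowers_le.2 (C_zpowers.ge C1_self))).2 C_le_N
    obtain ⟨h4, τ, F⟩ := Fx7.ft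
    obtain ⟨hz, R, hR, k1, -, -⟩ := h.odd_setting F h4 (e := 3) rfl (by norm_num) (by norm_num) (by norm_num) h1
      hg h3 h2 hs hc hne
    obtain ⟨v, e1, e2, e3⟩ := Fx7.odd4
    obtain ⟨r, hv⟩ := h.ex v
    obtain ⟨y1, k2, k3⟩ := hcj s hs (mem_C1_comm.1 h2) hc hne
    obtain ⟨y2, k4, k5⟩ := hcj r (h.mem hv) ((h.mem_cent_iff ho h1 h3 hv).2 e1) (h.conj_of_type4 hw hv e2).1
      (h.conj_of_type4 hw hv e2).2
    have k6 := mem_layer_of_setting k1 (isConj_iff.2 ⟨QuotientGroup.mk ⟨y1, k2⟩, rfl⟩)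
      (isConj_iff.2 ⟨QuotientGroup.mk ⟨y2, k4⟩, rfl⟩) fun e => e3 ((h.comm_iff hr hv).1 (by
        simp only [← QuotientGroup.mk_inv, ← QuotientGroup.mk_mul, QuotientGroup.eq] at e
        have e' : (y1 * z * y1⁻¹ * (y2 * z * y2⁻¹))⁻¹ * (y2 * z * y2⁻¹ * (y1 * z * y1⁻¹)) ∈ zpowers a := e
        rw [k3, k5] at e'
        exact inv_mul_eq_one.1 (h.eq_one_of_zp ho h1 e' (mul_mem (inv_mem (mul_mem hs (h.mem hv))) (mul_mem (h.mem hv) hs)))))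
    rw [← H17.lay_top, ← map_top_of_surjective _ (QuotientGroup.mk'_surjective _), ← H17.map_lay_eq_of_central _ (by
      rw [QuotientGroup.ker_mk', inf_top_eq, commutator_eq_bot_iff_le_centralizer]
      exact fun x hx => mem_C.2 fun y _ => Subtype.ext (mem_C.1 y.2 _ hx).symm), H17.lay_top] at k6
    obtain ⟨e, k7, k8⟩ := k6
    have k9 : e.1⁻¹ * z ∈ zpowers a := (QuotientGroup.eq.1 k8 :)
    refine ⟨e ^ 7, pow_mem k7 7, ?_⟩
    have k10 : z ^ 7 = z := by rw [show 7 = 2 * 3 + 1 from rfl, pow_succ, pow_mul, sq, h.z_sq, one_pow, one_mul]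
    rw [← k10, ← mul_inv_cancel_left e.1 z, (show Commute e.1 _ from (mem_C.1 e.2 _ k9).symm).mul_pow,
      pow_of_mem_zpowers h1 k9, mul_one]; rfl
  refine ⟨relIndex_six h1 h0 hta (mul_inv_eq_iff_eq_mul.2 hb.symm), t, orderOf_eq_prime (by rw [sq, ht]) ?_, hti,
    fun x hx => ?_, ?_⟩
  · rintro rfl
    exact h0 (eq_one_of_sq_odd ho h1 (n := 1) (by rw [pow_one, sq, ← eq_inv_iff_mul_eq_one, ← hta]; simp))
  · exact (mem_normalizer_iff.1 (H17.normalizer_le_lay _ (N_le_N_C (mem_normalizer_fintype fun b hb =>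
      (hti b hb).symm ▸ inv_mem hb))) x).1 hx
  rintro ⟨l, hl, e⟩
  obtain ⟨y, k2, k3⟩ := hcj s hs (mem_C1_comm.1 h2) hc hne
  have k4 : ∀ x ∈ H17.lay C(zpowers a), x * (l⁻¹ * t) = l⁻¹ * t * x := fun x hx => by
    rw [mul_assoc l⁻¹, mul_inv_eq_iff_eq_mul.1 (e x hx)]; group
  obtain ⟨u, hu⟩ := h.exists_mon hr (x := l⁻¹ * t) (by
    rw [C_pair_eq]
    exact ⟨mem_C1.2 (k4 _ hz).symm, mem_C1.2 (k4 _ (k3 ▸ (mem_normalizer_iff.1 (H17.le_normalizer_lay _ k2) z).1 hz)).symm⟩)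
  have k5 : a * (l⁻¹ * t) = l⁻¹ * t * a ^ 6 := by
    rw [show a ^ 6 = a⁻¹ from eq_inv_of_mul_eq_one_left (by rw [← pow_succ, h1]), ← mul_assoc,
      ← mem_C1.1 (C_zpowers.le (inv_mem (H17.lay_le _ hl))), mul_assoc, mul_assoc, mul_right_inj,
      mul_inv_eq_iff_eq_mul.1 (hti _ (inv_mem (mem_zpowers a))), inv_inv]
  rcases h.center_of (k5 ▸ P.mul_mem h3 hu : (l⁻¹ * t * a ^ 6, Fx7.g * u.1) ∈ P) 
    (P.mul_mem hu (P.pow_mem h3 6) : (l⁻¹ * t * a ^ 6, u.1 * Fx7.g ^ 6) ∈ P) with e | e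
  · exact Fx7.nonreal u u.2 e.symm
  · have e' : Fx7.g ^ 6 = u.1⁻¹ * Fx7.g * u.1⁻¹⁻¹ * negOne := by
      rw [inv_inv, mul_assoc, mul_assoc, ← mul_assoc Fx7.g, ← e]; simp
    have := congrArg (· ^ 7) e'
    simp only [(show Commute _ negOne from negOne_comm _).mul_pow, conj_pow, hg, mul_one, mul_inv_cancel, one_mul] at this
    rw [← pow_mul, mul_comm, pow_mul, hg, one_pow] at this
    exact absurd (orderOf_negOne ▸ orderOf_dvd_of_pow_eq_one this.symm) (by norm_num)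

end MT
end H14
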