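import Cfsg.Agent.H14.Obj4

/-! The closure of an invariant set under a normalised group. -/

set_option autoImplicit false

namespace H14
open MulAction
open scoped Pointwise

namespace PM
variable {Γ Ω : Type*} [Group Γ] [MulAction Γ Ω] {n D : ℕ} {L : List Net} {M : PM Γ Ω n L}

theorem Inv.clos {A : Subgroup Γ} {ws : List Word} {Y : ℕ} (sc : List Word)
    (hA : A ≤ Subgroup.normalizer (sub M.gen ws : Set Γ)) (hY : M.Inv A Y)
    (h : invChk L ws (orbRun L ws sc Y) = true) : M.Inv A (orbRun L ws sc Y) := fun g hg x hx => by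
  obtain ⟨k, hk, y, hy, rfl⟩ := M.orb_sound _ _ _ hx
  rw [show g • k • y = (g * k * g⁻¹) • g • y by simp [mul_smul],
    M.inv_sound h ((Subgroup.mem_normalizer_iff.1 (hA hg) k).1 hk)]
  exact subs_orbRun _ _ _ _ _ (hY g hg y hy)

end PM
end H14

namespace H14
/-- The order of the normaliser of a Sylow subgroup from a rough bound and Sylow's congruence. -/
theorem PM.card_nml_le {Γ Ω : Type*} [Group Γ] [Finite Γ] [MulAction Γ Ω] {n : ℕ} {L : List Net}
    (M : PM Γ Ω n L) {p k m : ℕ} [hp : Fact p.Prime] {X : Subgroup Γ} (hX : Nat.card X = p ^ k)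
    (hG : Nat.card Γ = p ^ k * m) (c : Lv) {N N' : ℕ}
    (h1 : sub M.gen c.gens ≤ ⊤ ⊓ Subgroup.normalizer (X : Set Γ))
    (h2 : Nat.card (⊤ ⊓ Subgroup.normalizer (X : Set Γ) : Subgroup Γ) ≤ N')
    (h3 : (c.clChk L && (Nat.beq (c.val n L) N && (Nat.ble (Nat.succ N') (Nat.mul (Nat.succ p) N) &&
      (!Nat.beq (Nat.mod m p) 0 && Nat.beq (Nat.mod (Nat.div (Nat.mul (Nat.pow p k) m) N) p) 1)))) = true) :
    Nat.card (⊤ ⊓ Subgroup.normalizer (X : Set Γ) : Subgroup Γ) ≤ N := by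
  simp only [Bool.and_eq_true, beq_iff, Nat.ble_eq, Nat.mul_eq, Nat.succ_eq_add_one,
    Nat.pow_eq, Bool.not_eq_true', ← Bool.not_eq_true] at h3
  obtain ⟨h3, h4, h5, h6, h7⟩ := h3
  replace h6 : ¬ m % p = 0 := h6
  replace h7 : p ^ k * m / N % p = 1 := h7
  have hN : N ≠ 0 := by rintro rfl; omega
  obtain ⟨j, hj⟩ := (M.val_dvd c (by omega) h3).trans (Subgroup.card_dvd_of_le h1)
  obtain ⟨S, rfl⟩ := exists_sylow_eq hX hG (mt Nat.mod_eq_zero_of_dvd h6)
  rw [h4] at hj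
  rw [hj] at h2 ⊢
  rw [top_inf_eq] at hj
  have h8 := (Subgroup.normalizer ((S : Subgroup Γ) : Set Γ)).card_mul_index
  rw [hj, hG, show (Subgroup.normalizer ((S : Subgroup Γ) : Set Γ)).index = _ from
    S.card_eq_index_normalizer.symm, mul_assoc] at h8
  rw [← h8, Nat.mul_div_cancel_left _ (Nat.pos_of_ne_zero hN), Nat.mul_mod,
    show Nat.card (Sylow p Γ) % p = 1 from Eq.trans (card_sylow_modEq_one p Γ) (Nat.mod_eq_of_lt hp.out.one_lt),
    mul_one, Nat.mod_mod] at h7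
  have : j < p + 1 := Nat.lt_of_mul_lt_mul_left (a := N) (by rw [mul_comm N (p + 1)]; omega)
  rcases (Nat.lt_succ_iff.1 this).lt_or_eq with h | rfl
  · rw [Nat.mod_eq_of_lt h] at h7
    rw [h7, mul_one]
  · simp at h7
end H14
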