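import Cfsg.Agent.H14.Design3

/-! The projective plane of order four inside the Golay code. -/

set_option autoImplicit false
set_option maxRecDepth 100000
open Cfsg MulAction

namespace H14

open scoped Pointwise

/-- The pointwise stabiliser of an octad is transitive on the other points. -/
theorem exists_pw_smul {o : Finset GolayPt} (ho : o ∈ octads) {p q : GolayPt} (hp : p ∉ o)
    (hq : q ∉ o) : ∃ a : M24, (∀ x ∈ o, a • x = x) ∧ a • p = q := by
  obtain ⟨a, ha, e⟩ := Set.surj_on_of_inj_on_of_ncard_le (s := {g : M24 | ∀ x ∈ o, g • x = x})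
    (t := (oᶜ : Finset GolayPt)) (fun a _ => a • p) (fun a ha => by
      rw [Finset.mem_coe, Finset.mem_compl, ← smul_eq_of_pw ha, Finset.smul_mem_smul_finset_iff]
      exact hp) (fun a b ha hb e => by
      have := eq_one_of_pw ho (a := b⁻¹ * a) (fun x hx => by
        rw [mul_smul, ha x hx, inv_smul_eq_iff, hb x hx]) hp (by rw [mul_smul, e, inv_smul_smul])
      exact (inv_mul_eq_one.1 this).symm)
    (by rw [ncard_pw_octad ho, Set.ncard_coe_finset, Finset.card_compl, card_golayPt, ho.2])
    (Finset.finite_toSet _) q (by simpa using hq)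
  exact ⟨a, ha, e.symm⟩

/-- The lines. -/
abbrev D21 : Set (Finset GolayPt) := der octads 0x800003

/-- Octads meeting the three special points in two points. -/
def hypO : Set (Finset GolayPt) := {o | o ∈ octads ∧ (o ∩ bset 0x800003).card = 2}

theorem card_Y3 : (bset 0x800003).card = 3 := by decide +kernel

theorem ncard_hypO : hypO.ncard = 168 := by
  rw [← show cntCW (fun m => Nat.beq (p24 m) 8 && Nat.beq (p24 (Nat.land m 0x800003)) 2) = 168 by
    decide +kernel, ← ncard_CW (P := fun s => s.card = 8 ∧ (s ∩ bset 0x800003).card = 2)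
    fun m _ => by rw [← bset_and, card_bset, card_bset, Bool.and_eq_true, beq_iff, beq_iff]; rfl]
  congr 1
  ext s
  simp only [hypO, mem_octads, Set.mem_setOf_eq, and_assoc]

theorem card_sdiff_hypO {o : Finset GolayPt} (h : o ∈ hypO) : (o \ bset 0x800003).card = 6 := by
  have := Finset.card_sdiff_add_card_inter o (bset 0x800003)
  rw [h.2, h.1.2] at this
  omega

theorem line_inter_hypO {o l : Finset GolayPt} (h : o ∈ hypO) (hl : l ∈ D21) :
    (l ∩ (o \ bset 0x800003)).card ≤ 2 := by
  by_contra hc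
  have e : l ∩ (o \ bset 0x800003) = l ∩ o := by
    rw [← Finset.inter_sdiff_assoc, Finset.sdiff_eq_self_of_disjoint
      (hl.1.mono_left Finset.inter_subset_left)]
  have := octad_eq_of_card_inter hl.2 h.1 (by
    rw [Finset.union_inter_distrib_right, Finset.card_union_of_disjoint
      (hl.1.mono Finset.inter_subset_left Finset.inter_subset_left), Finset.inter_comm (bset _), h.2, ← e]
    omega)
  have h2 := h.2
  rw [← this, Finset.inter_eq_right.2 Finset.subset_union_right, card_Y3] at h2
  omega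

theorem exists_hypO {H : Finset GolayPt} (hX : H ⊆ bset 0x7ffffc) (h6 : H.card = 6)
    (h : ∀ l ∈ D21, (l ∩ H).card % 2 = 0) : ∃ o ∈ hypO, o \ bset 0x800003 = H := by
  obtain ⟨c, h1, rfl⟩ := forall_parK 0 0x7fe000
    [(21, 0x200f68, 0), (20, 0x1007b4, 0), (22, 0x401ed0, 0), (19, 0x80fac, 0), (18, 0x41904, 0), (17, 0x21250, 0), (15, 0x81b0, 0), (16, 0x11b8c, 0), (13, 0x2548, 0), (14, 0x527c, 0)]
    [[0x540060, 0x420c80, 0x50288, 0x330100], [0x2800c4, 0x180818, 0x540060, 0x420c80, 0x50288, 0x330100], [0x2800c4, 0x180818, 0x420c80, 0x50288, 0x330100, 0x41904], [0x2800c4, 0x540060, 0x420c80, 0x50288, 0x330100], [0x41904], [0x2800c4, 0x180818, 0x50288, 0x330100, 0x41904], [0x81b0], [0x50288, 0x41904], [0x2548], [0x180818, 0x540060, 0x484300, 0x41904]]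
    [0x4, 0x8, 0x10, 0x20, 0x40, 0x80, 0x100, 0x200, 0x400, 0x800, 0x1000] (m := 0x7ffffc)
    (fun c => !Nat.beq (p24 c) 6 || [3, 0x800001, 0x800002].any fun y => oct (Nat.lor c y))
    (fun c => Nat.beq (Nat.land c 0x800003) 0 && oct (Nat.lor c 0x800003))
    (by decide +kernel) (by decide +kernel) hX fun κ hκ => h _ (der_of oct_mem _ _ hκ)
  rw [← card_bset, h6, beq_iff.2 rfl, Bool.not_true, Bool.false_or, List.any_eq_true] at h1
  obtain ⟨y, hy, h1⟩ := h1
  have h2 : bset y ⊆ bset 0x800003 ∧ (bset y).card = 2 := by clear h1; revert y; decide +kernel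
  have h3 : Disjoint (bset c) (bset 0x800003) :=
    (show Disjoint (bset 0x7ffffc) (bset 0x800003) by decide +kernel).mono_left hX
  have h4 := oct_mem _ h1
  rw [show Nat.lor c y = c ||| y from rfl, bset_or] at h4
  refine ⟨_, ⟨h4, ?_⟩, ?_⟩
  · rw [Finset.union_inter_distrib_right, Finset.disjoint_iff_inter_eq_empty.1 h3, Finset.empty_union,
      Finset.inter_eq_left.2 h2.1, h2.2]
  · rw [Finset.union_sdiff_distrib, Finset.sdiff_eq_empty_iff_subset.2 h2.1, Finset.union_empty,
      Finset.sdiff_eq_self_of_disjoint h3]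

variable {α : Type*} [Fintype α] [DecidableEq α] {L : Set (Finset α)}

/-- A line meets a hyperoval in `0` or `2` points. -/
theorem hyperoval_ne_one (hα : Fintype.card α = 21) (hL : IsSteinerSystem 2 5 L) {H : Finset α}
    (h6 : H.card = 6) (h : ∀ l ∈ L, (l ∩ H).card ≤ 2) {l : Finset α} (hl : l ∈ L) :
    (l ∩ H).card ≠ 1 := by
  have e1 := steiner_sum hL hα h6 1 5
  have e2 := steiner_sum hL hα h6 2 1
  have z : ∀ i, 2 < i → nI (blk L) H i = 0 := fun i hi =>
    nI_eq_zero.2 fun c hc e => by have := h c (mem_blk.1 hc); omega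
  simp only [Finset.sum_range_succ, Finset.sum_range_zero, z 3 (by norm_num), z 4 (by norm_num),
    z 5 (by norm_num), z 6 (by norm_num), Nat.choose] at e1 e2
  exact inter_ne hl (by omega)

variable {f : α ↪ GolayPt}

theorem hyperoval_iff (hα : Fintype.card α = 21) (hL : IsSteinerSystem 2 5 L)
    (hf : Mod 0x7ffffc D21 L f) {H : Finset α} : (H.card = 6 ∧ ∀ l ∈ L, (l ∩ H).card ≤ 2) ↔
      ∃ o ∈ hypO, o \ bset 0x800003 = H.map f := by
  constructor
  · rintro ⟨h6, h⟩
    refine exists_hypO (hf.map_sub H) (by rw [Finset.card_map, h6]) (hf.forall_block.2 fun l hl => ?_)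
    have := hyperoval_ne_one hα hL h6 h hl
    have := h l hl
    rw [← Finset.map_inter, Finset.card_map]
    omega
  · rintro ⟨o, ho, e⟩
    refine ⟨by rw [← Finset.card_map f, ← e, card_sdiff_hypO ho], fun l hl => ?_⟩
    rw [← Finset.card_map f, Finset.map_inter, ← e]
    exact line_inter_hypO ho ((hf.mem l).1 hl)

end H14
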