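import Cfsg.Agent.H29.Q0

/-! Overgroups of `Ω₃(K)`: free actions (`pG1`) and the unipotent radical of a point stabiliser (`pG2`). -/

set_option autoImplicit false
set_option linter.unusedSectionVars false

namespace H14.Q3G

open Module H11 H11.PForm H29 H29.Q3

variable {F K V : Type*} [Field F] [Field K] [Algebra F K] [AddCommGroup V] [Module F V]
  [Module K V] [IsScalarTower F K V] [FiniteDimensional F V] {S : PForm (orthP F) V}

theorem pG1 : G1 S := fun T P h1 h2 => by
  letI : MulAction T P :=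
    { smul := fun t Z => ⟨Z.1.map (t.1.1 : V →ₗ[F] V), h1 _ t.2 _ Z.2⟩
      one_smul := fun Z => Subtype.ext (Submodule.map_id _)
      mul_smul := fun a b Z => Subtype.ext (Submodule.map_comp (b.1.1 : V →ₗ[F] V) (a.1.1 : V →ₗ[F] V) Z.1) }
  have := Nat.card_congr (MulAction.selfEquivOrbitsQuotientProd (G := T) (X := P) fun Z => eq_bot_iff.2 fun t ht =>
    Subtype.ext (h2 _ t.2 _ Z.2 fun z hz =>
      (show Z.1.map (t.1.1 : V →ₗ[F] V) = Z.1 from congrArg Subtype.val ht).le ⟨z, hz, rfl⟩))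
  rw [Nat.card_prod] at this
  exact Dvd.intro_left _ this.symm

variable [Finite F] [Finite K] {φ : Dual F K} {U : PForm (orthP K) V} {H : Subgroup S.Isom}

theorem ex_y (h : O3 φ U H) (u : V) (u0 : u ≠ 0) : ∃ y, U.h u y = 0 ∧ y ∉ K ∙ u := by
  haveI := h.toOX.fd
  by_contra! hn
  have a := Submodule.finrank_mono (show U.perp (K ∙ u) ≤ K ∙ u from fun y hy => hn y (U.mem_perp_singleton.1 hy))
  have b := le_finrank_ker_h U u
  rw [finrank_span_singleton u0] at a
  have := h.dim3
  omega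

theorem pG2 (h : O3 φ U H) : G2 U H := fun u hu u0 => by
  obtain ⟨y, y1, y2⟩ := ex_y h u u0
  have y3 : ∀ s : K, U.h u (s • y) = 0 := fun s => by simp [y1]
  choose t t1 t2 using fun s : K => h.hH _ (U.eich_mem_E u (s • y) (U.q (s • y)))
  let ψ : Multiplicative K →* S.Isom := MonoidHom.mk' (fun s => t s.toAdd) fun a b => isom_ext fun x => by
    rw [isom_mul_apply, t2, t2, t2, toAdd_mul, add_smul, orth_eich_add ((orth_sing U u).1 hu) (y3 _) (y3 _),
      isom_mul_apply]
  have k : ∀ s : K, s ≠ 0 → s • y ∉ K ∙ u := fun s hs e => y2 ((Submodule.smul_mem_iff _ hs).1 e)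
  refine ⟨ψ.range, by rintro _ ⟨s, rfl⟩; exact t1 _, ?_, ?_⟩
  · refine (Nat.card_congr (ψ.ofInjective ((injective_iff_map_eq_one ψ).2 fun s hs => ?_)).toEquiv).symm
    by_contra hn
    obtain ⟨x, hx⟩ := h.toOX.ndK.exists_h_eq_one u0
    have e : (t s.toAdd).1 x = x := by rw [show t s.toAdd = 1 from hs]; rfl
    rw [t2, eich_apply (ECond.of_q hu (y3 _)), hx, one_smul, sub_eq_iff_eq_add, add_right_inj] at e
    exact k _ hn (e ▸ Submodule.smul_mem _ _ (Submodule.mem_span_singleton_self u))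
  · rintro _ ⟨s, rfl⟩
    refine ⟨fun a => ?_, ?_⟩
    · show (t s.toAdd).1 _ = _
      rw [t2, eich_apply (ECond.of_q hu (y3 _))]
      simp [hu.h_self, U.h_swap_zero y1]
    · by_cases e : s = 1
      · exact Or.inl (e ▸ map_one ψ)
      · exact Or.inr ⟨_, y3 _, k _ e, t2 _⟩

end H14.Q3G
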