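import Cfsg.Agent.H29.Q0

/-! Overgroups of `Ω₃(K)`: counting the members through a vector (`pG3`, `pG4`). -/

set_option autoImplicit false
set_option linter.unusedSectionVars false

namespace H14.Q3G

open Module H11 H11.PForm H29 H29.Q3

variable {F K V : Type*} [Field F] [Field K] [Algebra F K] [AddCommGroup V] [Module F V]
  [Module K V] [IsScalarTower F K V] [FiniteDimensional F V] {S : PForm (orthP F) V}
  [Finite F] [Finite K] {φ : Dual F K} {U : PForm (orthP K) V} {H : Subgroup S.Isom}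

theorem pG3 (h : O3 φ U H) : G3 U H := fun u u0 hM => by
  classical
  haveI := h.toOX.fd
  haveI : Finite V := Module.finite_of_finite F
  haveI := Fintype.ofFinite {Z | KM U H Z ∧ u ∈ Z}
  have c1 : ∀ Z : {Z | KM U H Z ∧ u ∈ Z}, Nat.card ((Z.1 : Set V) \ (F ∙ u : Submodule F V) : Set V) =
      Nat.card K - Nat.card F := fun Z => by
    rw [Nat.card_coe_set_eq, Set.ncard_diff ((Submodule.span_singleton_le_iff_mem u Z.1).2 Z.2.2),
      ← Nat.card_coe_set_eq, ← Nat.card_coe_set_eq, SetLike.coe_sort_coe, SetLike.coe_sort_coe,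
      natCard_eq_pow_finrank (K := F), natCard_eq_pow_finrank (K := F) (V := (F ∙ u : Submodule F V)),
      finrank_span_singleton u0, Z.2.1.finrank, pow_one, ← natCard_eq_pow_finrank]
  have c2 := Nat.card_le_card_of_injective
    (fun p : (Σ Z : {Z | KM U H Z ∧ u ∈ Z}, ((Z.1 : Set V) \ (F ∙ u : Submodule F V) : Set V)) =>
      (⟨p.2.1, S.mem_perp_singleton.2 (h.toOX.ts p.1.2.1 p.1.2.2 p.2.2.1)⟩ : S.perp (F ∙ u))) (by
    rintro ⟨Z, x, hx⟩ ⟨Z', x', hx'⟩ e
    obtain rfl : x = x' := congrArg Subtype.val e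
    obtain rfl : Z = Z' := Subtype.ext (hM _ _ Z.2.1 Z'.2.1 ((finrank_span_singleton (K := F) u0).ge.trans_lt
      (Submodule.finrank_lt_finrank_of_lt (lt_of_le_of_ne ((Submodule.span_singleton_le_iff_mem _ _).2 ⟨Z.2.2, Z'.2.2⟩)
        fun e => hx.2 (e.ge ⟨hx.1, hx'.1⟩)))))
    rfl)
  rw [Nat.card_sigma, Finset.sum_congr rfl fun Z _ => c1 Z, Finset.sum_const, Finset.card_univ, smul_eq_mul,
    ← Nat.card_eq_fintype_card, Nat.card_coe_set_eq] at c2
  refine (Nat.mul_le_mul_left _ c2).trans_eq ?_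
  have c3 := h.nd.finrank_perp (F ∙ u)
  rw [finrank_span_singleton u0, ← finrank_mul_finrank F K V, h.dim3] at c3
  rw [natCard_eq_pow_finrank (K := F) (V := S.perp (F ∙ u)), natCard_eq_pow_finrank (K := F) (V := K), ← pow_mul, ← c3,
    pow_add, pow_one]

theorem pG4 (h : O3 φ U H) (s3 : S3 U H) (inj : INJ U H) : G4 U H := fun u hu u0 hM e => by
  classical
  haveI : Finite V := Module.finite_of_finite F
  have h5 := h.five
  obtain ⟨Y, hY, hn⟩ := Set.exists_ne_of_one_lt_ncard (s := {Z | KM U H Z ∧ u ∈ Z})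
    (by rw [e]; exact Nat.succ_lt_succ Nat.card_pos) (KL F K u)
  have m : u ∈ KL F K u ⊓ Y := ⟨⟨1, one_smul _ _⟩, hY.2⟩
  obtain ⟨I, G, a1, a2, a3⟩ := inj 0 u Y hM hu u0 hY.1 hY.2 hn ((Nat.zero_lt_one.trans_eq
    (finrank_span_singleton (K := F) u0).symm).trans_le
      (Submodule.finrank_mono ((Submodule.span_singleton_le_iff_mem _ _).2 m))) (by omega)
  have c := Finset.card_le_mul_card_image_of_maps_to (s := I.toFinite.toFinset)
    (t := (Set.toFinite {Z | KM U H Z ∧ u ∈ Z}).toFinset) (f := fun i => Y.map ((G i).1 : V →ₗ[F] V))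
    (fun i hi => (Set.Finite.mem_toFinset _).2 ⟨hY.1.map (a2 i (by simpa using hi)).1,
      u, hY.2, (a2 i (by simpa using hi)).2 u m⟩) (finrank F K) fun Z _ => by
      rcases (I.toFinite.toFinset.filter fun i => Y.map ((G i).1 : V →ₗ[F] V) = Z).eq_empty_or_nonempty with
        k | ⟨j, hj⟩
      · rw [k]; exact Nat.zero_le _
      simp only [Finset.mem_filter, Set.Finite.mem_toFinset] at hj
      refine le_trans ?_ (s3 Y u hY.1 hY.2 u0)
      rw [← Set.ncard_coe_finset]
      refine Set.ncard_le_ncard_of_injOn (fun i (z : Y) => ((G j)⁻¹ * G i).1 z) (fun i hi => ?_) fun i hi i' hi' k => ?_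
      · simp only [Finset.coe_filter, Set.Finite.mem_toFinset, Set.mem_setOf_eq] at hi
        refine ⟨_, H.mul_mem (H.inv_mem (a2 j hj.1).1) (a2 i hi.1).1, fun z hz => ?_, ?_, rfl⟩
        · obtain ⟨y, hy, k⟩ := (hi.2.trans hj.2.symm).le ⟨z, hz, rfl⟩
          rw [isom_mul_apply, show (G i).1 z = (G j).1 y from k.symm, isom_inv_apply_self]
          exact hy
        · rw [isom_mul_apply, (a2 i hi.1).2 u m]
          conv_lhs => rw [← (a2 j hj.1).2 u m, isom_inv_apply_self]
      · simp only [Finset.coe_filter, Set.Finite.mem_toFinset, Set.mem_setOf_eq] at hi hi'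
        exact a3 i hi.1 i' hi'.1 fun z hz => (G j)⁻¹.1.injective (congrFun k ⟨z, hz⟩)
  rw [← Set.ncard_eq_toFinset_card, ← Set.ncard_eq_toFinset_card, e] at c
  have q2 : 2 ≤ Nat.card F := Finite.one_lt_card
  have k : Nat.card F * finrank F K < Nat.card K := by
    obtain ⟨r, hr⟩ := Nat.exists_eq_add_of_le' (show 2 ≤ finrank F K by omega)
    have := Nat.lt_two_pow_self (n := r)
    have := Nat.pow_le_pow_left q2 (r + 1)
    rw [natCard_eq_pow_finrank (K := F) (V := K), hr, pow_succ', Nat.mul_lt_mul_left (by omega)]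
    omega
  have := a1.trans (Nat.mul_le_mul_left _ c)
  nlinarith

end H14.Q3G
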