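import Cfsg.Agent.H14.R3K

/-! More checkers for `H14.R3.iso_of`: fixed points of overgroups (`fix_of`), sieving with anchors
(`sieve2_all`), isomorphisms onto a stabiliser (`iso_of_hom`). -/

set_option autoImplicit false

namespace H14.R3
open MulAction L

theorem iso_of_hom {Y Γ : Type*} [Group Y] [Group Γ] [Finite Γ] [Finite Y] (φ : Y →* Γ) {H : Subgroup Γ}
    (h1 : φ.range ≤ H) (h2 : Nat.card H ≤ Nat.card φ.range) (h3 : Nat.card Y = Nat.card H) :
    Nonempty (Y ≃* H) := by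
  obtain rfl := Subgroup.eq_of_le_of_card_ge h1 h2
  exact ⟨MulEquiv.ofBijective φ.rangeRestrict
    ((Nat.bijective_iff_surjective_and_card _).2 ⟨φ.rangeRestrict_surjective, h3⟩)⟩

theorem sub_loc {Γ : Type*} [Group Γ] (x : ℕ → Γ) (W vs : List Word) :
    sub (loc x W) vs = sub x (List.map (flat W) vs) :=
  le_antisymm ((sub_le _).2 fun w hw => ev_flat x W w ▸ ev_mem_sub _ (List.mem_map_of_mem hw))
    ((sub_le _).2 fun _ hw => by
      obtain ⟨v, hv, rfl⟩ := List.mem_map.1 hw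
      rw [ev_flat]; exact ev_mem_sub _ hv)

noncomputable def fB (n : ℕ) (L : List Net) (F : ℕ → ℕ → ℕ) (a D d u N : ℕ) (us : List Word)
    (o : List (Word × List Word)) : Bool :=
  band (fxB n F us [d]) (band (tb D d) (band (oOk n L F a us o) (band (subs D (orA (oM L F a us) o))
    (allL (fun m => bor (bnot (tb m d)) (bor (bnot (Nat.ble (Nat.mul (pop n m) u) N))
      (bor (bnot (Nat.beq (Nat.mod N (pop n m)) 0)) (Nat.beq m (bit d))))) (unions (oM L F a us) o)))))

noncomputable def sieve2 (F : ℕ → ℕ → ℕ) (bs : List ℕ) (T An A : List Word) (t : Word) (E : List Word) :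
    List Word → Bool :=
  @List.rec _ (fun _ => List Word → Bool) (fun _ => true)
    (fun u _ ih cs => band (@List.rec _ (fun _ => Bool) (List.elem (List.append t u) A)
      (fun j c _ => band (Nat.ble (Nat.succ j) (List.length An)) (hit F bs (List.append t u :: T) (getL [] An j) c))
      (List.headD cs [])) (ih (List.tail cs))) E

section
variable {Γ X : Type*} [Group Γ] [MulAction Γ X] {n : ℕ} {L : List Net} {M : PM Γ X n L}
  {F : ℕ → ℕ → ℕ} [PtF n L F] {a D : ℕ} {b0 : X}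

theorem fix_of [Finite Γ] (h0 : Nb M a D b0) {d u N : ℕ} {us : List Word} {o : List (Word × List Word)}
    (h : fB n L F a D d u N us o = true) {K : Subgroup Γ} (hK : K ≤ stabilizer Γ (M.dec a))
    (h1 : sub M.gen us ≤ K) (h2 : u ≤ Nat.card (sub M.gen us)) (h3 : Nat.card K = N) :
    M.dec d ∈ orbit (stabilizer Γ (M.dec a)) b0 ∧ K ≤ stabilizer Γ (M.dec d) := by
  simp only [fB, band_iff] at h
  obtain ⟨a1, a2, a3, a4, a5⟩ := h
  have hd : d < n := Nat.le_of_ble_eq_true (allL_iff.1 (band_iff.1 a1).1 _ List.mem_cons_self)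
  have h4 : M.dec d ∈ orbit (stabilizer Γ (M.dec a)) b0 := h0.2 ▸ (M.mem_S_dec hd).2 a2
  refine ⟨h4, fun g hg => ?_⟩
  obtain ⟨m, hm, e⟩ := inv_cases M a3 (Y := {y | ∃ g ∈ K, g • M.dec d = y}) (fun y ⟨g, hg, e⟩ => M.S_mono a4
    (h0.2 ▸ e ▸ mapsTo_smul_orbit (⟨g, hK hg⟩ : stabilizer Γ (M.dec a)) b0 h4))
    fun g hg y ⟨k, hk, e⟩ => ⟨g * k, mul_mem (h1 hg) hk, by rw [mul_smul, e]⟩
  have h5 := PM.card_eq_mul K (M.dec d)
  rw [e, M.ncard_S, h3] at h5
  rcases bor_iff.1 (allL_iff.1 a5 m hm) with h | h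
  · exact absurd ((M.mem_S_dec hd).1 (e.le ⟨1, one_mem _, one_smul _ _⟩)) (by rw [bnot_iff.1 h]; simp)
  rcases bor_iff.1 h with h | h
  · refine absurd (Nat.ble_eq_true_of_le ?_) (by rw [bnot_iff.1 h]; simp)
    rw [h5, mul_comm]
    exact Nat.mul_le_mul_left _ (h2.trans (Subgroup.card_le_of_le (le_inf h1 ((le_fix a1).trans (fix1 d).le))))
  rcases bor_iff.1 h with h | h
  · exact absurd (by rw [h5]; exact Nat.mul_mod_left _ _) (Nat.ne_of_beq_eq_false (bnot_iff.1 h))
  · rw [mem_stabilizer_iff, ← M.mem_S_bit hd, ← Nat.eq_of_beq_eq_true h, ← e]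
    exact ⟨g, hg, rfl⟩

theorem sieve2_all {c : Lv} {fx : List ℕ} (hc : Ex M c fx) {T An : List Word} {K J : Subgroup Γ}
    (hK : K ≤ M.fixL fx) (hg : sub M.gen An ≤ M.fixL fx) (hT : sub M.gen T ≤ K) (hn : ∀ w ∈ An, ev M.gen w ∉ K)
    {S E : List Word} {d : List (Word × List Word)} (hJ : Cover M.gen J [List.map Prod.fst d, E])
    (h : allL (fun p => sieve2 F (bas c) T An S p.1 E p.2) d = true) :
    Nat.card (K ⊓ J : Subgroup Γ) ≤ S.length := by
  have key : ∀ {t : Word} {E cs : List Word}, sieve2 F (bas c) T An S t E cs = true →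
      ∀ u ∈ E, ev M.gen (t ++ u) ∈ K → t ++ u ∈ S := by
    intro t E
    induction E with
    | nil => exact fun _ => fa_nil
    | cons u E ih =>
      intro cs h
      obtain ⟨h1, h2⟩ := band_iff.1 h
      refine fa_cons (fun hu => ?_) (ih h2)
      generalize List.headD cs [] = d at h1
      cases d with
      | nil => exact List.mem_of_elem_eq_true h1
      | cons j d =>
        have hj := getL_mem [] An (Nat.le_of_ble_eq_true (band_iff.1 h1).1)
        exact (hn _ hj (hit_spec hc hK (hg (ev_mem_sub _ hj)) (sub_cons_le hu hT) (band_iff.1 h1).2)).elim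
  refine card_pairs (x := M.gen) (P := []) (fun y hy => ?_) fa_nil
  obtain ⟨w, hw, rfl⟩ := hJ y hy.2
  simp only [prods, List.mem_flatMap, List.mem_map, List.mem_singleton, exists_eq_left, List.append_nil] at hw
  obtain ⟨_, ⟨p, hp, rfl⟩, _, ⟨u, hu, rfl⟩, rfl⟩ := hw
  exact ⟨_, List.mem_append_left _ (key (allL_iff.1 h p hp) u hu hy.1), rfl⟩

theorem cj_fix' {H K : Subgroup Γ} {x : Γ} (hx : x ∈ H) {y : X}
    (h : ∃ z ∈ orbit H y, K.comap (MulAut.conj x).toMonoidHom ≤ stabilizer Γ z) :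
    ∃ z ∈ orbit H y, K ≤ stabilizer Γ z := by
  obtain ⟨z, hz, h⟩ := h
  obtain ⟨w, hw, h⟩ := cj_fix hx h
  exact ⟨w, orbit_eq_iff.2 hz ▸ hw, h⟩

end
end H14.R3
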