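import Cfsg.Agent.H14.R3R

/-! Generated checks (tools14/r3): subgroups of order 15600 of `²F₄(2)`. -/
set_option Elab.async false
set_option autoImplicit false
set_option maxRecDepth 100000
set_option maxHeartbeats 0
set_option linter.unusedSectionVars false

namespace H14.R3R
open L H14.R3 MulAction

theorem v0 : allL sv d0 = true := by decide +kernel
theorem v1 : allL sv d1 = true := by decide +kernel
theorem v2 : allL sv d2 = true := by decide +kernel
theorem v3 : allL sv d3 = true := by decide +kernel
theorem v4 : allL sv d4 = true := by decide +kernel
theorem v5 : allL sv d5 = true := by decide +kernel

end H14.R3R
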