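import Cfsg.Agent.H14.R3R
import Cfsg.Agent.H15.StdF42

/-! Generated checks (tools14/r3) for the rank 3 action of `Ru`. -/
set_option Elab.async false
set_option autoImplicit false
set_option maxRecDepth 100000
set_option maxHeartbeats 0
set_option linter.unusedSectionVars false

namespace H14.R3R
open L H14.R3 MulAction

theorem dc0 : relsChk 4060 nets 12 (idArr 4060 12 12 0) (List.take 12 (defRels defs 13)) = true := by decide +kernel
theorem dc1 : relsChk 4060 nets 12 (idArr 4060 12 12 0) (List.drop 12 (defRels defs 13)) = true := by decide +kernel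
theorem chc : band (Nat.ble 1 145926144000) (Nat.ble 145926144000 (c1.val 4060 nets)) = true := by decide +kernel
theorem rk : rkB 4060 nets F c1 1 733 D Z 1755 2304 s0 s1 s2 = true := by decide +kernel
theorem vH : (tl c1).val 4060 nets = 35942400 := by decide +kernel
theorem hb : bB 4060 nets F 0 D 1755 2304 780 wb uP oP = true := by decide +kernel
theorem hd' : dB 4060 nets F 0 D 1755 780 wc uK oK = true := by decide +kernel
theorem ha : autV 4060 nets F 0 D aut [] = 145926144000 := by decide +kernel
theorem pU : relsPt F (bas c1) (pcRels (2 ^ 4) lU) = true := by decide +kernel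
theorem pT : relsPt F (bas c1) (pcRels (5 ^ 1) lT) = true := by decide +kernel
theorem pW : relsPt F (bas c1) (flatR W H15.StdF42.allRels) = true := by decide +kernel
theorem vU : (cU.sbst (List.map Prod.fst lU)).val 4060 nets = 2 ^ 12 := by decide +kernel
theorem vT : (cT.sbst uT).val 4060 nets = 5 ^ 2 := by decide +kernel
theorem vG : (cG.sbst (g0 :: uT)).val 4060 nets = 17971200 := by decide +kernel
theorem vW : (cW.sbst (List.map (flat W) (lets 4))).val 4060 nets = 35942400 := by decide +kernel
theorem fU : fB 4060 nets F 0 D 1 (2 ^ 12) 20480 (List.map Prod.fst lU) oU = true := by decide +kernel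
theorem fH : allL (fun p => band (Nat.ble 7800 ((p.2.2.2.sbst (p.1 :: uT)).val 4060 nets))
    (fB 4060 nets F 0 Z p.2.1 7800 15600 (p.1 :: uT) p.2.2.1)) hs = true := by decide +kernel
theorem fA : allL (fun p => hit F (bas (tl c1)) (p.1 :: uT) g0 p.2) an = true := by decide +kernel
noncomputable def dd : List (Word × List Word) := List.append d0 (List.append d1 (List.append d2 (List.append d3 (List.append d4 (List.append d5 (List.append d6 (List.append d7 (List.append d8 (List.append d9 (List.append d10 (d11)))))))))))
theorem tr1 : trChk 4060 nets F (tl (tl c1)) [733, 0] (List.map Prod.fst dd) = true := by decide +kernel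
theorem tr2 : trChk 4060 nets F (tl (tl (tl c1))) [44, 733, 0] T2 = true := by decide +kernel

end H14.R3R
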