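import Cfsg.Agent.H14.R3R1
import Cfsg.Agent.H14.R3R2
import Cfsg.Agent.H14.R3R3

/-! The rank 3 action of `Ru` of degree 4060 is determined by its point stabiliser and subdegrees
(`H14.R3R.std_main`). -/
set_option Elab.async false
set_option autoImplicit false
set_option maxRecDepth 100000
set_option maxHeartbeats 0
set_option linter.unusedSectionVars false

namespace H14.R3R
open L H14.R3 MulAction

section
variable {Γ X : Type*} [Group Γ] [MulAction Γ X] (M : PM Γ X 4060 nets) (hN : Nat.card Γ = 145926144000)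
include M hN

theorem hC (K : Subgroup Γ) (hK : K ≤ stabilizer Γ (M.dec 0))
    (hk : Nat.card K * 2304 = Nat.card (stabilizer Γ (M.dec 0))) :
    ∃ y ∈ orbit (stabilizer Γ (M.dec 0)) (M.dec 733), K ≤ stabilizer Γ y := by
  have : Finite Γ := Nat.finite_of_card_ne_zero (by rw [hN]; norm_num)
  have E0 : Ex M c1 [] := ex_top hN chc
  obtain ⟨-, -, hZ, cH⟩ := rk_of E0 rk
  replace cH : Nat.card (stabilizer Γ (M.dec 0)) = 35942400 := cH.trans vH
  have E1 : Ex M (tl c1) [0] := ex_tl E0 (by decide +kernel)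
  have E2 : Ex M (tl (tl c1)) [733, 0] := ex_tl E1 (by decide +kernel)
  have E3 : Ex M (tl (tl (tl c1))) [44, 733, 0] := ex_tl E2 (by decide +kernel)
  have E4 : Ex M .nil _ := ex_tl E3 (by decide +kernel)
  have hT : sub M.gen (g0 :: uT) ≤ M.fixL [0] := le_fix (by decide +kernel)
  have cK : Nat.card K = 15600 := by omega
  obtain ⟨x, hx, h1⟩ := syl_le Nat.prime_five (((sub_mono _ fun _ => List.mem_cons_of_mem _).trans hT).trans
    (fix1 0).le) (pg_rels (rels_of_pt hN chc pT)) (vT ▸ low_sub cT _) (by rw [cH]; norm_num) hK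
    (by rw [cK]; norm_num)
  refine cj_fix' hx ?_
  have h2 := cj_le hx hK
  have h3 := (card_cj K x).trans cK
  generalize K.comap (MulAut.conj x).toMonoidHom = K1 at h1 h2 h3
  by_contra hn
  have h4 : ∀ w ∈ An, ev M.gen w ∉ K1 := fun w hw h => by
    rcases List.mem_append.1 hw with hw | hw <;> obtain ⟨p, hp, rfl⟩ := List.mem_map.1 hw
    · obtain ⟨a1, a2⟩ := band_iff.1 (allL_iff.1 fH p hp)
      exact hn ⟨_, fix_of hZ a2 h2 (sub_cons_le h h1) ((Nat.le_of_ble_eq_true a1).trans (low_sub _ _)) h3⟩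
    · have := Subgroup.card_le_of_le (sub_cons_le (hit_spec E1 (h2.trans (fix1 0).ge)
        (hT (ev_mem_sub _ List.mem_cons_self)) (sub_cons_le h h1) (allL_iff.1 fA p hp)) h1)
      exact absurd ((vG ▸ low_sub cG _).trans (h3 ▸ this)) (by norm_num)
  have h5 := sieve2_all E1 (h2.trans (fix1 0).ge) (le_fix (by decide +kernel)) h1 h4
    (cover_ex E2 tr1 (cover_ex E3 tr2 (cover_nil E4))) (allL_app v0 (allL_app v1 (allL_app v2 (allL_app v3 (allL_app v4 (allL_app v5 (allL_app v6 (allL_app v7 (allL_app v8 (allL_app v9 (allL_app v10 v11)))))))))))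
  have h6 := card_step E1 (K := K1) (m := 2304) (by decide +kernel)
  rw [fix1, inf_eq_left.2 h2, h3] at h6
  exact absurd (h6.trans (Nat.mul_le_mul_left _ h5)) (by decide +kernel)

theorem main [FaithfulSMul Γ X] [IsSimpleGroup Γ] {G Ω : Type*} [Group G] [MulAction G Ω] [FaithfulSMul G Ω]
    {a b c : Ω} (R : Rk G a b c 1755 2304) {Y : Type*} [Group Y] (S : H15.StdF42.St Y) (e : stabilizer G a ≃* Y) :
    Nonempty (G ≃* Γ) := by
  have : Finite Γ := Nat.finite_of_card_ne_zero (by rw [hN]; norm_num)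
  have := S.finite
  obtain ⟨R0, h1, -, h3⟩ := rk_of (M := M) (ex_top hN chc) rk
  rw [vH] at h3
  obtain ⟨φ, hφ, -⟩ := H15.StdF42.hom' S _ (rels_loc (rels_of_pt (M := M) hN chc pW))
  rw [sub_loc] at hφ
  obtain ⟨e'⟩ := iso_of_hom φ (H := stabilizer Γ (M.dec (hd c1)))
    (hφ ▸ (le_fix (by decide +kernel)).trans (fix1 _).le) (by rw [h3, hφ]; exact vW ▸ low_sub cW _)
    (S.card.trans h3.symm)
  refine iso_of (μ := 780) (m := 1) R R0 (e.trans e') (by norm_num) (fun K hK hk => ?_)
    (hB_of (by decide +kernel) h1 (by norm_num) hb) (fun K hK hk _ _ _ _ => hC M hN K hK hk)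
    (hD_of (by decide +kernel) h1 hd') ?_ (by rw [hN]; norm_num)
  · have cK : Nat.card K = 20480 := by
      have : Nat.card K * 1755 = 35942400 := hk.trans h3
      omega
    obtain ⟨x, hx, h4⟩ := syl_le Nat.prime_two ((le_fix (by decide +kernel)).trans (fix1 _).le)
      (pg_rels (rels_of_pt hN chc pU)) (vU ▸ low_sub cU _) (by rw [h3]; norm_num) hK (by rw [cK]; norm_num)
    exact cj_fix hx (fix_of h1 fU (cj_le hx hK) h4 (vU ▸ low_sub cU _) ((card_cj K x).trans cK)).2
  · rw [hN, one_mul]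
    exact (aut_le h1 aut le_rfl (fun _ _ => fa_nil) (ha ▸ by norm_num)).trans ha.le

end

theorem std_main {Γ : Type*} [Group Γ] (S0 : H15.StdRu.St Γ) {G Ω : Type*} [Group G] [MulAction G Ω]
    [FaithfulSMul G Ω] {a b c : Ω} (R : Rk G a b c 1755 2304) {Y : Type*} [Group Y] (S : H15.StdF42.St Y)
    (e : stabilizer G a ≃* Y) : Nonempty (G ≃* Γ) := by
  have := S0.faithful
  have := H15.StdRu.St.simple S0
  obtain ⟨M, -⟩ := S0.M.exists_ext (L2 := nets) rfl (h0 := by decide) (hs := by decide) (h := nets_ok)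
    (List.take_append_drop 12 (defRels defs 13) ▸ Rels.append (PM.rels_of_idArr _ (by decide) dc0)
      (PM.rels_of_idArr _ (by decide) dc1)) (by decide +kernel)
  exact main M S0.card R S e

end H14.R3R
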