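import Cfsg.Agent.H14.R3L

/-! Rank 3 groups: recognition from a model up to automorphisms of the point stabiliser (`iso_of2`). -/

set_option autoImplicit false

namespace H14.R3
open MulAction

section
variable {G Ω Γ X : Type*} [Group G] [MulAction G Ω] [Group Γ] [MulAction Γ X]

theorem ex_nu {H : Subgroup Γ} [Finite H] {Δ : Set X} (hΔ : Δ.Finite) (hi : ∀ g : H, ∀ x ∈ Δ, g • x ∈ Δ)
    (hf : ∀ g : H, (∀ x ∈ Δ, g • x = x) → g = 1) {π : X → X} (h1 : Δ.InjOn π) (h2 : Δ.MapsTo π Δ)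
    (h3 : ∀ g : H, ∃ g' : H, ∀ x ∈ Δ, π (g • x) = g' • π x) :
    ∃ ν : H ≃* H, ∀ g : H, ∀ x ∈ Δ, π (g • x) = ν g • π x := by
  choose f hf2 using h3
  have sj := ((hΔ.injOn_iff_bijOn_of_mapsTo h2).1 h1).surjOn
  let ψ : H →* H := MonoidHom.mk' f fun a b => inv_mul_eq_one.1 (hf _ fun x hx => by
    obtain ⟨y, hy, rfl⟩ := sj hx
    rw [mul_smul, inv_smul_eq_iff, mul_smul, ← hf2 _ y hy, ← hf2 _ y hy, ← hf2 _ _ (hi b y hy), mul_smul])
  have b : Function.Injective ψ := (injective_iff_map_eq_one ψ).2 fun g e => hf g fun x hx =>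
    h1 (hi g x hx) hx (by rw [hf2 g x hx, show f g = 1 from e, one_smul])
  exact ⟨MulEquiv.ofBijective ψ ⟨b, Finite.surjective_of_injective b⟩, hf2⟩

/-- the image of the neighbours of `d` in the first suborbit -/
def Im {a : Ω} {a0 : X} (e : stabilizer G a ≃* stabilizer Γ a0) (b : Ω) (b0 : X) (d : Ω) : Set X :=
  {y | ∃ g : stabilizer G a, Orb G a b d (g • b) ∧ e g • b0 = y}

section
variable {a b c : Ω} {a0 b0 c0 : X} {k l μ m : ℕ} {e : stabilizer G a ≃* stabilizer Γ a0}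

theorem im_sub (d : Ω) : Im e b b0 d ⊆ orbit (stabilizer Γ a0) b0 := fun _ ⟨g, _, h⟩ => ⟨e g, h⟩

theorem im_inv {d : Ω} {g : stabilizer G a} (hg : g • d = d) : ∀ y ∈ Im e b b0 d, e g • y ∈ Im e b b0 d := by
  rintro _ ⟨u, hu, rfl⟩
  exact ⟨g * u, by rw [mul_smul, ← hg]; exact (orb_smul _ _ _ _ (g : G)).2 hu, by rw [map_mul, mul_smul]⟩

theorem im_card (h2 : ∀ g : stabilizer G a, g • b = b → e g • b0 = b0)
    (h3 : ∀ g : stabilizer G a, e g • b0 = b0 → g • b = b) (d : Ω) :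
    (Im e b b0 d).ncard = ({y | Orb G a b d y} ∩ orbit (stabilizer G a) b).ncard := by
  obtain ⟨f, hf⟩ := exists_f e.toMonoidHom h2
  rw [← Set.InjOn.ncard_image (f := f)]
  · congr 1
    ext y
    exact ⟨fun ⟨g, h, e⟩ => ⟨_, ⟨h, mem_orbit _ g⟩, (hf g).trans e⟩,
      by rintro ⟨_, ⟨h, g, rfl⟩, e⟩; exact ⟨g, h, (hf g).symm.trans e⟩⟩
  · rintro _ ⟨-, g, rfl⟩ _ ⟨-, g', rfl⟩ hg
    simp only [hf] at hg
    have := h3 (g'⁻¹ * g) (by rw [map_mul, map_inv, mul_smul, inv_smul_eq_iff]; exact hg)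
    rwa [mul_smul, inv_smul_eq_iff] at this

variable [Finite Γ] (R : Rk G a b c k l) (R0 : Rk Γ a0 b0 c0 k l) (hk : ¬ k + 1 ∣ 1 + k + l)
  (hB : ∀ Y ⊆ orbit (stabilizer Γ a0) b0, b0 ∉ Y → (∀ g : Γ, g • a0 = a0 → g • b0 = b0 → ∀ y ∈ Y, g • y ∈ Y) →
    ∀ j ≠ 0, k * (k - Y.ncard - 1) = l * j → j = μ ∧ Y = {y | Orb Γ a0 b0 b0 y} ∩ orbit (stabilizer Γ a0) b0)
include R R0 hk hB

theorem first (h2 : ∀ g : stabilizer G a, g • b = b → e g • b0 = b0) :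
    (Im e b b0 c).ncard = μ ∧ Im e b b0 b = {y | Orb Γ a0 b0 b0 y} ∩ orbit (stabilizer Γ a0) b0 := by
  have h3 := stab_iff e (R.hb.trans R0.hb.symm) h2
  obtain ⟨p1, p2⟩ := R.param hk
  rw [im_card h2 h3]
  exact hB _ (im_sub b) (fun ⟨g, h, e⟩ => R.irr b (by rwa [h3 g e] at h)) (fun g g1 g2 => by
    obtain ⟨u, hu⟩ := e.surjective ⟨g, g1⟩
    have := im_inv (e := e) (b := b) (b0 := b0) (h3 u (by rw [hu]; exact g2))
    rwa [hu] at this) _ p2 (by rw [im_card h2 h3, p1])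

omit R in
theorem mu0 : ({y | Orb Γ a0 b0 c0 y} ∩ orbit (stabilizer Γ a0) b0).ncard = μ :=
  (im_card (e := MulEquiv.refl _) (fun _ => id) (fun _ => id) c0).symm.trans (first R0 R0 hk hB fun _ => id).1

end

theorem core [FaithfulSMul G Ω] [FaithfulSMul Γ X] [IsSimpleGroup Γ] {a b' c' : Ω} {a0 b0 c0 : X}
    {k l μ m : ℕ} (R : Rk G a b' c' k l) (R0 : Rk Γ a0 b0 c0 k l) (e : stabilizer G a ≃* stabilizer Γ a0)
    (hk : ¬ k + 1 ∣ 1 + k + l) (h2 : ∀ g : stabilizer G a, g • b' = b' → e g • b0 = b0)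
    (hq : ∀ y ∈ Im e b' b0 c', Orb Γ a0 b0 c0 y)
    (hB : ∀ Y ⊆ orbit (stabilizer Γ a0) b0, b0 ∉ Y → (∀ g : Γ, g • a0 = a0 → g • b0 = b0 → ∀ y ∈ Y, g • y ∈ Y) →
      ∀ j ≠ 0, k * (k - Y.ncard - 1) = l * j →
        j = μ ∧ Y = {y | Orb Γ a0 b0 b0 y} ∩ orbit (stabilizer Γ a0) b0)
    (hE : ∀ y ∈ orbit (stabilizer Γ a0) c0,
      (∀ x ∈ orbit (stabilizer Γ a0) b0, Orb Γ a0 b0 c0 x → Orb Γ a0 b0 y x) → y = c0)
    (hD : ∀ Y : Set X, a0 ∉ Y → c0 ∉ Y → (∀ g : Γ, g • a0 = a0 → g • c0 = c0 → ∀ y ∈ Y, g • y ∈ Y) →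
      Y.ncard = k → Y ∩ orbit (stabilizer Γ a0) b0 = {y | Orb Γ a0 b0 c0 y} ∩ orbit (stabilizer Γ a0) b0 →
      Y = {y | Orb Γ a0 b0 c0 y})
    (hF : Nat.card (autR (Orb Γ a0 b0)) ≤ m * Nat.card Γ) (hm : ¬ Nat.card Γ ∣ m.factorial) :
    Nonempty (G ≃* Γ) := by
  classical
  have := R.fin
  have := R0.fin
  have : Finite Γ := Finite.of_injective _ (MulAction.toPerm_injective (α := Γ) (β := X))
  let θ := (stabilizer Γ a0).subtype.comp e.toMonoidHom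
  have hθ : ∀ g : Γ, g • a0 = a0 → ∃ h, θ h = g := fun g hg =>
    ⟨e.symm ⟨g, hg⟩, congrArg Subtype.val (e.apply_symm_apply _)⟩
  have h3 := stab_iff e (R.hb.trans R0.hb.symm) h2
  obtain ⟨f1, hf1⟩ := exists_f θ h2
  have inj : ∀ {p : Ω} {p0 : X} {f : Ω → X}, (∀ g : stabilizer G a, e g • p0 = p0 → g • p = p) →
      (∀ g : stabilizer G a, f (g • p) = θ g • p0) → Set.InjOn f (orbit (stabilizer G a) p) := by
    rintro p p0 f h hf _ ⟨g, rfl⟩ _ ⟨g', rfl⟩ hg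
    simp only [hf] at hg
    have := h (g'⁻¹ * g) (by
      rw [map_mul, map_inv, mul_smul, inv_smul_eq_iff]; exact hg)
    rwa [mul_smul, inv_smul_eq_iff] at this
  have mem : ∀ {p : Ω} {p0 : X} {f : Ω → X}, (∀ g : stabilizer G a, f (g • p) = θ g • p0) →
      ∀ x ∈ orbit (stabilizer G a) p, f x ∈ orbit (stabilizer Γ a0) p0 := by
    rintro p p0 f hf _ ⟨g, rfl⟩
    exact ⟨e g, (hf g).symm⟩
  have eqv : ∀ {p : Ω} {p0 : X} {f : Ω → X}, (∀ g : stabilizer G a, f (g • p) = θ g • p0) →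
      ∀ g : stabilizer G a, ∀ x ∈ orbit (stabilizer G a) p, f (g • x) = θ g • f x := by
    rintro p p0 f hf g _ ⟨g', rfl⟩
    simp only [← mul_smul, hf, map_mul]
  have hN : ∀ (g : stabilizer G a) x y, Orb G a b' x y → Orb G a b' (g • x) (g • y) := fun g x y =>
    (orb_smul a b' x y (g : G)).2
  have fb : f1 b' = b0 := by simpa using hf1 1
  obtain ⟨p3, p4⟩ := first R R0 hk hB h2
  have p5 : Im e b' b0 c' = {y | Orb Γ a0 b0 c0 y} ∩ orbit (stabilizer Γ a0) b0 :=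
    Set.eq_of_subset_of_ncard_le (fun y hy => ⟨hq y hy, im_sub _ hy⟩) (by rw [p3, mu0 R0 hk hB])
  have h4 : ∀ g : stabilizer G a, g • c' = c' → e g • c0 = c0 := fun g hg =>
    hE _ (mem_orbit _ _) fun x h1 h2 => by
      have := hq _ (im_inv (inv_smul_eq_iff.2 hg.symm) x (p5.ge ⟨h2, h1⟩))
      rw [← orb_smul _ _ _ _ (e g : Γ), map_inv] at this
      exact (smul_inv_smul (e g) x ▸ this :)
  have h5 := stab_iff e (R.hc.trans R0.hc.symm) h4
  obtain ⟨f2, hf2⟩ := exists_f θ h4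
  let f : Ω → X := fun x => if x ∈ orbit (stabilizer G a) b' then f1 x else if x = a then a0 else f2 x
  have e1 : ∀ x ∈ orbit (stabilizer G a) b', f x = f1 x := fun x hx => if_pos hx
  have e2 : ∀ x ∈ orbit (stabilizer G a) c', f x = f2 x := fun x hx => by
    simp only [f, if_neg fun h => R.dis h hx, if_neg fun h : x = a => R.nc (h ▸ hx)]
  have e0 : f a = a0 := by simp only [f, if_neg R.nb, if_true]
  have m1 : ∀ x, f x ∈ orbit (stabilizer Γ a0) b0 ↔ x ∈ orbit (stabilizer G a) b' := fun x =>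
    ⟨fun h => by
      rcases R.cov x with rfl | h' | h'
      · exact (R0.nb (e0 ▸ h)).elim
      · exact h'
      · exact (R0.dis h (e2 x h' ▸ mem hf2 x h')).elim, fun h => e1 x h ▸ mem hf1 x h⟩
  have finj : Function.Injective f := by
    intro x y h
    rcases R.cov x with rfl | hx | hx
    · rcases R.cov y with rfl | hy | hy
      · rfl
      · exact (R.nb ((m1 _).1 (h ▸ (m1 y).2 hy))).elim
      · exact (R0.nc ((e0.symm.trans (h.trans (e2 y hy))).symm ▸ mem hf2 y hy :)).elim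
    · have hy := (m1 y).1 (h ▸ (m1 x).2 hx)
      exact inj h3 hf1 hx hy (by rw [← e1 x hx, h, e1 y hy])
    · rcases R.cov y with rfl | hy | hy
      · exact (R0.nc ((e0.symm.trans (h.symm.trans (e2 x hx))).symm ▸ mem hf2 x hx :)).elim
      · exact (R.dis ((m1 x).1 (h ▸ (m1 y).2 hy)) hx).elim
      · exact inj h5 hf2 hx hy (by rw [← e2 x hx, h, e2 y hy])
  have feq : ∀ (g : stabilizer G a) x, f (g • x) = θ g • f x := fun g x => by
    rcases R.cov x with rfl | hx | hx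
    · rw [show g • x = x from g.2, e0]; exact (e g).2.symm
    · rw [e1 x hx, e1 _ (mapsTo_smul_orbit g b' hx), eqv hf1 g x hx]
    · rw [e2 x hx, e2 _ (mapsTo_smul_orbit g c' hx), eqv hf2 g x hx]
  have fb' : f b' = b0 := (e1 _ (mem_orbit_self b')).trans fb
  have fc : f c' = c0 := (e2 _ (mem_orbit_self c')).trans (by simpa using hf2 1)
  have q1 : f '' {y | Orb G a b' c' y} = {y | Orb Γ a0 b0 c0 y} := by
    refine hD _ ?_ ?_ (fun g g1 g2 => ?_) (by rw [Set.ncard_image_of_injective _ finj, R.deg]) ?_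
    · rintro ⟨x, hx, h⟩
      rw [finj (h.trans e0.symm)] at hx
      exact R.dis ((orb_base _ _ _).1 (R.symm hx)) (mem_orbit_self c')
    · rintro ⟨x, hx, h⟩
      exact R.irr c' (finj (h.trans fc.symm) ▸ hx)
    · obtain ⟨h, rfl⟩ := hθ g g1
      rintro _ ⟨x, hx, rfl⟩
      exact ⟨h • x, h5 h g2 ▸ hN h c' x hx, feq h x⟩
    · rw [← p5]
      ext z
      exact ⟨fun ⟨⟨x, hx, h⟩, h'⟩ => by
          obtain ⟨g, rfl⟩ := (m1 x).1 (h ▸ h')
          exact ⟨g, hx, by rw [← h]; exact (fb' ▸ (feq g b').symm :)⟩,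
        fun h => ⟨let ⟨g, hg, e⟩ := h; ⟨_, hg, by rw [feq, fb']; exact e⟩, im_sub _ h⟩⟩
  have tr : ∀ (g : stabilizer G a) {x}, (∀ y, Orb Γ a0 b0 (f x) (f y) ↔ Orb G a b' x y) →
      ∀ y, Orb Γ a0 b0 (f (g • x)) (f y) ↔ Orb G a b' (g • x) y := fun g x h y => by
    rw [← smul_inv_smul g y, feq, feq, orb_smul, h]
    exact (orb_smul _ _ _ _ (g : G)).symm
  have r0 : ∀ y, Orb Γ a0 b0 (f a) (f y) ↔ Orb G a b' a y := fun y => by rw [e0, orb_base, orb_base, m1]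
  have r2 : ∀ x ∈ orbit (stabilizer G a) c', ∀ y, Orb Γ a0 b0 (f x) (f y) ↔ Orb G a b' x y := by
    rintro _ ⟨g, rfl⟩
    refine tr g fun y => ?_
    rw [fc]
    exact (Set.ext_iff.1 q1 (f y)).symm.trans finj.mem_set_image
  have r : ∀ x y, Orb Γ a0 b0 (f x) (f y) ↔ Orb G a b' x y := fun x y => by
    rcases R.cov x with rfl | ⟨g, rfl⟩ | hx
    · exact r0 y
    · refine tr g (fun y => ?_) y
      rcases R.cov y with rfl | hy | hy
      · exact ⟨fun h => R.symm ((r0 _).1 (R0.symm h)), fun h => R0.symm ((r0 _).2 (R.symm h))⟩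
      · obtain ⟨u, rfl⟩ := hy
        rw [fb', feq, fb']
        exact ⟨fun h => by
          obtain ⟨v, hv, h'⟩ := p4.ge ⟨h, mem_orbit _ (e u)⟩
          rwa [finj (show f (v • b') = f (u • b') by rw [feq, feq, fb']; exact h')] at hv,
          fun h => (p4.le ⟨u, h, rfl⟩).1⟩
      · exact ⟨fun h => R.symm ((r2 _ hy _).1 (R0.symm h)), fun h => R0.symm ((r2 _ hy _).2 (R.symm h))⟩
    · exact r2 x hx y
  let E := Equiv.ofBijective f ((Nat.bijective_iff_injective_and_card f).2 ⟨finj, R.card.trans R0.card.symm⟩)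
  refine iso_of_aut (φ := E.permCongrHom.toMonoidHom.comp (toPermHom G Ω)) (ψ := toPermHom Γ X)
    (E.permCongrHom.injective.comp toPerm_injective) toPerm_injective ?_ ?_ ?_ hF hm
  · rintro _ ⟨g, rfl⟩ x y
    obtain ⟨x, rfl⟩ := E.surjective x
    obtain ⟨y, rfl⟩ := E.surjective y
    have : Orb Γ a0 b0 (E (g • x)) (E (g • y)) ↔ Orb Γ a0 b0 (E x) (E y) :=
      (r (g • x) (g • y)).trans ((orb_smul _ _ _ _ g).trans (r x y).symm)
    simpa [Equiv.permCongr_apply] using this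
  · rintro _ ⟨g, rfl⟩ x y
    exact orb_smul _ _ _ _ g
  · have := R.tr
    have := R0.tr
    rw [← (stabilizer G a).index_mul_card, ← (stabilizer Γ a0).index_mul_card, index_stabilizer_of_transitive,
      index_stabilizer_of_transitive, R.card, R0.card, Nat.card_congr e.toEquiv]

/-- recognition of a rank 3 group from a model, up to automorphisms of the point stabiliser -/
theorem iso_of2 [FaithfulSMul G Ω] [FaithfulSMul Γ X] [IsSimpleGroup Γ] {a b c : Ω} {a0 b0 c0 : X}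
    {k l μ m : ℕ} (R : Rk G a b c k l) (R0 : Rk Γ a0 b0 c0 k l) (e : stabilizer G a ≃* stabilizer Γ a0)
    (hk : ¬ k + 1 ∣ 1 + k + l)
    (hA : ∀ K : Subgroup Γ, K ≤ stabilizer Γ a0 → Nat.card K * k = Nat.card (stabilizer Γ a0) →
      ∃ y ∈ orbit (stabilizer Γ a0) b0, K ≤ stabilizer Γ y)
    (hB : ∀ Y ⊆ orbit (stabilizer Γ a0) b0, b0 ∉ Y → (∀ g : Γ, g • a0 = a0 → g • b0 = b0 → ∀ y ∈ Y, g • y ∈ Y) →
      ∀ j ≠ 0, k * (k - Y.ncard - 1) = l * j →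
        j = μ ∧ Y = {y | Orb Γ a0 b0 b0 y} ∩ orbit (stabilizer Γ a0) b0)
    (hC : ∀ K : Subgroup Γ, K ≤ stabilizer Γ a0 → Nat.card K * l = Nat.card (stabilizer Γ a0) →
      ∀ Y ⊆ orbit (stabilizer Γ a0) b0, (∀ g ∈ K, ∀ y ∈ Y, g • y ∈ Y) → Y.ncard = μ →
      ∃ π : X → X, (orbit (stabilizer Γ a0) b0).InjOn π ∧
        (orbit (stabilizer Γ a0) b0).MapsTo π (orbit (stabilizer Γ a0) b0) ∧
        (∀ g : stabilizer Γ a0, ∃ g' : stabilizer Γ a0, ∀ x ∈ orbit (stabilizer Γ a0) b0, π (g • x) = g' • π x) ∧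
        ∀ y ∈ Y, Orb Γ a0 b0 c0 (π y))
    (hE : ∀ y ∈ orbit (stabilizer Γ a0) c0,
      (∀ x ∈ orbit (stabilizer Γ a0) b0, Orb Γ a0 b0 c0 x → Orb Γ a0 b0 y x) → y = c0)
    (hD : ∀ Y : Set X, a0 ∉ Y → c0 ∉ Y → (∀ g : Γ, g • a0 = a0 → g • c0 = c0 → ∀ y ∈ Y, g • y ∈ Y) →
      Y.ncard = k → Y ∩ orbit (stabilizer Γ a0) b0 = {y | Orb Γ a0 b0 c0 y} ∩ orbit (stabilizer Γ a0) b0 →
      Y = {y | Orb Γ a0 b0 c0 y})
    (hF : Nat.card (autR (Orb Γ a0 b0)) ≤ m * Nat.card Γ) (hm : ¬ Nat.card Γ ∣ m.factorial) :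
    Nonempty (G ≃* Γ) := by
  have := R0.fin
  have : Finite Γ := Finite.of_injective _ (MulAction.toPerm_injective (α := Γ) (β := X))
  have hle : ∀ S : Subgroup (stabilizer G a),
      S.map ((stabilizer Γ a0).subtype.comp e.toMonoidHom) ≤ stabilizer Γ a0 := by
    rintro S _ ⟨h, -, rfl⟩; exact (e h).2
  obtain ⟨y, hy, h1⟩ := hA _ (hle _) (R.hb ▸ card_K e)
  obtain ⟨b', hb', h2⟩ := pick e hy h1
  replace R := R.move hb' (mem_orbit_self c)
  obtain ⟨π, a1, a2, a3, a4⟩ := hC _ (hle _) (R.hc ▸ card_K e) _ (im_sub (e := e) (b := b') c)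
    (by rintro _ ⟨h, hh, rfl⟩; exact im_inv hh) (first R R0 hk hB h2).1
  obtain ⟨ν, hν⟩ := ex_nu (Set.toFinite _) (fun g => mapsTo_smul_orbit g b0) (fun g hg => Subtype.ext
    (eq_of_smul_eq_smul (α := X) fun x => by
      rw [OneMemClass.coe_one, one_smul]
      rcases R0.cov x with rfl | hx | ⟨v, rfl⟩
      · exact g.2
      · exact hg x hx
      · have := hE _ (mem_orbit c0 (v⁻¹ * g * v)) fun x hx h => by
          have h3 : (v⁻¹ * g * v) • x = x := by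
            rw [mul_smul, mul_smul, hg _ (mapsTo_smul_orbit v b0 hx), inv_smul_smul]
          exact h3 ▸ (orb_smul _ _ _ _ (v⁻¹ * g * v : stabilizer Γ a0).1).2 h
        rwa [mul_smul, mul_smul, inv_smul_eq_iff] at this)) a1 a2 a3
  obtain ⟨u, hu⟩ := a2 (mem_orbit_self b0)
  obtain ⟨t, rfl⟩ := (e.trans ν).surjective u
  have key : ∀ g, (e.trans ν) g • b0 = π (e (g * t⁻¹) • b0) := fun g => by
    rw [hν _ _ (mem_orbit_self b0), ← hu, ← mul_smul, ← MulEquiv.trans_apply, ← map_mul, inv_mul_cancel_right]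
  refine core (R.move (mem_orbit b' t⁻¹) (mem_orbit_self c)) R0 (e.trans ν) hk (fun g hg => ?_) ?_ hB hE hD hF hm
  · have := h2 (t * (g * t⁻¹)) (by rw [mul_smul, mul_smul, hg, smul_inv_smul])
    rw [map_mul, mul_smul, smul_eq_iff_eq_inv_smul, ← map_inv, ← one_mul t⁻¹] at this
    rw [key, one_mul] at *
    rw [this, ← one_mul t⁻¹, ← key, map_one, one_smul]
  · rintro _ ⟨g, hg, rfl⟩
    rw [key]
    exact a4 _ ⟨_, by rwa [orb_move (mem_orbit b' t⁻¹), ← mul_smul] at hg, rfl⟩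

end
end H14.R3
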