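import Cfsg.Agent.H23.Vn1

/-! Piece `PA'` for S4805. -/
set_option autoImplicit false
namespace H14.VnA
open Subgroup Cfsg H5 H8
open scoped ComplexConjugate
universe u

theorem pA : H23.Vn.PA'.{u} := by
  intro G _ _ g χ hg1 hχ hd hg hψ
  classical
  haveI := Fintype.ofFinite G
  have hvan : ∀ x, x ∉ commutator G → χ x = 0 := by
    intro x hx
    obtain ⟨lam, -, hl⟩ := exists_lin_ne_one (le_refl (commutator G)) hx
    have h1 : (χ * fun g => (lam g : ℂ)) = χ := by
      by_contra hne
      have := hψ _ (hχ.mul_hom lam) (by rwa [charDegree_mul_hom]) hne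
      simp only [Pi.mul_apply, mul_eq_zero, Units.ne_zero, or_false] at this
      exact hg this
    have h2 : χ x * (lam x : ℂ) = χ x := congrFun h1 x
    by_contra h0
    apply hl
    have h3 : (lam x : ℂ) = 1 := mul_left_cancel₀ h0 (by rw [h2, mul_one])
    exact Units.ext h3
  have hgH : g ∈ commutator G := by
    by_contra h
    exact hg (hvan g h)
  have key : ∀ h ∈ commutator G, ¬ IsConj g h →
      ((commutator G).index : ℂ) + χ g * conj (χ h) = 0 := by
    intro h hh hc
    have h0 := sum_irr_mul_conj_of_not_isConj hc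
    have h1 : ∀ ψ : IrrCharacter G, (ψ : G → ℂ) g * conj ((ψ : G → ℂ) h) =
        (if (ψ : G → ℂ) 1 = 1 then (1 : ℂ) else 0) +
          (if ψ = ⟨χ, hχ⟩ then χ g * conj (χ h) else 0) := by
      intro ψ
      by_cases hl : (ψ : G → ℂ) 1 = 1
      · have hk := ψ.2.commutator_le_charKer_iff.2 hl
        have hne : ψ ≠ ⟨χ, hχ⟩ := by
          rintro rfl
          exact hd (hχ.isCharacter.charDegree_eq_one_iff.2 hl)
        rw [if_pos hl, if_neg hne, apply_eq_of_mem_charKer (hk hgH), apply_eq_of_mem_charKer (hk hh), hl]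
        simp
      · rw [if_neg hl, zero_add]
        by_cases he : ψ = ⟨χ, hχ⟩
        · rw [if_pos he, he]
        · rw [if_neg he, hψ ψ ψ.2 (fun h => hl (ψ.2.isCharacter.charDegree_eq_one_iff.1 h))
            (fun h => he (Subtype.ext h)), zero_mul]
    rw [Finset.sum_congr rfl fun ψ _ => h1 ψ, Finset.sum_add_distrib, Finset.sum_ite_eq',
      if_pos (Finset.mem_univ _), Finset.sum_boole] at h0
    rw [← h0, ← card_linear_irr, Nat.subtype_card
      (Finset.univ.filter fun ψ : IrrCharacter G => (ψ : G → ℂ) 1 = 1) (fun ψ => by simp)]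
  have h1 := key 1 (one_mem _) (by simpa using hg1)
  rw [hχ.isCharacter.conj_apply_one] at h1
  have hn := hχ.apply_one_ne_zero
  have hconj : ∀ h ∈ commutator G, h ∉ charKer χ → IsConj g h := by
    intro h hh hk
    by_contra hc
    have h2 := key h hh hc
    have h3 : conj (χ h) = χ 1 := mul_left_cancel₀ hg (by linear_combination h2 - h1)
    apply hk
    rw [hχ.mem_charKer, ← hχ.isCharacter.conj_apply_one, ← h3, Complex.conj_conj]
  refine ⟨hgH, ?_, ?_, hconj, hvan, ?_⟩
  · field_simp
    linear_combination h1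
  · intro hk
    rw [apply_eq_of_mem_charKer hk, ← coe_charDegree hχ.isCharacter] at h1
    have h2 : (commutator G).index + charDegree χ * charDegree χ = 0 := by exact_mod_cast h1
    have := (commutator G).index_ne_zero_of_finite
    omega
  · intro ψ hψi hψd hle
    by_contra hne
    have hz := hψ ψ hψi hψd hne
    haveI := Fintype.ofFinite (commutator G)
    refine (not_le_ker_iff hψi).2 hψd
      (le_ker_of_constituent (le_refl (commutator G)) hψi isCharacter_one ?_ (by rw [charKer_one]; exact le_top))
    have h2 : ∀ s : commutator G, ψ s * conj (1 : ℂ) = if (s : G) ∈ charKer χ then ψ 1 else 0 := by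
      intro s
      rw [map_one, mul_one]
      split_ifs with hs
      · exact apply_eq_of_mem_charKer (hle hs)
      · obtain ⟨c, hc⟩ := isConj_iff.1 (hconj s s.2 hs)
        rw [← hc, hψi.isClassFunction, hz]
    simp only [classInner]
    rw [Finset.sum_congr rfl fun s _ => h2 s, ← Finset.sum_filter, Finset.sum_const, nsmul_eq_mul]
    refine mul_ne_zero (inv_ne_zero (Nat.cast_ne_zero.2 Nat.card_pos.ne'))
      (mul_ne_zero (Nat.cast_ne_zero.2 (Finset.card_pos.2 ⟨1, by simp⟩).ne') hψi.apply_one_ne_zero)

end H14.VnA
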